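import Cfsg.Agent.Lib.Root.RankOne

/-! Sets of abstract root subgroups: first properties. -/
set_option autoImplicit false

namespace Cfsg.Agent.Lib.Root

variable {G : Type*} [Group G] {S : Set (Subgroup G)} {A B C D P : Subgroup G}

theorem comm_iff : ⁅A, B⁆ = ⊥ ↔ ∀ a ∈ A, ∀ b ∈ B, a * b = b * a := by
  rw [Subgroup.commutator_eq_bot_iff_le_centralizer]
  constructor
  · intro h a ha b hb; exact ((h ha) b hb).symm
  · intro h a ha b hb; exact (h a ha b hb).symm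

theorem comm_symm (h : ⁅A, B⁆ = ⊥) : ⁅B, A⁆ = ⊥ := (Subgroup.commutator_comm B A).trans h

theorem comm_conj (h : ⁅A, B⁆ = ⊥) (g : G) : ⁅conjBy A g, conjBy B g⁆ = ⊥ := by
  rw [← Subgroup.map_commutator, h, Subgroup.map_bot]

theorem conjBy_eq_self_of_comm (h : ⁅A, B⁆ = ⊥) {b : G} (hb : b ∈ B) : conjBy A b = A :=
  conjBy_eq_self_of_commute fun a ha => (comm_iff.mp h a ha b hb).symm

theorem conjBy_eq_self_of_comm' (h : ⁅A, B⁆ = ⊥) {a : G} (ha : a ∈ A) : conjBy B a = B :=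
  conjBy_eq_self_of_comm (comm_symm h) ha

theorem mem_sup_commute (h : ⁅A, B⁆ = ⊥) {x : G} (hx : x ∈ A ⊔ B) : ∃ a ∈ A, ∃ b ∈ B, x = a * b := by
  have hc := comm_iff.mp h
  rw [Subgroup.sup_eq_closure] at hx
  induction hx using Subgroup.closure_induction with
  | mem y hy =>
    rcases hy with hy | hy
    · exact ⟨y, hy, 1, one_mem _, (mul_one y).symm⟩
    · exact ⟨1, one_mem _, y, hy, (one_mul y).symm⟩
  | one => exact ⟨1, one_mem _, 1, one_mem _, (one_mul 1).symm⟩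
  | mul y z _ _ hy hz =>
    obtain ⟨a, ha, b, hb, rfl⟩ := hy
    obtain ⟨a', ha', b', hb', rfl⟩ := hz
    exact ⟨a * a', mul_mem ha ha', b * b', mul_mem hb hb', by
      rw [mul_assoc, ← mul_assoc b, ← hc a' ha' b hb]; simp [mul_assoc]⟩
  | inv y _ hy =>
    obtain ⟨a, ha, b, hb, rfl⟩ := hy
    exact ⟨a⁻¹, inv_mem ha, b⁻¹, inv_mem hb, by rw [mul_inv_rev]; exact (hc _ (inv_mem ha) _ (inv_mem hb)).symm⟩

theorem comm_elem_mem {a b : G} (ha : a ∈ A) (hb : b ∈ B) : a * b * a⁻¹ * b⁻¹ ∈ ⁅A, B⁆ :=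
  Subgroup.commutator_mem_commutator ha hb

theorem commutator_invariant {x c : G} (hx : x ∈ A ⊔ B) (hc : c ∈ ⁅A, B⁆) : x * c * x⁻¹ ∈ ⁅A, B⁆ := by
  have hgen : ∀ {A B : Subgroup G}, ∀ g ∈ A, ∀ c ∈ ⁅A, B⁆, g * c * g⁻¹ ∈ ⁅A, B⁆ := by
    intro A B g hg c hc
    rw [Subgroup.commutator_def] at hc
    induction hc using Subgroup.closure_induction with
    | mem y hy =>
      obtain ⟨a, ha, b, hb, rfl⟩ := hy
      have e : g * (a * b * a⁻¹ * b⁻¹) * g⁻¹ = (g * a * b * (g * a)⁻¹ * b⁻¹) * (g * b * g⁻¹ * b⁻¹)⁻¹ := by group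
      rw [commutatorElement_def, e]
      exact mul_mem (comm_elem_mem (mul_mem hg ha) hb) (inv_mem (comm_elem_mem hg hb))
    | one => simp
    | mul y z _ _ hy hz => rw [show g * (y * z) * g⁻¹ = (g * y * g⁻¹) * (g * z * g⁻¹) by group]; exact mul_mem hy hz
    | inv y _ hy => rw [show g * y⁻¹ * g⁻¹ = (g * y * g⁻¹)⁻¹ by group]; exact inv_mem hy
  rw [Subgroup.sup_eq_closure] at hx
  induction hx using Subgroup.closure_induction'' generalizing c with
  | mem y hy =>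
    rcases hy with hy | hy
    · exact hgen y hy c hc
    · rw [Subgroup.commutator_comm] at hc ⊢; exact hgen y hy c hc
  | inv_mem y hy =>
    rcases hy with hy | hy
    · exact hgen _ (inv_mem hy) c hc
    · rw [Subgroup.commutator_comm] at hc ⊢; exact hgen _ (inv_mem hy) c hc
  | one => simpa using hc
  | mul y z _ _ hy hz =>
    rw [show y * z * c * (y * z)⁻¹ = y * (z * c * z⁻¹) * y⁻¹ by group]; exact hy (hz hc)

section RC

theorem rc_symm (h : RootCommutatorCase S A B) : RootCommutatorCase S B A := by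
  obtain ⟨h1, h2, h3, h4⟩ := h
  rw [RootCommutatorCase, Subgroup.commutator_comm B A, sup_comm B A]
  have key : ∀ (T : Set G) (f g : G → G), (∀ x ∈ T, f x = (g x)⁻¹) →
      Subgroup.closure (f '' T) = Subgroup.closure (g '' T) := by
    intro T f g hfg
    rw [← Subgroup.closure_inv (g '' T)]
    congr 1
    ext z
    simp only [Set.mem_image, Set.mem_inv]
    constructor
    · rintro ⟨x, hx, rfl⟩; exact ⟨x, hx, by rw [hfg x hx, inv_inv]⟩
    · rintro ⟨x, hx, e⟩; exact ⟨x, hx, by rw [hfg x hx, e, inv_inv]⟩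
  refine ⟨h1, h2, fun b hb hb1 => ?_, fun a ha ha1 => ?_⟩
  · rw [← h4 b hb hb1]; exact key _ _ _ fun a _ => by group
  · rw [← h3 a ha ha1]; exact key _ _ _ fun b _ => by group

theorem rc_comm_left (h : RootCommutatorCase S A B) : ⁅A, ⁅A, B⁆⁆ = ⊥ :=
  comm_iff.mpr fun a ha c hc => (h.2.1 c hc a (Subgroup.mem_sup_left ha)).symm

theorem rc_comm_right (h : RootCommutatorCase S A B) : ⁅B, ⁅A, B⁆⁆ = ⊥ :=
  comm_iff.mpr fun b hb c hc => (h.2.1 c hc b (Subgroup.mem_sup_right hb)).symm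

theorem rc_mul (h : RootCommutatorCase S A B) {a b₁ b₂ : G} (ha : a ∈ A) (h₁ : b₁ ∈ B) (h₂ : b₂ ∈ B) :
    a * (b₁ * b₂) * a⁻¹ * (b₁ * b₂)⁻¹ = (a * b₁ * a⁻¹ * b₁⁻¹) * (a * b₂ * a⁻¹ * b₂⁻¹) := by
  have hc := h.2.1 _ (comm_elem_mem ha h₂) b₁ (Subgroup.mem_sup_right h₁)
  have hb : a * b₂ * a⁻¹ * b₂⁻¹ * b₁⁻¹ = b₁⁻¹ * (a * b₂ * a⁻¹ * b₂⁻¹) :=
    (Commute.inv_right hc).eq
  calc a * (b₁ * b₂) * a⁻¹ * (b₁ * b₂)⁻¹ = a * b₁ * a⁻¹ * (a * b₂ * a⁻¹ * b₂⁻¹ * b₁⁻¹) := by group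
    _ = _ := by rw [hb]; group

theorem rc_mul' (h : RootCommutatorCase S A B) {a₁ a₂ b : G} (h₁ : a₁ ∈ A) (h₂ : a₂ ∈ A) (hb : b ∈ B) :
    (a₁ * a₂) * b * (a₁ * a₂)⁻¹ * b⁻¹ = (a₁ * b * a₁⁻¹ * b⁻¹) * (a₂ * b * a₂⁻¹ * b⁻¹) := by
  have hc := h.2.1 _ (comm_elem_mem h₂ hb) a₁ (Subgroup.mem_sup_left h₁)
  have hc1 := h.2.1 _ (comm_elem_mem h₂ hb) _ (Subgroup.mem_sup_right hb)
  have hsup : a₁ * b * a₁⁻¹ * b⁻¹ ∈ A ⊔ B :=
    mul_mem (mul_mem (mul_mem (Subgroup.mem_sup_left h₁) (Subgroup.mem_sup_right hb))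
      (inv_mem (Subgroup.mem_sup_left h₁))) (inv_mem (Subgroup.mem_sup_right hb))
  calc (a₁ * a₂) * b * (a₁ * a₂)⁻¹ * b⁻¹
      = a₁ * (a₂ * b * a₂⁻¹ * b⁻¹) * b * a₁⁻¹ * b⁻¹ := by group
    _ = (a₂ * b * a₂⁻¹ * b⁻¹) * (a₁ * b * a₁⁻¹ * b⁻¹) := by rw [← hc]; group
    _ = _ := h.2.1 _ (comm_elem_mem h₂ hb) _ hsup

theorem rc_surj (h : RootCommutatorCase S A B) {a c : G} (ha : a ∈ A) (ha1 : a ≠ 1) (hc : c ∈ ⁅A, B⁆) :
    ∃ b ∈ B, a * b * a⁻¹ * b⁻¹ = c := by
  rw [← h.2.2.1 a ha ha1] at hc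
  induction hc using Subgroup.closure_induction with
  | mem y hy => exact hy
  | one => exact ⟨1, one_mem _, by group⟩
  | mul y z _ _ hy hz =>
    obtain ⟨b₁, h₁, rfl⟩ := hy
    obtain ⟨b₂, h₂, rfl⟩ := hz
    exact ⟨_, mul_mem h₁ h₂, rc_mul h ha h₁ h₂⟩
  | inv y _ hy =>
    obtain ⟨b, hb, rfl⟩ := hy
    refine ⟨b⁻¹, inv_mem hb, eq_inv_of_mul_eq_one_left ?_⟩
    rw [← rc_mul h ha (inv_mem hb) hb, inv_mul_cancel]; group

theorem rc_surj' (h : RootCommutatorCase S A B) {b c : G} (hb : b ∈ B) (hb1 : b ≠ 1) (hc : c ∈ ⁅A, B⁆) :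
    ∃ a ∈ A, a * b * a⁻¹ * b⁻¹ = c := by
  obtain ⟨a, ha, e⟩ := rc_surj (rc_symm h) hb hb1 (c := c⁻¹) (by rw [Subgroup.commutator_comm]; exact inv_mem hc)
  refine ⟨a, ha, ?_⟩
  rw [show a * b * a⁻¹ * b⁻¹ = (b * a * b⁻¹ * a⁻¹)⁻¹ by group, e, inv_inv]

theorem conjBy_le_sup_commutator {a : G} (ha : a ∈ A) : conjBy B a ≤ B ⊔ ⁅A, B⁆ := by
  rintro z ⟨b, hb, rfl⟩
  have e : (MulAut.conj a).toMonoidHom b = (a * b * a⁻¹ * b⁻¹) * b := by simp [mul_assoc]
  rw [e]
  exact mul_mem (Subgroup.mem_sup_right (comm_elem_mem ha hb)) (Subgroup.mem_sup_left hb)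

theorem rc_conj_comm (h : RootCommutatorCase S A B) (hB : IsMulCommutative B) {a : G} (ha : a ∈ A) :
    ⁅conjBy B a, B⁆ = ⊥ := by
  rw [Subgroup.commutator_eq_bot_iff_le_centralizer]
  refine (conjBy_le_sup_commutator ha).trans (sup_le ?_ ?_)
  · intro b hb b' hb'
    exact congrArg Subtype.val (hB.is_comm.comm ⟨b', hb'⟩ ⟨b, hb⟩)
  · intro c hc b hb
    exact (h.2.1 c hc b (Subgroup.mem_sup_right hb)).symm

end RC

theorem pair_symm (hS : IsRootSubgroupSet S) (hA : A ∈ S) (hB : B ∈ S) (h : ⁅A, B⁆ ∈ S) : ⁅B, A⁆ ∈ S := by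
  rw [Subgroup.commutator_comm]; exact h

theorem member_ne_bot_comm (hS : IsRootSubgroupSet S) (h : ⁅A, B⁆ ∈ S) : ⁅A, B⁆ ≠ ⊥ := hS.ne_bot _ h

theorem rankOne_not_comm_conj (h : IsRankOnePair A B) {a : G} (ha : a ∈ A) (ha1 : a ≠ 1)
    (hc : ⁅conjBy B a, B⁆ = ⊥) : False :=
  not_commute (unipotent_pair h (conjBy_mem_unipotent (right_mem_unipotent h) (Subgroup.mem_sup_left ha))
    (right_mem_unipotent h) (fun e => ha1 (eq_one_of_normalizes h ha e))).1 hc

theorem rc_not_rankOne (hS : IsRootSubgroupSet S) (hB : B ∈ S) (h : RootCommutatorCase S A B) :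
    ¬ IsRankOnePair A B := fun hp => by
  obtain ⟨a, ha, ha1⟩ := exists_left hp
  exact rankOne_not_comm_conj hp ha ha1 (rc_conj_comm h (hS.commutative B hB) ha)

theorem rc_of_mem (hS : IsRootSubgroupSet S) (hA : A ∈ S) (hB : B ∈ S) (hAB : ⁅A, B⁆ ∈ S) :
    RootCommutatorCase S A B := by
  rcases hS.pair A hA B hB with h | h | h
  · exact absurd h (hS.ne_bot _ hAB)
  · exfalso
    set F := ⁅A, B⁆ with hF
    have hFle : F ≤ A ⊔ B := Subgroup.commutator_le.mpr fun a ha b hb =>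
      mul_mem (mul_mem (mul_mem (Subgroup.mem_sup_left ha) (Subgroup.mem_sup_right hb))
        (inv_mem (Subgroup.mem_sup_left ha))) (inv_mem (Subgroup.mem_sup_right hb))
    rcases normal_dichotomy h hFle (fun x hx n hn => commutator_invariant hx hn) with hsup | hcen
    · have hfinish : (∀ f ∈ F, conjBy A f = A) → False := by
        intro hfix
        obtain ⟨b, hb, hb1⟩ := exists_right h
        have hle : A ⊔ B ≤ Subgroup.normalizer (A : Set G) := by
          rw [← hsup]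
          exact sup_le (fun f hf => conjBy_eq_self_iff.mp (hfix f hf)) Subgroup.le_normalizer
        exact hb1 (eq_one_of_normalizes' h hb (conjBy_eq_self_iff.mpr (hle (Subgroup.mem_sup_right hb))))
      rcases hS.pair A hA F hAB with h' | h' | h'
      · exact hfinish fun f hf => conjBy_eq_self_of_comm h' hf
      · obtain ⟨a, ha, ha1⟩ := exists_left h'
        refine ha1 (eq_one_of_normalizes h' ha ?_)
        rw [conjBy_eq_self_iff, Subgroup.mem_normalizer_iff]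
        intro c
        exact ⟨fun hc => commutator_invariant (Subgroup.mem_sup_left ha) hc, fun hc => by
          simpa [mul_assoc] using commutator_invariant (Subgroup.mem_sup_left (T := B) (inv_mem ha)) hc⟩
      · apply hfinish
        intro f hf
        refine unipotent_normalizes_eq h (conjBy_mem_unipotent left_mem_unipotent (hFle hf)) ?_
        intro c hc
        have hle : conjBy A f ≤ Subgroup.centralizer (A : Set G) :=
          (Subgroup.commutator_eq_bot_iff_le_centralizer).mp (rc_conj_comm (rc_symm h') (hS.commutative A hA) hf)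
        exact conjBy_eq_self_of_commute fun a ha => (hle hc a ha).symm
    · exact not_class_two h fun a ha b hb x hx => hcen _ (comm_elem_mem ha hb) x hx
  · exact h

/-- A root element cannot be moved by an element centralizing a rank one group. -/
theorem eq_of_mul_mem (hS : IsRootSubgroupSet S) (hA : A ∈ S) (hB : B ∈ S) (h : IsRankOnePair A B) {z a : G}
    (hz : ∀ x ∈ A ⊔ B, z * x = x * z) (ha : a ∈ A) (ha1 : a ≠ 1) (hC : C ∈ S) (hc : z * a ∈ C) : C = A := by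
  set c := z * a with hcdef
  have hcA : ∀ a' ∈ A, c * a' = a' * c := fun a' ha' => by
    have hcomm : a * a' = a' * a := congrArg Subtype.val ((hS.commutative A hA).is_comm.comm ⟨a, ha⟩ ⟨a', ha'⟩)
    rw [hcdef, mul_assoc, hcomm, ← mul_assoc, hz a' (Subgroup.mem_sup_left ha'), mul_assoc]
  have hc1 : c ≠ 1 := by
    intro e
    refine ha1 (eq_one_of_normalizes h ha (conjBy_eq_self_of_commute fun b hb => ?_))
    have hz' : z = a⁻¹ := eq_inv_of_mul_eq_one_left e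
    have := hz b (Subgroup.mem_sup_right hb)
    rw [hz'] at this
    exact (inv_inv a ▸ (Commute.inv_left (show Commute a⁻¹ b from this)).eq)
  have hBc : conjBy B c⁻¹ = conjBy B a⁻¹ := by
    rw [hcdef, mul_inv_rev, ← conjBy_mul]
    congr 1
    exact conjBy_eq_self_of_commute fun b hb =>
      (Commute.inv_left (show Commute z b from hz b (Subgroup.mem_sup_right hb))).eq
  have hAC : ⁅A, C⁆ = ⊥ := by
    rcases hS.pair A hA C hC with h' | h' | h'
    · exact h'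
    · exact absurd (eq_one_of_normalizes' h' hc (conjBy_eq_self_of_commute hcA)) hc1
    · refine absurd ?_ (hS.ne_bot _ h'.1)
      rw [← h'.2.2.2 c hc hc1, Subgroup.closure_eq_bot_iff]
      rintro x ⟨a', ha', rfl⟩
      show a' * c * a'⁻¹ * c⁻¹ = 1
      rw [← hcA a' ha']; group
  have hne : conjBy B a⁻¹ ≠ B := fun e => ha1 (inv_eq_one.mp (eq_one_of_normalizes h (inv_mem ha) e))
  rcases hS.pair C hC B hB with h' | h' | h'
  · exact absurd (hBc ▸ conjBy_eq_self_of_comm' h' (inv_mem hc)) hne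
  · obtain ⟨b', hb', -, e'⟩ := h'.cond_left c hc hc1
    obtain ⟨b, hb, -, e⟩ := h.cond_left a ha ha1
    rw [hBc, ← e, conjBy_eq_iff, inv_inv, conjBy_mul] at e'
    have hmem : C ∈ unipotentSubgroups A B := ⟨_, Subgroup.mem_sup_right (mul_mem hb' (inv_mem hb)), e'⟩
    by_contra hCA
    exact not_commute (unipotent_pair h left_mem_unipotent hmem (Ne.symm hCA)).1 hAC
  · exfalso
    refine rankOne_not_comm_conj h (inv_mem ha) (inv_ne_one.mpr ha1) ?_
    rw [← hBc]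
    exact rc_conj_comm h' (hS.commutative B hB) (inv_mem hc)

end Cfsg.Agent.Lib.Root

namespace Cfsg.Agent.Lib.Root

variable {G : Type*} [Group G] {S : Set (Subgroup G)} {A B C D P : Subgroup G}

theorem exists_partner (hA : ¬ IsIsolatedIn (FAdj S) S A) (hAS : A ∈ S) : ∃ P ∈ S, IsRankOnePair A P := by
  by_contra hc
  refine hA ⟨hAS, fun B => ⟨fun h => hc ⟨B, h.2.1, h.2.2⟩, fun h => hc ⟨B, h.1, RankOnePair_symm h.2.2⟩⟩⟩

theorem fadj_symm {X Y : Subgroup G} (h : FAdj S X Y) : FAdj S Y X := ⟨h.2.1, h.1, RankOnePair_symm h.2.2⟩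

theorem freach_symm {X Y : Subgroup G} (h : Relation.ReflTransGen (FAdj S) X Y) :
    Relation.ReflTransGen (FAdj S) Y X := by
  induction h with
  | refl => exact .refl
  | tail _ e ih => exact .head (fadj_symm e) ih

theorem freach_mem {X Y : Subgroup G} (hX : X ∈ S) (h : Relation.ReflTransGen (FAdj S) X Y) : Y ∈ S := by
  cases h with
  | refl => exact hX
  | tail _ e => exact e.2.1

theorem freach_conj (hS : IsRootSubgroupSet S) {X Y : Subgroup G} (g : G) (h : Relation.ReflTransGen (FAdj S) X Y) :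
    Relation.ReflTransGen (FAdj S) (conjBy X g) (conjBy Y g) := by
  induction h with
  | refl => exact .refl
  | tail _ e ih => exact .tail ih ⟨hS.conj_mem _ e.1 g, hS.conj_mem _ e.2.1 g, rankOne_conj e.2.2 g⟩

/-- A member with a rank one partner meets every other member trivially. -/
theorem eq_of_mem_inter (hS : IsRootSubgroupSet S) (hA : A ∈ S) (hP : P ∈ S) (h : IsRankOnePair A P) (hC : C ∈ S)
    {x : G} (hxA : x ∈ A) (hxC : x ∈ C) (hx : x ≠ 1) : C = A :=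
  eq_of_mul_mem hS hA hP h (z := 1) (fun _ _ => by rw [one_mul, mul_one]) hxA hx hC (by rwa [one_mul])

theorem inter_bot (hS : IsRootSubgroupSet S) (hA : A ∈ S) (hP : P ∈ S) (h : IsRankOnePair A P) (hC : C ∈ S)
    (hne : C ≠ A) : A ⊓ C = ⊥ := by
  rw [eq_bot_iff]
  rintro x ⟨hxA, hxC⟩
  by_contra hx
  exact hne (eq_of_mem_inter hS hA hP h hC hxA hxC (fun e => hx (by rw [e]; exact one_mem _)))

theorem rc_inj (hS : IsRootSubgroupSet S) (hA : A ∈ S) (hP : P ∈ S) (hAP : IsRankOnePair A P)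
    (h : RootCommutatorCase S A B) {a b : G} (ha : a ∈ A) (hb : b ∈ B) (hab : a * b * a⁻¹ * b⁻¹ = 1) :
    a = 1 ∨ b = 1 := by
  refine or_iff_not_imp_left.mpr fun ha1 => by_contra fun hb1 => ?_
  have hcomm : b * a = a * b := by
    rw [← mul_inv_eq_one, ← inv_eq_one, ← hab]; group
  have hmem : a ∈ conjBy A b := mem_conjBy.mpr (by rw [mul_assoc, ← hcomm, inv_mul_cancel_left]; exact ha)
  have hfix : conjBy A b = A := eq_of_mem_inter hS hA hP hAP (hS.conj_mem A hA b) ha hmem ha1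
  have hle : ⁅A, B⁆ ≤ A := by
    rw [← h.2.2.2 b hb hb1, Subgroup.closure_le]
    rintro _ ⟨a', ha', rfl⟩
    have h1 : b * a'⁻¹ * b⁻¹ ∈ A := by rw [← hfix]; exact conj_mem_conjBy b (inv_mem ha')
    simpa [mul_assoc] using mul_mem ha' h1
  obtain ⟨c, hc, hc1⟩ := (⁅A, B⁆).bot_or_exists_ne_one.resolve_left (hS.ne_bot _ h.1)
  have hCA : ⁅A, B⁆ = A := eq_of_mem_inter hS hA hP hAP h.1 (hle hc) hc hc1
  have := comm_symm (rc_comm_right h)
  rw [hCA] at this
  exact hS.ne_bot _ h.1 this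

theorem rc_ne (hS : IsRootSubgroupSet S) (hA : A ∈ S) (h : RootCommutatorCase S A B) : ⁅A, B⁆ ≠ A := fun e => by
  have := comm_symm (rc_comm_right h)
  rw [e] at this
  exact hS.ne_bot _ h.1 this

theorem rc_inter_bot (hS : IsRootSubgroupSet S) (hA : A ∈ S) (hP : P ∈ S) (hAP : IsRankOnePair A P)
    (h : RootCommutatorCase S A B) : A ⊓ ⁅A, B⁆ = ⊥ :=
  inter_bot hS hA hP hAP h.1 (rc_ne hS hA h)

theorem eq_one_of_centralizes (h : IsRankOnePair A P) {a : G} (ha : a ∈ A) (hc : ∀ x ∈ A ⊔ P, a * x = x * a) :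
    a = 1 :=
  eq_one_of_normalizes h ha (conjBy_eq_self_of_commute fun p hp => hc p (Subgroup.mem_sup_right hp))

end Cfsg.Agent.Lib.Root

namespace Cfsg.Agent.Lib.Root

variable {G : Type*} [Group G] {S : Set (Subgroup G)} {A B C D P : Subgroup G}

theorem conj_right_inv_mem {a b : G} (ha : a ∈ A) (hb : b ∈ B) : a * b * a⁻¹ * b⁻¹ ∈ ⁅A, B⁆ := comm_elem_mem ha hb

/-- Members of S inside A ⊔ ⁅A, B⁆ in the commutator case. -/
theorem rc_members (hS : IsRootSubgroupSet S) (hA : A ∈ S) (hP : P ∈ S) (hAP : IsRankOnePair A P) (hB : B ∈ S)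
    (h : RootCommutatorCase S A B) :
    membersIn S (A ⊔ ⁅A, B⁆) = (fun b : G => conjBy A b) '' (B : Set G) ∪ {⁅A, B⁆} ∧
      IsSubgroupPartition (A ⊔ ⁅A, B⁆) (membersIn S (A ⊔ ⁅A, B⁆)) ∧
      A ∈ linePartners S ⁅A, B⁆ := by
  set F := ⁅A, B⁆ with hF
  have hAF : ⁅A, F⁆ = ⊥ := rc_comm_left h
  have hinter : ∀ x ∈ A, x ∈ F → x = 1 := fun x hx hx' =>
    Subgroup.mem_bot.mp (rc_inter_bot hS hA hP hAP h ▸ ⟨hx, hx'⟩)
  have hconjle : ∀ b ∈ B, conjBy A b ≤ A ⊔ F := by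
    rintro b hb _ ⟨a, ha, rfl⟩
    have e : (MulAut.conj b).toMonoidHom a = (a * b * a⁻¹ * b⁻¹)⁻¹ * a := by simp [mul_assoc]
    rw [e]
    exact mul_mem (inv_mem (Subgroup.mem_sup_right (comm_elem_mem ha hb))) (Subgroup.mem_sup_left ha)
  have hcover : ∀ x ∈ A ⊔ F, x ∈ F ∨ ∃ b ∈ B, x ∈ conjBy A b := by
    intro x hx
    obtain ⟨a, ha, c, hc, rfl⟩ := mem_sup_commute hAF hx
    rcases eq_or_ne a 1 with rfl | ha1
    · exact Or.inl (by simpa using hc)
    right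
    obtain ⟨b, hb, e⟩ := rc_surj h ha ha1 (inv_mem hc)
    refine ⟨b, hb, ?_⟩
    have hac : a * c = c * a := comm_iff.mp hAF a ha c hc
    have e2 : a * c = b * a * b⁻¹ := by
      rw [hac, ← inv_inv c, ← e]; group
    rw [e2]; exact conj_mem_conjBy b ha
  have hdis : ∀ b ∈ B, ∀ E ∈ S, ∀ x ∈ conjBy A b, x ∈ E → x ≠ 1 → E = conjBy A b := fun b _ E hE x hx hxE hx1 =>
    eq_of_mem_inter hS (hS.conj_mem A hA b) (hS.conj_mem P hP b) (rankOne_conj hAP b) hE hx hxE hx1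
  have hFconj : ∀ b ∈ B, ∀ x ∈ conjBy A b, x ∈ F → x = 1 := by
    intro b hb x hx hxF
    have h1 : b⁻¹ * x * b = x := by
      rw [mul_assoc, h.2.1 x hxF b (Subgroup.mem_sup_right hb), inv_mul_cancel_left]
    rw [mem_conjBy, h1] at hx
    exact hinter x hx hxF
  have hsmall : ∀ E ∈ S, E ≤ F → E = F := by
    intro E hE hEF
    refine le_antisymm hEF ?_
    obtain ⟨e, he, he1⟩ := E.bot_or_exists_ne_one.resolve_left (hS.ne_bot E hE)
    obtain ⟨a₀, ha₀, ha₀1⟩ := exists_left hAP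
    rcases hS.pair F h.1 P hP with h' | h' | h'
    · exfalso
      have hz : ∀ x ∈ A ⊔ P, e * x = x * e := by
        intro x hx
        have hle : A ⊔ P ≤ Subgroup.centralizer ({e} : Set G) := sup_le
          (fun a ha => Subgroup.mem_centralizer_singleton_iff.mpr (comm_iff.mp hAF a ha e (hEF he)))
          (fun p hp => Subgroup.mem_centralizer_singleton_iff.mpr (comm_iff.mp h' e (hEF he) p hp).symm)
        exact (Subgroup.mem_centralizer_singleton_iff.mp (hle hx)).symm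
      rcases hcover (e * a₀) (mul_mem (Subgroup.mem_sup_right (hEF he)) (Subgroup.mem_sup_left ha₀)) with hx | ⟨b, hb, hx⟩
      · exact ha₀1 (hinter a₀ ha₀ ((mul_mem_cancel_left (hEF he)).mp hx))
      · have := eq_of_mul_mem hS hA hP hAP hz ha₀ ha₀1 (hS.conj_mem A hA b) hx
        rw [this] at hx
        exact he1 (hinter e ((mul_mem_cancel_right ha₀).mp hx) (hEF he))
    · exact (eq_of_mem_inter hS h.1 hP h' hE (hEF he) he he1).ge
    · intro c hc
      obtain ⟨p, hp, hp1⟩ := exists_right hAP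
      have hsub : ⁅F, P⁆ ≤ ⁅E, P⁆ := by
        rw [← h'.2.2.1 e (hEF he) he1, Subgroup.closure_le]
        rintro _ ⟨q, hq, rfl⟩; exact comm_elem_mem he hq
      rcases hS.pair E hE P hP with h'' | h'' | h''
      · exact absurd (le_bot_iff.mp (h'' ▸ hsub)) (hS.ne_bot _ h'.1)
      · exfalso
        exact rankOne_not_comm_conj h'' he he1 (rc_conj_comm h' (hS.commutative P hP) (hEF he))
      · obtain ⟨e', he', e2⟩ := rc_surj' h'' hp hp1 (hsub (comm_elem_mem hc hp))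
        have hce : e' = c := by
          rcases rc_inj hS hP hA (RankOnePair_symm hAP) (rc_symm h') hp (mul_mem (inv_mem (hEF he')) hc)
            (by
              rw [show p * (e'⁻¹ * c) * p⁻¹ * (e'⁻¹ * c)⁻¹ = ((e'⁻¹ * c) * p * (e'⁻¹ * c)⁻¹ * p⁻¹)⁻¹ by group,
                inv_eq_one, rc_mul' h' (inv_mem (hEF he')) hc hp, ← e2, ← rc_mul' h' (inv_mem (hEF he')) (hEF he') hp,
                inv_mul_cancel]
              group) with h1 | h1
          · exact absurd h1 hp1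
          · exact inv_mul_eq_one.mp h1
        rw [← hce]; exact he'
  have hmem : membersIn S (A ⊔ F) = (fun b : G => conjBy A b) '' (B : Set G) ∪ {F} := by
    ext E
    constructor
    · rintro ⟨hE, hle⟩
      by_cases hEF : E ≤ F
      · exact Or.inr (hsmall E hE hEF)
      · obtain ⟨x, hx, hxF⟩ := SetLike.not_le_iff_exists.mp hEF
        obtain ⟨b, hb, hxb⟩ := (hcover x (hle hx)).resolve_left hxF
        exact Or.inl ⟨b, hb, (hdis b hb E hE x hxb hx (fun e => hxF (e ▸ one_mem F))).symm⟩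
    · rintro (⟨b, hb, rfl⟩ | rfl)
      · exact ⟨hS.conj_mem A hA b, hconjle b hb⟩
      · exact ⟨h.1, le_sup_right⟩
  have hpart : IsSubgroupPartition (A ⊔ F) (membersIn S (A ⊔ F)) := by
    refine ⟨fun E hE => hE.2, fun x hx hx1 => ?_, ?_⟩
    · rw [hmem]
      rcases hcover x hx with hx' | ⟨b, hb, hx'⟩
      · exact ⟨F, Or.inr rfl, hx'⟩
      · exact ⟨_, Or.inl ⟨b, hb, rfl⟩, hx'⟩
    · intro E₁ h₁ E₂ h₂ hne
      rw [eq_bot_iff]
      rintro x ⟨hx₁, hx₂⟩
      by_contra hx1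
      have hx1' : x ≠ 1 := fun e => hx1 (by rw [e]; exact one_mem _)
      rw [hmem] at h₁ h₂
      rcases h₁ with ⟨b, hb, rfl⟩ | rfl
      · rcases h₂ with ⟨b', hb', rfl⟩ | rfl
        · exact hne (hdis b hb _ (hS.conj_mem A hA b') x hx₁ hx₂ hx1').symm
        · exact hx1' (hFconj b hb x hx₁ hx₂)
      · rcases h₂ with ⟨b', hb', rfl⟩ | rfl
        · exact hx1' (hFconj b' hb' x hx₂ hx₁)
        · exact hne rfl
  refine ⟨hmem, hpart, ⟨hA, (rc_ne hS hA h).symm, comm_symm hAF⟩, ?_⟩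
  rwa [sup_comm F A]

/-- Line partners lie in one component. -/
theorem linePartner_reach (hS : IsRootSubgroupSet S) (hA : A ∈ S) (hP : P ∈ S) (hAP : IsRankOnePair A P) (hB : B ∈ S)
    (hQ : ∃ Q ∈ S, IsRankOnePair B Q) (hAB : B ∈ linePartners S A) : Relation.ReflTransGen (FAdj S) A B := by
  obtain ⟨⟨-, hne, hcomm⟩, -, hcov, hdisj⟩ := hAB
  obtain ⟨Q, hQS, hBQ⟩ := hQ
  have hAm : A ∈ membersIn S (A ⊔ B) := ⟨hA, le_sup_left⟩
  have hBm : B ∈ membersIn S (A ⊔ B) := ⟨hB, le_sup_right⟩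
  have key : ∀ {A B P : Subgroup G}, A ∈ S → B ∈ S → P ∈ S → IsRankOnePair A P → ⁅A, B⁆ = ⊥ → A ⊓ B = ⊥ →
      ¬ Relation.ReflTransGen (FAdj S) A B → ∀ E ∈ S, ∀ a ∈ A, ∀ b ∈ B, a * b ∈ E → a ≠ 1 → b ≠ 1 →
        Relation.ReflTransGen (FAdj S) A E := by
    intro A B P hA hB hP hAP hcomm hbot hnr E hE a ha b hb hx ha1 hb1
    have hbA : ∀ a' ∈ A, b * a' = a' * b := fun a' ha' => (comm_iff.mp hcomm a' ha' b hb).symm
    have hnb : ¬ (∀ x ∈ A ⊔ P, b * x = x * b) := by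
      intro hz
      have hEA := eq_of_mul_mem hS hA hP hAP hz ha ha1 hE (by rwa [hbA a ha])
      rw [hEA] at hx
      exact hb1 (Subgroup.mem_bot.mp (hbot ▸ ⟨(mul_mem_cancel_left ha).mp hx, hb⟩))
    have hrc : RootCommutatorCase S B P := by
      rcases hS.pair B hB P hP with h' | h' | h'
      · refine absurd (fun x hx => ?_) hnb
        have hle : A ⊔ P ≤ Subgroup.centralizer ({b} : Set G) := sup_le
          (fun a' ha' => Subgroup.mem_centralizer_singleton_iff.mpr (hbA a' ha').symm)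
          (fun p hp => Subgroup.mem_centralizer_singleton_iff.mpr (comm_iff.mp h' b hb p hp).symm)
        exact (Subgroup.mem_centralizer_singleton_iff.mp (hle hx)).symm
      · exact absurd (.tail (.single ⟨hA, hP, hAP⟩) ⟨hP, hB, RankOnePair_symm h'⟩) hnr
      · exact h'
    have hPb : ⁅conjBy P b, P⁆ = ⊥ := rc_conj_comm hrc (hS.commutative P hP) hb
    have hnot : ⁅conjBy P (a * b), P⁆ = ⊥ → False := by
      intro h1
      have h2 : ⁅conjBy P b, conjBy P a⁻¹⁆ = ⊥ := by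
        have := comm_conj h1 a⁻¹
        rwa [conjBy_mul, inv_mul_cancel_left] at this
      obtain ⟨p, hp, -, e⟩ := hAP.cond_left a ha ha1
      rw [← e] at h2
      have h3 := comm_conj h2 p
      rw [conjBy_conjBy_inv, conjBy_eq_self_of_comm hPb hp] at h3
      have h4 := comm_conj h3 b⁻¹
      rw [conjBy_inv_conjBy, conjBy_eq_self_of_comm hcomm (inv_mem hb)] at h4
      exact not_commute hAP (comm_symm h4)
    rcases hS.pair E hE P hP with h' | h' | h'
    · exfalso; apply hnot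
      rw [conjBy_eq_self_of_comm' h' hx]
      exact comm_iff.mpr fun u hu v hv => congrArg Subtype.val ((hS.commutative P hP).is_comm.comm ⟨u, hu⟩ ⟨v, hv⟩)
    · exact .tail (.single ⟨hA, hP, hAP⟩) ⟨hP, hE, RankOnePair_symm h'⟩
    · exact (hnot (rc_conj_comm h' (hS.commutative P hP) hx)).elim
  by_contra hnr
  have hbot : A ⊓ B = ⊥ := hdisj A hAm B hBm (Ne.symm hne)
  obtain ⟨a, ha, ha1⟩ := exists_left hAP
  obtain ⟨b, hb, hb1⟩ := exists_left hBQ
  have hab1 : a * b ≠ 1 := fun e => ha1 (Subgroup.mem_bot.mp (hbot ▸ ⟨ha, by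
    rw [eq_inv_of_mul_eq_one_left e]; exact B.inv_mem hb⟩))
  obtain ⟨E, hE, hx⟩ := hcov (a * b) (mul_mem (Subgroup.mem_sup_left ha) (Subgroup.mem_sup_right hb)) hab1
  have hx' : b * a ∈ E := by rwa [← comm_iff.mp hcomm a ha b hb]
  exact hnr ((key hA hB hP hAP hcomm hbot hnr E hE.1 a ha b hb hx ha1 hb1).trans (freach_symm
    (key hB hA hQS hBQ (comm_symm hcomm) (inf_comm A B ▸ hbot) (fun h => hnr (freach_symm h)) E hE.1 b hb a ha hx' hb1 ha1)))

end Cfsg.Agent.Lib.Root
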