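import Cfsg.Agent.Lib.Root.Lines
import Cfsg.Agent.S5036

/-! Connectivity of the line-partner graph and generation by line partners and an opposite. -/
set_option autoImplicit false

namespace Cfsg.Agent.Lib.Root

variable {G : Type*} [Group G] {S : Set (Subgroup G)} {A B C D : Subgroup G}

theorem all_partners (hS : IsRootSubgroupClass S) (hnd : IsNondegenerateRootSet S) :
    ∀ X ∈ S, ∃ P ∈ S, IsRankOnePair X P := by
  obtain ⟨A, hA, B, hB, h⟩ := hnd.2.1
  intro X hX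
  obtain ⟨g, rfl⟩ := hS.2.2 A hA X hX
  exact ⟨_, hS.1.conj_mem B hB g, rankOne_conj h g⟩

theorem eadj_symm {X Y : Subgroup G} (h : EAdj S S X Y) : EAdj S S Y X :=
  ⟨h.2.1, h.1, linePartner_symm h.1 h.2.2⟩

theorem eadj_conj (hS : IsRootSubgroupSet S) (g : G) {X Y : Subgroup G} (h : EAdj S S X Y) :
    EAdj S S (conjBy X g) (conjBy Y g) :=
  ⟨hS.conj_mem X h.1 g, hS.conj_mem Y h.2.1 g, linePartner_conj hS h.2.2 g⟩

theorem eadj_of_rc (hS : IsRootSubgroupSet S) (hpart : ∀ X ∈ S, ∃ P ∈ S, IsRankOnePair X P)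
    (hA : A ∈ S) (hB : B ∈ S) (h : RootCommutatorCase S A B) : EAdj S S ⁅A, B⁆ A := by
  obtain ⟨P, hP, hAP⟩ := hpart A hA
  exact ⟨h.1, hA, (rc_members hS hA hP hAP hB h).2.2⟩

theorem ereach_conj_rc (hS : IsRootSubgroupSet S) (hpart : ∀ X ∈ S, ∃ P ∈ S, IsRankOnePair X P)
    (hA : A ∈ S) (hC : C ∈ S) (h : RootCommutatorCase S A C) {c : G} (hc : c ∈ C) :
    Relation.ReflTransGen (EAdj S S) A (conjBy A c) := by
  have h1 := eadj_of_rc hS hpart hA hC h
  have h2 := eadj_conj hS c h1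
  rw [conjBy_eq_self_of_comm (comm_symm (rc_comm_right h)) hc] at h2
  exact .tail (.single (eadj_symm h1)) h2

theorem line_connected (hS : IsRootSubgroupClass S) (hnd : IsNondegenerateRootSet S) :
    IsConnectedFamily (EAdj S S) S := by
  have hpart := all_partners hS hnd
  have step : ∀ C ∈ S, ∀ c ∈ C, ∀ X ∈ S, Relation.ReflTransGen (EAdj S S) X (conjBy X c) := by
    intro C hC c hc X hX
    rcases hS.1.pair X hX C hC with h | h | h
    · rw [conjBy_eq_self_of_comm h hc]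
    · obtain ⟨⟨L, hL, hCL⟩, -⟩ := S5034.result hS hnd hX (⟨hC, h⟩ : C ∈ rankOnePartners S X)
      have hLS := hL.1.1
      have h1 := ereach_conj_rc hS.1 hpart hLS hC (rc_symm (rc_of_mem hS.1 hC hLS hCL.2)) hc
      have e1 : EAdj S S X L := ⟨hX, hLS, hL⟩
      exact ((Relation.ReflTransGen.single e1).trans h1).tail (eadj_symm (eadj_conj hS.1 c e1))
    · exact ereach_conj_rc hS.1 hpart hX hC h hc
  have key : ∀ g : G, ∀ X ∈ S, Relation.ReflTransGen (EAdj S S) X (conjBy X g) := by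
    have flip : ∀ {X Y : Subgroup G}, Relation.ReflTransGen (EAdj S S) X Y →
        Relation.ReflTransGen (EAdj S S) Y X := by
      intro X Y h
      induction h with
      | refl => exact .refl
      | tail _ e ih => exact .head (eadj_symm e) ih
    intro g
    have hg : g ∈ (⨆ A ∈ S, A) := by rw [hS.1.generates]; trivial
    rw [← iSup_subtype'' (f := fun A : Subgroup G => A)] at hg
    induction hg using Subgroup.iSup_induction' with
    | hp i x hx => exact step i i.2 x hx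
    | h1 => intro X _; rw [conjBy_one]
    | hmul x y _ _ hx hy =>
      intro X hX
      rw [← conjBy_mul]
      exact (hy X hX).trans (hx _ (hS.1.conj_mem X hX y))
  intro A hA B hB
  obtain ⟨g, rfl⟩ := hS.2.2 A hA B hB
  exact key g A hA

/-- The line through `A` and a line partner, seen from an opposite `B` of `A`. -/
theorem exists_rc_partner (hS : IsRootSubgroupSet S) (hpart : ∀ X ∈ S, ∃ P ∈ S, IsRankOnePair X P)
    (hA : A ∈ S) (hB : B ∈ S) (h : IsRankOnePair A B) (hC : C ∈ linePartners S A) :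
    ∃ U ∈ linePartners S A, RootCommutatorCase S B U ∧ A ⊔ U = A ⊔ C := by
  obtain ⟨U, hU, hBU⟩ := S5034.exists_rc_member hS hA hB h hC
  have hUA : U ≠ A := fun e => rc_not_rankOne hS hA (e ▸ hBU) (RankOnePair_symm h)
  obtain ⟨⟨hCS, hCA, hac⟩, hpartition⟩ := hC
  have hcov := hpartition.2.1
  have hACc : A ⊔ C ≤ Subgroup.centralizer (A : Set G) := sup_le
    (fun x hx => Subgroup.mem_centralizer_iff.2 fun y hy =>
      congrArg Subtype.val ((hS.commutative A hA).is_comm.comm ⟨y, hy⟩ ⟨x, hx⟩))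
    (Subgroup.commutator_eq_bot_iff_le_centralizer.1 (comm_symm hac))
  have hau : ⁅A, U⁆ = ⊥ :=
    comm_symm (Subgroup.commutator_eq_bot_iff_le_centralizer.2 (hU.2.trans hACc))
  have hs := (line_swap_of_cover hS hA hB h hU.1 hau (fun a ha c hc h1 => by
    obtain ⟨V, hV, hm⟩ := hcov _ (mul_mem (Subgroup.mem_sup_left ha) (hU.2 hc)) h1
    exact ⟨V, hV.1, hm⟩) (hpart U hU.1) hBU).1
  have hK := hBU.1
  obtain ⟨hmem, hpar, -⟩ :=
    rc_members hS hA hB h hK (rc_of_mem hS hA hK (by rw [hs]; exact hU.1))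
  rw [hs] at hpar
  obtain ⟨u, hu, hu1⟩ := U.bot_or_exists_ne_one.resolve_left (hS.ne_bot U hU.1)
  obtain ⟨a, ha, b, hb, rfl⟩ := mem_sup_commute hac (hU.2 hu)
  have hb1 : b ≠ 1 := by
    rintro rfl
    rw [mul_one] at hu hu1
    exact hUA (eq_of_mem_inter hS hA hB h hU.1 ha hu hu1)
  have hbm : b ∈ A ⊔ U := by
    have := mul_mem (inv_mem (Subgroup.mem_sup_left (T := U) ha)) (Subgroup.mem_sup_right (S := A) hu)
    simpa using this
  obtain ⟨M, hM, hbM⟩ := hpar.2.1 b hbm hb1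
  obtain ⟨Q, hQ, hCQ⟩ := hpart C hCS
  have hMC := eq_of_mem_inter hS hCS hQ hCQ hM.1 hb hbM hb1
  have heq : A ⊔ U = A ⊔ C :=
    le_antisymm (sup_le le_sup_left hU.2) (sup_le le_sup_left (hMC ▸ hM.2))
  exact ⟨U, ⟨⟨hU.1, hUA, hau⟩, by rw [heq]; exact hpartition⟩, hBU, heq⟩

theorem generated_by_line_partners (hS : IsRootSubgroupClass S) (hnd : IsNondegenerateRootSet S)
    (hA : A ∈ S) (hB : B ∈ rankOnePartners S A) :
    (⨆ C ∈ linePartners S A, C) ⊔ B = ⊤ := by
  obtain ⟨hBS, h⟩ := hB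
  have hpart := all_partners hS hnd
  set H := (⨆ C ∈ linePartners S A, C) ⊔ B with hH
  have hBH : B ≤ H := le_sup_right
  have hCH : ∀ C ∈ linePartners S A, C ≤ H := fun C hC =>
    (le_biSup (fun C : Subgroup G => C) hC).trans le_sup_left
  have hcle : ∀ {P Q : Subgroup G}, P ≤ H → Q ≤ H → ⁅P, Q⁆ ≤ H := fun {P Q} hP hQ =>
    Subgroup.commutator_le.2 fun p hp q hq =>
      H.mul_mem (H.mul_mem (H.mul_mem (hP hp) (hQ hq)) (H.inv_mem (hP hp))) (H.inv_mem (hQ hq))
  have horbit : ∀ C ∈ linePartners S A, A ≤ H ∧ ∃ x ∈ H, conjBy A x = C := by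
    intro C hC
    obtain ⟨U, hU, hBU, heq⟩ := exists_rc_partner hS.1 hpart hA hBS h hC
    have hUS := hU.1.1
    have hs := (line_swap hS.1 hA hBS h hU (hpart U hUS) hBU).1
    have hFS := hBU.1
    have hAF := rc_of_mem hS.1 hA hFS (hs.symm ▸ hUS)
    have hFH : ⁅B, U⁆ ≤ H := hcle hBH (hCH U hU)
    obtain ⟨D, hD, hUD, hUDA⟩ := exists_shift hS.1 hpart hA hFS hAF
    rw [hs] at hUD hUDA
    have hDA : D ∈ linePartners S A := by
      have e := eadj_of_rc hS.1 hpart hD hUS (rc_symm hUD)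
      rw [show ⁅D, U⁆ = A from (Subgroup.commutator_comm D U).trans hUDA] at e
      exact e.2.2
    have hAH : A ≤ H := hUDA ▸ hcle (hCH U hU) (hCH D hDA)
    refine ⟨hAH, ?_⟩
    obtain ⟨-, -, horb, -⟩ := S5036.main hS.1 hA hFS hAF.1 hD
      (by rw [hs]; exact (Subgroup.commutator_comm D U).trans hUDA)
    have hFD : ⁅B, U⁆ ⊔ D ≤ H := sup_le hFH (hCH D hDA)
    have hUorb : ∃ x ∈ H, conjBy A x = U := by
      have : ⁅A, ⁅B, U⁆⁆ ∈ {E | ∃ x ∈ ⁅B, U⁆ ⊔ D, E = conjBy A x} := horb ▸ Or.inr rfl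
      obtain ⟨x, hx, e⟩ := this
      exact ⟨x, hFD hx, e.symm.trans hs⟩
    obtain ⟨P, hP, hAP⟩ := hpart A hA
    have hmem := (rc_members hS.1 hA hP hAP hFS hAF).1
    rw [hs, heq] at hmem
    have hCm : C ∈ membersIn S (A ⊔ C) := ⟨hC.1.1, le_sup_right⟩
    rw [hmem] at hCm
    rcases hCm with ⟨f, hf, e⟩ | e
    · exact ⟨f, hFH hf, e⟩
    · rw [Set.mem_singleton_iff] at e; exact e ▸ hUorb
  have hAH : A ≤ H := by
    obtain ⟨⟨C, hC, -⟩, -⟩ := S5034.result hS hnd hA (⟨hBS, h⟩ : B ∈ rankOnePartners S A)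
    exact (horbit C hC).1
  have hall : ∀ X, Relation.ReflTransGen (EAdj S S) A X → ∃ x ∈ H, conjBy A x = X := by
    intro X hX
    induction hX with
    | refl => exact ⟨1, one_mem _, conjBy_one A⟩
    | @tail Y Z _ e ih =>
      obtain ⟨x, hx, rfl⟩ := ih
      have h1 := linePartner_conj hS.1 e.2.2 x⁻¹
      rw [conjBy_inv_conjBy] at h1
      obtain ⟨y, hy, e'⟩ := (horbit _ h1).2
      exact ⟨x * y, mul_mem hx hy, by rw [← conjBy_mul, e', conjBy_conjBy_inv]⟩
  rw [← top_le_iff, ← hS.1.generates]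
  refine iSup₂_le fun X hX => ?_
  obtain ⟨x, hx, rfl⟩ := hall X (line_connected hS hnd A hA X hX)
  rintro _ ⟨a, ha, rfl⟩
  exact mul_mem (mul_mem hx (hAH ha)) (inv_mem hx)

/-- Weak TI subsets are abelian. -/
theorem weak_ti_abelian (hS : IsRootSubgroupClass S) (hnd : IsNondegenerateRootSet S)
    {Δ : Set (Subgroup G)} (hΔ : IsWeakTISubset S Δ) : IsAbelianFamily Δ := by
  obtain ⟨hsub, -, hneS, hTI⟩ := hΔ
  have hpart := all_partners hS hnd
  let T : Subgroup G :=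
    { carrier := {g | ∀ X, X ∈ Δ ↔ conjBy X g ∈ Δ}
      one_mem' := fun X => by rw [conjBy_one]
      mul_mem' := fun {g g'} hg hg' X => by rw [← conjBy_mul, hg' X, hg (conjBy X g')]
      inv_mem' := fun {g} hg X => by rw [hg (conjBy X g⁻¹), conjBy_conjBy_inv] }
  have hcomm : ∀ D ∈ S, ∀ A ∈ Δ, (∀ d ∈ D, conjBy A d = A) → D ≤ T := by
    intro D hD A hA hfix d hd
    rcases eq_or_ne d 1 with rfl | hd1
    · exact T.one_mem
    intro X
    have himg : (fun A => conjBy A d) '' Δ = Δ := (hTI d ⟨hd1, D, hD, hd⟩).resolve_right fun hdis =>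
      Set.disjoint_left.1 hdis ⟨A, hA, hfix d hd⟩ hA
    constructor
    · intro hX
      rw [← himg]
      exact ⟨X, hX, rfl⟩
    · intro hX
      rw [← himg] at hX
      obtain ⟨Y, hY, e⟩ := hX
      exact conjBy_injective d e ▸ hY
  have hself : ∀ A ∈ Δ, A ≤ T := fun A hA =>
    hcomm A (hsub hA) A hA fun a ha => conjBy_eq_self_of_mem ha
  have noRankOne : ∀ A ∈ Δ, ∀ C ∈ Δ, ¬ IsRankOnePair A C := by
    intro A hA C hC h
    have htop : T = ⊤ := by
      rw [eq_top_iff, ← generated_by_line_partners hS hnd (hsub hA) (⟨hsub hC, h⟩ : C ∈ rankOnePartners S A)]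
      refine sup_le (iSup₂_le fun L hL => ?_) (hself C hC)
      exact hcomm L hL.1.1 A hA fun d hd => conjBy_eq_self_of_comm hL.1.2.2 hd
    refine hneS (Set.Subset.antisymm hsub fun X hX => ?_)
    obtain ⟨g, rfl⟩ := hS.2.2 A (hsub hA) X hX
    exact ((htop ▸ Subgroup.mem_top g : g ∈ T) A).1 hA
  intro A hA C hC
  rcases hS.1.pair A (hsub hA) C (hsub hC) with h | h | h
  · exact comm_iff.1 h
  · exact absurd h (noRankOne A hA C hC)
  exfalso
  obtain ⟨D, hD, h2, hA'⟩ := exists_shift hS.1 hpart (hsub hA) (hsub hC) h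
  have hp := S5036.pair_BD hS.1 (hsub hA) (hsub hC) hD h rfl h2 hA'
  have hAD : ⁅A, D⁆ = ⊥ := comm_symm (hA' ▸ rc_comm_right h2)
  have hDT := hcomm D hD A hA fun d hd => conjBy_eq_self_of_comm hAD hd
  obtain ⟨d, hd, hd1⟩ := exists_right hp
  have hm : conjBy C d ∈ Δ := (hDT hd C).1 hC
  refine noRankOne C hC _ hm (unipotent_pair hp left_mem_unipotent
    (conjBy_mem_unipotent left_mem_unipotent (Subgroup.mem_sup_right hd)) ?_).1
  exact fun e => hd1 (eq_one_of_normalizes' hp hd e.symm)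

end Cfsg.Agent.Lib.Root
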