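import Cfsg.Prelude.Def_RootSubgroups

/-! Rank one groups: first properties. -/
set_option autoImplicit false

namespace Cfsg.Agent.Lib.Root

variable {G : Type*} [Group G]

theorem mem_conjBy {A : Subgroup G} {g z : G} : z ∈ conjBy A g ↔ g⁻¹ * z * g ∈ A := by
  constructor
  · rintro ⟨a, ha, rfl⟩; simpa [mul_assoc] using ha
  · intro h; exact ⟨_, h, by simp [mul_assoc]⟩

theorem conj_mem_conjBy {A : Subgroup G} {a : G} (g : G) (ha : a ∈ A) : g * a * g⁻¹ ∈ conjBy A g :=
  mem_conjBy.mpr (by simpa [mul_assoc] using ha)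

theorem conjBy_mul (A : Subgroup G) (x y : G) : conjBy (conjBy A x) y = conjBy A (y * x) := by
  ext z; simp [mem_conjBy, mul_assoc]

theorem conjBy_one (A : Subgroup G) : conjBy A 1 = A := by ext z; simp [mem_conjBy]

theorem conjBy_inv_conjBy (A : Subgroup G) (x : G) : conjBy (conjBy A x) x⁻¹ = A := by
  rw [conjBy_mul, inv_mul_cancel, conjBy_one]

theorem conjBy_conjBy_inv (A : Subgroup G) (x : G) : conjBy (conjBy A x⁻¹) x = A := by
  rw [conjBy_mul, mul_inv_cancel, conjBy_one]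

theorem conjBy_injective (g : G) : Function.Injective fun A : Subgroup G => conjBy A g := fun A B h => by
  simpa [conjBy_inv_conjBy] using congrArg (fun C => conjBy C g⁻¹) h

theorem conjBy_eq_iff (A C : Subgroup G) (x : G) : conjBy A x = C ↔ A = conjBy C x⁻¹ :=
  ⟨fun h => by rw [← h, conjBy_inv_conjBy], fun h => by rw [h, conjBy_conjBy_inv]⟩

theorem conjBy_eq_self_of_mem {A : Subgroup G} {a : G} (ha : a ∈ A) : conjBy A a = A := by
  ext z; rw [mem_conjBy]
  exact ⟨fun h => by simpa [mul_assoc] using A.mul_mem (A.mul_mem ha h) (A.inv_mem ha),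
    fun h => A.mul_mem (A.mul_mem (A.inv_mem ha) h) ha⟩

theorem conjBy_eq_self_iff {A : Subgroup G} {g : G} :
    conjBy A g = A ↔ g ∈ Subgroup.normalizer (A : Set G) := by
  rw [Subgroup.mem_normalizer_iff]
  constructor
  · intro h z
    conv_rhs => rw [← h, mem_conjBy]
    simp [mul_assoc]
  · intro h; ext z; rw [mem_conjBy, h]; simp [mul_assoc]

theorem conjBy_eq_self_of_commute {A : Subgroup G} {g : G} (h : ∀ a ∈ A, g * a = a * g) : conjBy A g = A := by
  ext z; rw [mem_conjBy]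
  constructor
  · intro hz
    have h1 := h _ hz
    have : z = g⁻¹ * z * g := by
      have h2 : g * (g⁻¹ * z * g) = z * g := by group
      rw [h2] at h1; exact mul_right_cancel h1
    rwa [this]
  · intro hz
    have : g⁻¹ * z * g = z := by rw [mul_assoc, ← h z hz]; group
    rwa [this]

theorem conjBy_sup (A B : Subgroup G) (g : G) : conjBy (A ⊔ B) g = conjBy A g ⊔ conjBy B g :=
  Subgroup.map_sup A B _

theorem rankOne_conj {A B : Subgroup G} (h : IsRankOnePair A B) (g : G) :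
    IsRankOnePair (conjBy A g) (conjBy B g) := by
  have key : ∀ {A B : Subgroup G}, RankOneCondition A B → RankOneCondition (conjBy A g) (conjBy B g) := by
    rintro A B h x ⟨a, ha, rfl⟩ hx
    have ha1 : a ≠ 1 := fun h' => hx (by simp [h'])
    obtain ⟨b, hb, hb1, e⟩ := h a ha ha1
    refine ⟨g * b * g⁻¹, conj_mem_conjBy g hb, by simpa using hb1, ?_⟩
    calc conjBy (conjBy A g) (g * b * g⁻¹)⁻¹ = conjBy (conjBy A b⁻¹) g := by
          rw [conjBy_mul, conjBy_mul]; congr 1; group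
      _ = conjBy (conjBy B a⁻¹) g := by rw [e]
      _ = _ := by rw [conjBy_mul, conjBy_mul]; congr 1; simp [mul_assoc]
  have nil : ∀ {A : Subgroup G}, Group.IsNilpotent A → Group.IsNilpotent (conjBy A g) := fun {A} hA =>
    haveI := hA
    Group.nilpotent_of_mulEquiv (A.equivMapOfInjective _ (MulAut.conj g).injective)
  exact ⟨fun e => h.ne (conjBy_injective g e), nil h.nilpotent_left, nil h.nilpotent_right, key h.cond_left, key h.cond_right⟩

variable {A B : Subgroup G}

theorem eq_one_of_normalizes (h : IsRankOnePair A B) {a : G} (ha : a ∈ A) (he : conjBy B a = B) : a = 1 := by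
  by_contra h1
  obtain ⟨b, hb, -, e⟩ := h.cond_left a ha h1
  apply h.ne
  have e2 : conjBy B a⁻¹ = B := by
    conv_lhs => rw [← he, conjBy_inv_conjBy]
  rw [e2, conjBy_eq_iff, inv_inv] at e
  rw [e, conjBy_eq_self_of_mem hb]

theorem eq_one_of_normalizes' (h : IsRankOnePair A B) {b : G} (hb : b ∈ B) (he : conjBy A b = A) : b = 1 :=
  eq_one_of_normalizes (RankOnePair_symm h) hb he

theorem left_ne_bot (h : IsRankOnePair A B) : A ≠ ⊥ := by
  intro hA
  rcases eq_or_ne B ⊥ with hB | hB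
  · exact h.ne (hA.trans hB.symm)
  obtain ⟨b, hb, hb1⟩ := B.bot_or_exists_ne_one.resolve_left hB
  obtain ⟨a, ha, ha1, -⟩ := h.cond_right b hb hb1
  rw [hA, Subgroup.mem_bot] at ha
  exact ha1 ha

theorem exists_left (h : IsRankOnePair A B) : ∃ a ∈ A, a ≠ 1 :=
  A.bot_or_exists_ne_one.resolve_left (left_ne_bot h)

theorem exists_right (h : IsRankOnePair A B) : ∃ b ∈ B, b ≠ 1 := exists_left (RankOnePair_symm h)

theorem partner_unique (h : IsRankOnePair A B) {b b' : G} (hb : b ∈ B) (hb' : b' ∈ B)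
    (e : conjBy A b⁻¹ = conjBy A b'⁻¹) : b = b' := by
  have := eq_one_of_normalizes' h (b := b' * b⁻¹) (mul_mem hb' (inv_mem hb))
    (by rw [← conjBy_mul, e, conjBy_conjBy_inv])
  exact (mul_inv_eq_one.mp this).symm

theorem partner_unique' (h : IsRankOnePair A B) {a a' : G} (ha : a ∈ A) (ha' : a' ∈ A)
    (e : conjBy B a⁻¹ = conjBy B a'⁻¹) : a = a' :=
  partner_unique (RankOnePair_symm h) ha ha' e

theorem conjBy_right_unique (h : IsRankOnePair A B) {a a' : G} (ha : a ∈ A) (ha' : a' ∈ A)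
    (e : conjBy B a = conjBy B a') : a = a' := by
  have := partner_unique' h (inv_mem ha) (inv_mem ha') (by simpa using e)
  simpa using this

theorem conjBy_right_ne (h : IsRankOnePair A B) {a : G} (ha : a ∈ A) : conjBy B a ≠ A := fun e => by
  rw [conjBy_eq_iff, conjBy_eq_self_of_mem (inv_mem ha)] at e
  exact h.ne e.symm

theorem right_mem_unipotent (h : IsRankOnePair A B) : B ∈ unipotentSubgroups A B := by
  obtain ⟨a, ha, ha1⟩ := exists_left h
  obtain ⟨b, hb, -, e⟩ := h.cond_left a ha ha1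
  refine ⟨a * b⁻¹, mul_mem (Subgroup.mem_sup_left ha) (inv_mem (Subgroup.mem_sup_right hb)), ?_⟩
  rw [← conjBy_mul, e, conjBy_conjBy_inv]

theorem left_mem_unipotent : A ∈ unipotentSubgroups A B := ⟨1, one_mem _, (conjBy_one A).symm⟩

theorem conjBy_mem_unipotent {C : Subgroup G} (hC : C ∈ unipotentSubgroups A B) {x : G} (hx : x ∈ A ⊔ B) :
    conjBy C x ∈ unipotentSubgroups A B := by
  obtain ⟨y, hy, rfl⟩ := hC; exact ⟨x * y, mul_mem hx hy, conjBy_mul A y x⟩

theorem unipotent_le {C : Subgroup G} (hC : C ∈ unipotentSubgroups A B) : C ≤ A ⊔ B := by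
  obtain ⟨y, hy, rfl⟩ := hC
  intro z hz
  rw [mem_conjBy] at hz
  have h2 : y * (y⁻¹ * z * y) * y⁻¹ ∈ A ⊔ B := mul_mem (mul_mem hy (Subgroup.mem_sup_left hz)) (inv_mem hy)
  simpa [mul_assoc] using h2

theorem unipotent_cases (h : IsRankOnePair A B) {C : Subgroup G} (hC : C ∈ unipotentSubgroups A B) :
    C = A ∨ ∃ a ∈ A, C = conjBy B a := by
  set P : Subgroup G → Prop := fun C => C = A ∨ ∃ a ∈ A, C = conjBy B a with hP
  have hA : ∀ a ∈ A, ∀ C, P C → P (conjBy C a) := by
    rintro a ha C (rfl | ⟨a', ha', rfl⟩)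
    · exact Or.inl (conjBy_eq_self_of_mem ha)
    · exact Or.inr ⟨a * a', mul_mem ha ha', conjBy_mul B a' a⟩
  have hB0 : ∀ b ∈ B, P (conjBy A b) := by
    intro b hb
    rcases eq_or_ne b 1 with rfl | hb1
    · exact Or.inl (conjBy_one A)
    obtain ⟨a, ha, -, e⟩ := h.cond_right b⁻¹ (inv_mem hb) (by simpa using hb1)
    exact Or.inr ⟨a⁻¹, inv_mem ha, by rw [e, inv_inv]⟩
  have hB : ∀ b ∈ B, ∀ C, P C → P (conjBy C b) := by
    rintro b hb C (rfl | ⟨a', ha', rfl⟩)
    · exact hB0 b hb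
    rcases eq_or_ne a' 1 with rfl | ha1
    · exact Or.inr ⟨1, one_mem _, by rw [conjBy_one, conjBy_eq_self_of_mem hb]⟩
    obtain ⟨b', hb', -, e⟩ := h.cond_left a'⁻¹ (inv_mem ha') (by simpa using ha1)
    rw [inv_inv] at e
    rw [← e, conjBy_mul]
    exact hB0 _ (mul_mem hb (inv_mem hb'))
  obtain ⟨x, hx, rfl⟩ := hC
  suffices ∀ C, P C → P (conjBy C x) from this A (Or.inl rfl)
  rw [Subgroup.sup_eq_closure] at hx
  induction hx using Subgroup.closure_induction_left with
  | one => exact fun C hC => by rwa [conjBy_one]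
  | mul_left g hg y _ ih =>
    intro C hC
    rw [← conjBy_mul]
    rcases hg with hg | hg
    · exact hA g hg _ (ih C hC)
    · exact hB g hg _ (ih C hC)
  | inv_mul_cancel g hg y _ ih =>
    intro C hC
    rw [← conjBy_mul]
    rcases hg with hg | hg
    · exact hA _ (inv_mem hg) _ (ih C hC)
    · exact hB _ (inv_mem hg) _ (ih C hC)

theorem exists_conj_pair (h : IsRankOnePair A B) {C D : Subgroup G} (hC : C ∈ unipotentSubgroups A B)
    (hD : D ∈ unipotentSubgroups A B) (hne : C ≠ D) :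
    ∃ x ∈ A ⊔ B, conjBy A x = C ∧ conjBy B x = D := by
  obtain ⟨y, hy, rfl⟩ := hC
  rcases unipotent_cases h (conjBy_mem_unipotent hD (inv_mem hy)) with e | ⟨a, ha, e⟩
  · exact absurd ((conjBy_eq_iff A D y).mpr e.symm) hne
  · refine ⟨y * a, mul_mem hy (Subgroup.mem_sup_left ha), ?_, ?_⟩
    · rw [← conjBy_mul, conjBy_eq_self_of_mem ha]
    · rw [← conjBy_mul, ← e, conjBy_conjBy_inv]

theorem conjBy_self_sup {x : G} (hx : x ∈ A ⊔ B) : conjBy A x ⊔ conjBy B x = A ⊔ B := by
  rw [← conjBy_sup, conjBy_eq_self_of_mem hx]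

theorem unipotent_pair (h : IsRankOnePair A B) {C D : Subgroup G} (hC : C ∈ unipotentSubgroups A B)
    (hD : D ∈ unipotentSubgroups A B) (hne : C ≠ D) : IsRankOnePair C D ∧ C ⊔ D = A ⊔ B := by
  obtain ⟨x, hx, rfl, rfl⟩ := exists_conj_pair h hC hD hne
  exact ⟨rankOne_conj h x, conjBy_self_sup hx⟩

theorem unipotent_congr (h : IsRankOnePair A B) {C D : Subgroup G} (hC : C ∈ unipotentSubgroups A B)
    (hD : D ∈ unipotentSubgroups A B) (hne : C ≠ D) : unipotentSubgroups C D = unipotentSubgroups A B := by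
  obtain ⟨y, hy, rfl⟩ := hC
  have hs := (unipotent_pair h ⟨y, hy, rfl⟩ hD hne).2
  ext E
  constructor
  · rintro ⟨x, hx, rfl⟩
    exact ⟨x * y, mul_mem (hs ▸ hx) hy, conjBy_mul A y x⟩
  · rintro ⟨x, hx, rfl⟩
    exact ⟨x * y⁻¹, hs.symm ▸ mul_mem hx (inv_mem hy), by rw [conjBy_mul, inv_mul_cancel_right]⟩

theorem unipotent_symm (h : IsRankOnePair A B) : unipotentSubgroups B A = unipotentSubgroups A B :=
  unipotent_congr h (right_mem_unipotent h) left_mem_unipotent h.ne.symm

theorem unipotent_normalizes_eq (h : IsRankOnePair A B) {C : Subgroup G} (hC : C ∈ unipotentSubgroups A B)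
    (hn : ∀ c ∈ C, conjBy A c = A) : C = A := by
  by_contra hne
  have hp := (unipotent_pair h left_mem_unipotent hC (Ne.symm hne)).1
  obtain ⟨c, hc, hc1⟩ := exists_right hp
  exact hc1 (eq_one_of_normalizes' hp hc (hn c hc))

/-- An element normalizing every unipotent subgroup centralizes the rank one group. -/
theorem commute_of_fixes (h : IsRankOnePair A B) {z : G}
    (hz : ∀ C ∈ unipotentSubgroups A B, conjBy C z = C) : ∀ x ∈ A ⊔ B, z * x = x * z := by
  have key : ∀ {A B : Subgroup G}, IsRankOnePair A B → (∀ C ∈ unipotentSubgroups A B, conjBy C z = C) →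
      ∀ a ∈ A, z * a = a * z := by
    intro A B h hz a ha
    have hzA : conjBy A z = A := hz A left_mem_unipotent
    have hmem : z * a * z⁻¹ * a⁻¹ ∈ A := mul_mem (by rw [← hzA]; exact conj_mem_conjBy z ha) (inv_mem ha)
    have hfix : conjBy B (z * a * z⁻¹ * a⁻¹) = B := by
      have hCm : conjBy B a⁻¹ ∈ unipotentSubgroups A B :=
        conjBy_mem_unipotent (right_mem_unipotent h) (inv_mem (Subgroup.mem_sup_left ha))
      have h1 : conjBy (conjBy B a⁻¹) z⁻¹ = conjBy B a⁻¹ := by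
        conv_lhs => rw [← hz _ hCm, conjBy_inv_conjBy]
      rw [← conjBy_mul, ← conjBy_mul, ← conjBy_mul, h1, conjBy_conjBy_inv, hz B (right_mem_unipotent h)]
    exact mul_inv_eq_iff_eq_mul.mp (mul_inv_eq_one.mp (eq_one_of_normalizes h hmem hfix))
  intro x hx
  have : x ∈ Subgroup.centralizer ({z} : Set G) := by
    refine (sup_le (c := Subgroup.centralizer ({z} : Set G)) ?_ ?_) hx <;> intro a ha
    · rw [Subgroup.mem_centralizer_singleton_iff]; exact (key h hz a ha).symm
    · rw [Subgroup.mem_centralizer_singleton_iff]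
      exact (key (RankOnePair_symm h) (by rw [unipotent_symm h]; exact hz) a ha).symm
  rw [Subgroup.mem_centralizer_singleton_iff] at this; exact this.symm

/-- A commutator map into the centralizer is impossible in a rank one group. -/
theorem not_class_two (h : IsRankOnePair A B)
    (hc : ∀ a ∈ A, ∀ b ∈ B, ∀ x ∈ A ⊔ B, a * b * a⁻¹ * b⁻¹ * x = x * (a * b * a⁻¹ * b⁻¹)) : False := by
  obtain ⟨b, hb, hb1⟩ := exists_right h
  apply hb1
  apply eq_one_of_normalizes' h hb
  have hC : conjBy A b = A := by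
    refine unipotent_normalizes_eq h (conjBy_mem_unipotent left_mem_unipotent (Subgroup.mem_sup_right hb)) ?_
    intro c hc'
    obtain ⟨a, ha, rfl⟩ := hc'
    have hz : ∀ a' ∈ A, (a * b * a⁻¹ * b⁻¹)⁻¹ * a' = a' * (a * b * a⁻¹ * b⁻¹)⁻¹ := fun a' ha' => by
      rw [eq_mul_inv_iff_mul_eq, mul_assoc, inv_mul_eq_iff_eq_mul]
      exact (hc a ha b hb a' (Subgroup.mem_sup_left ha')).symm
    have e : (MulAut.conj b).toMonoidHom a = (a * b * a⁻¹ * b⁻¹)⁻¹ * a := by simp [mul_assoc]
    rw [e, ← conjBy_mul, conjBy_eq_self_of_mem ha, conjBy_eq_self_of_commute hz]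
  exact hC

theorem not_commute (h : IsRankOnePair A B) : ⁅A, B⁆ ≠ ⊥ := by
  intro e
  obtain ⟨b, hb, hb1⟩ := exists_right h
  refine hb1 (eq_one_of_normalizes' h hb (conjBy_eq_self_of_commute fun a ha => ?_))
  rw [Subgroup.commutator_eq_bot_iff_le_centralizer] at e
  exact (e ha b hb : b * a = a * b)

end Cfsg.Agent.Lib.Root

namespace Cfsg.Agent.Lib.Root

variable {G : Type*} [Group G] {A B : Subgroup G}

theorem normal_dichotomy (h : IsRankOnePair A B) {N : Subgroup G} (hN : N ≤ A ⊔ B)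
    (hn : ∀ x ∈ A ⊔ B, ∀ n ∈ N, x * n * x⁻¹ ∈ N) :
    N ⊔ A = A ⊔ B ∨ ∀ n ∈ N, ∀ x ∈ A ⊔ B, n * x = x * n := by
  by_cases hfix : ∀ n ∈ N, ∀ C ∈ unipotentSubgroups A B, conjBy C n = C
  · exact Or.inr fun n hn' => commute_of_fixes h (hfix n hn')
  push_neg at hfix
  obtain ⟨n, hnN, C, hC, hne⟩ := hfix
  left
  obtain ⟨x, hx, e₁, e₂⟩ := exists_conj_pair h hC (conjBy_mem_unipotent hC (hN hnN)) (Ne.symm hne)
  refine le_antisymm (sup_le hN le_sup_left) (sup_le le_sup_right ?_)
  have hm : x⁻¹ * n * x ∈ N := by simpa using hn x⁻¹ (inv_mem hx) n hnN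
  have e : conjBy A (x⁻¹ * n * x) = B := by
    rw [← conjBy_mul, e₁, ← conjBy_mul, ← e₂, conjBy_inv_conjBy]
  intro b hb
  rw [← e, mem_conjBy] at hb
  have h1 : (x⁻¹ * n * x) * ((x⁻¹ * n * x)⁻¹ * b * (x⁻¹ * n * x)) * (x⁻¹ * n * x)⁻¹ ∈ N ⊔ A :=
    mul_mem (mul_mem (Subgroup.mem_sup_left hm) (Subgroup.mem_sup_right hb)) (inv_mem (Subgroup.mem_sup_left hm))
  simpa [mul_assoc] using h1

end Cfsg.Agent.Lib.Root

namespace Cfsg.Agent.Lib.Root

theorem nilpotent_of_comm {G : Type*} [Group G] {A : Subgroup G} (h : IsMulCommutative A) : Group.IsNilpotent A :=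
  Subgroup.isNilpotent_of_ker_le_center (1 : A →* Unit) fun x _ =>
    Subgroup.mem_center_iff.mpr fun y => h.is_comm.comm y x

end Cfsg.Agent.Lib.Root
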