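import Cfsg.Prelude.Def_Transfer
import Cfsg.Agent.Lib.Root.RankOne

/-! Rank one groups acting quadratically on a module. -/
set_option autoImplicit false

namespace Cfsg.Agent.Lib.Root

variable {X : Type*} [Group X] {N : Type*} [AddCommGroup N] [DistribMulAction X N]

/-- fixed points -/
def fixAdd (X : Type*) [Group X] (N : Type*) [AddCommGroup N] [DistribMulAction X N] : AddSubgroup N where
  carrier := {n | ∀ x : X, x • n = n}
  zero_mem' := fun x => smul_zero x
  add_mem' := fun hm hn x => by rw [smul_add, hm x, hn x]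
  neg_mem' := fun hn x => by rw [smul_neg, hn x]

/-- commutator space -/
def brk (N : Type*) [AddCommGroup N] [DistribMulAction X N] (A : Subgroup X) : AddSubgroup N :=
  AddSubgroup.closure {m | ∃ a ∈ A, ∃ n : N, m = a • n - n}

variable {A B : Subgroup X}

theorem sub_mem_brk {a : X} (ha : a ∈ A) (n : N) : a • n - n ∈ brk N A :=
  AddSubgroup.subset_closure ⟨a, ha, n, rfl⟩

/-- Quadratic action of a subgroup. -/
def Quad (N : Type*) [AddCommGroup N] [DistribMulAction X N] (A : Subgroup X) : Prop :=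
  ∀ a ∈ A, ∀ a' ∈ A, ∀ n : N, a' • (a • n - n) = a • n - n

theorem brk_fixed (hq : Quad N A) {a : X} (ha : a ∈ A) {u : N} (hu : u ∈ brk N A) : a • u = u := by
  induction hu using AddSubgroup.closure_induction with
  | mem m hm => obtain ⟨a', ha', n, rfl⟩ := hm; exact hq a' ha' a ha n
  | zero => exact smul_zero a
  | add m n _ _ hm hn => rw [smul_add, hm, hn]
  | neg m _ hm => rw [smul_neg, hm]

theorem brk_inv_sub (hq : Quad N A) {a : X} (ha : a ∈ A) (n : N) : a⁻¹ • n - n = -(a • n - n) := by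
  have h := brk_fixed hq (inv_mem ha) (sub_mem_brk ha n)
  rw [smul_sub, inv_smul_smul] at h
  rw [← h]; abel

theorem brk_pow (hq : Quad N A) {a : X} (ha : a ∈ A) (n : N) (k : ℕ) : a ^ k • n - n = k • (a • n - n) := by
  induction k with
  | zero => simp
  | succ k ih =>
    have h := brk_fixed hq (A.pow_mem ha k) (sub_mem_brk ha n)
    rw [smul_sub, ← mul_smul, ← pow_succ] at h
    rw [succ_nsmul, ← ih, ← h]; abel

theorem quad_commute (hf : ∀ x : X, (∀ v : N, x • v = v) → x = 1) (hq : Quad N A) {a a' : X} (ha : a ∈ A)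
    (ha' : a' ∈ A) : a * a' = a' * a := by
  have h : ∀ v : N, (a * a') • v = (a' * a) • v := by
    intro v
    have h1 := hq a' ha' a ha v
    have h2 := hq a ha a' ha' v
    rw [smul_sub] at h1 h2
    rw [mul_smul, mul_smul, sub_eq_iff_eq_add.mp h1, sub_eq_iff_eq_add.mp h2]; abel
  have := hf ((a' * a)⁻¹ * (a * a')) fun v => by rw [mul_smul, h v, inv_smul_smul]
  exact (inv_mul_eq_one.mp this).symm

theorem quad_conj (hq : Quad N A) (g : X) : Quad N (conjBy A g) := by
  rintro _ ⟨a, ha, rfl⟩ _ ⟨a', ha', rfl⟩ n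
  have h := hq a ha a' ha' (g⁻¹ • n)
  simp only [MulEquiv.coe_toMonoidHom, MulAut.conj_apply, mul_smul, smul_sub] at h ⊢
  have := congrArg (g • ·) h
  simpa [smul_sub] using this

variable (h : IsRankOnePair A B) (htop : A ⊔ B = ⊤)
include h htop

theorem quad_right (hq : Quad N A) : Quad N B := by
  obtain ⟨x, -, e⟩ := right_mem_unipotent h
  rw [e]; exact quad_conj hq x

theorem fix_of_both {m : N} (ha : ∀ a ∈ A, a • m = m) (hb : ∀ b ∈ B, b • m = m) : m ∈ fixAdd X N := by
  intro x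
  have hx : x ∈ A ⊔ B := htop ▸ Subgroup.mem_top x
  rw [Subgroup.sup_eq_closure] at hx
  induction hx using Subgroup.closure_induction with
  | mem y hy => rcases hy with hy | hy; exacts [ha y hy, hb y hy]
  | one => exact one_smul _ _
  | mul y z _ _ hy hz => rw [mul_smul, hz, hy]
  | inv y _ hy => exact inv_smul_eq_iff.mpr hy.symm

theorem brk_inter (hq : Quad N A) {m : N} (hA : m ∈ brk N A) (hB : m ∈ brk N B) : m ∈ fixAdd X N :=
  fix_of_both h htop (fun _ ha => brk_fixed hq ha hA) (fun _ hb => brk_fixed (quad_right h htop hq) hb hB)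

theorem sub_mem_sup (x : X) (n : N) : x • n - n ∈ brk N A ⊔ brk N B := by
  have hx : x ∈ A ⊔ B := htop ▸ Subgroup.mem_top x
  rw [Subgroup.sup_eq_closure] at hx
  induction hx using Subgroup.closure_induction'' generalizing n with
  | mem y hy =>
    rcases hy with hy | hy
    · exact AddSubgroup.mem_sup_left (sub_mem_brk hy n)
    · exact AddSubgroup.mem_sup_right (sub_mem_brk hy n)
  | inv_mem y hy =>
    rcases hy with hy | hy
    · exact AddSubgroup.mem_sup_left (sub_mem_brk (inv_mem hy) n)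
    · exact AddSubgroup.mem_sup_right (sub_mem_brk (inv_mem hy) n)
  | one => simp
  | mul y z _ _ hy hz =>
    rw [show (y * z) • n - n = (y • z • n - z • n) + (z • n - n) by rw [mul_smul]; abel]
    exact add_mem (hy _) (hz n)

theorem nontriv_action (hq : Quad N A) (hX : ∃ x y : X, ∃ n : N, y • (x • n - n) ≠ x • n - n) :
    ¬ (brk N A ≤ fixAdd X N ∧ brk N B ≤ fixAdd X N) := by
  rintro ⟨hA, hB⟩
  obtain ⟨x, y, n, hne⟩ := hX
  exact hne (sup_le hA hB (sub_mem_sup h htop x n) y)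

/-- `(a⁻¹-1)(b⁻¹-1) = 1` on the commutator space of `A`, modulo fixed points. -/
theorem brk_key (hq : Quad N A) {a b : X} (ha : a ∈ A) (hb : b ∈ B) (e : conjBy A b⁻¹ = conjBy B a⁻¹) {u : N}
    (hu : u ∈ brk N A) :
    (a⁻¹ • (b⁻¹ • u - u) - (b⁻¹ • u - u)) - u ∈ fixAdd X N := by
  have hw : ∃ w ∈ brk N B, b⁻¹ • u = a⁻¹ • w := by
    induction hu using AddSubgroup.closure_induction with
    | mem m hm =>
      obtain ⟨a', ha', n, rfl⟩ := hm
      have hmem : b⁻¹ * a' * b⁻¹⁻¹ ∈ conjBy B a⁻¹ := e ▸ conj_mem_conjBy b⁻¹ ha'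
      rw [mem_conjBy, inv_inv, inv_inv] at hmem
      refine ⟨_, sub_mem_brk hmem (a • b⁻¹ • n), ?_⟩
      simp [smul_sub, mul_smul]
    | zero => exact ⟨0, zero_mem _, by simp⟩
    | add m n _ _ hm hn =>
      obtain ⟨w, hw, e1⟩ := hm; obtain ⟨w', hw', e2⟩ := hn
      exact ⟨w + w', add_mem hw hw', by rw [smul_add, smul_add, e1, e2]⟩
    | neg m _ hm => obtain ⟨w, hw, e1⟩ := hm; exact ⟨-w, neg_mem hw, by rw [smul_neg, smul_neg, e1]⟩
  obtain ⟨w, hw, he⟩ := hw
  have hq' : u - (a⁻¹ • w - w) ∈ brk N A := sub_mem hu (sub_mem_brk (inv_mem ha) w)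
  have heq : u - (a⁻¹ • w - w) = w - (b⁻¹ • u - u) := by rw [he]; abel
  have hc : u - (a⁻¹ • w - w) ∈ fixAdd X N :=
    brk_inter h htop hq hq' (heq ▸ sub_mem hw (sub_mem_brk (inv_mem hb) u))
  have hp : a⁻¹ • (b⁻¹ • u - u) - (b⁻¹ • u - u) = a⁻¹ • w - w := by
    have h1 : b⁻¹ • u - u = w - (u - (a⁻¹ • w - w)) := by rw [he]; abel
    rw [h1, smul_sub, hc a⁻¹]; abel
  rw [hp, ← neg_sub]
  exact neg_mem hc

theorem brk_key' (hq : Quad N A) {a b : X} (ha : a ∈ A) (hb : b ∈ B) (e : conjBy A b⁻¹ = conjBy B a⁻¹) {w : N}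
    (hw : w ∈ brk N B) :
    (b⁻¹ • (a⁻¹ • w - w) - (a⁻¹ • w - w)) - w ∈ fixAdd X N :=
  brk_key (RankOnePair_symm h) (by rw [sup_comm]; exact htop) (quad_right h htop hq) hb ha e.symm hw

/-- Non-identity elements move the commutator space of the other unipotent group. -/
theorem eq_one_of_brk_fix (hq : Quad N A) (hX : ∃ x y : X, ∃ n : N, y • (x • n - n) ≠ x • n - n) {b : X}
    (hb : b ∈ B) (hfix : ∀ u ∈ brk N A, b • u - u ∈ fixAdd X N) : b = 1 := by
  by_contra hb1
  obtain ⟨a, ha, -, e⟩ := h.cond_right b⁻¹ (inv_mem hb) (inv_ne_one.mpr hb1)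
  have e' : conjBy A b⁻¹⁻¹ = conjBy B a⁻¹ := e.symm
  have hU : brk N A ≤ fixAdd X N := by
    intro u hu
    have h1 := brk_key h htop hq ha (inv_mem hb) e' hu
    rw [inv_inv] at h1
    rw [hfix u hu a⁻¹, sub_self, zero_sub] at h1
    exact neg_mem_iff.mp h1
  refine nontriv_action h htop hq hX ⟨hU, fun w hw => ?_⟩
  have h1 := brk_key' h htop hq ha (inv_mem hb) e' hw
  rw [inv_inv] at h1
  rw [hU (sub_mem_brk (inv_mem ha) w) b, sub_self, zero_sub] at h1
  exact neg_mem_iff.mp h1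

theorem special_of_quad (hq : Quad N A) (hX : ∃ x y : X, ∃ n : N, y • (x • n - n) ≠ x • n - n) {a b : X}
    (ha : a ∈ A) (hb : b ∈ B) (e : conjBy A b⁻¹ = conjBy B a⁻¹) : b⁻¹ * a * b = a⁻¹ * b⁻¹ * a := by
  have hmem : b⁻¹ * a * b⁻¹⁻¹ ∈ conjBy B a⁻¹ := e ▸ conj_mem_conjBy b⁻¹ ha
  rw [mem_conjBy, inv_inv, inv_inv] at hmem
  set b' := a * (b⁻¹ * a * b) * a⁻¹ with hb'
  have hqB := quad_right h htop hq
  have key : b' * b = 1 := by
    refine eq_one_of_brk_fix h htop hq hX (mul_mem hmem hb) fun u hu => ?_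
    set p := b • u - u with hp
    set q := b' • u - u with hqd
    have hpB : p ∈ brk N B := sub_mem_brk hb u
    have hqmem : q ∈ brk N B := sub_mem_brk hmem u
    have hinv : b⁻¹ • u - u = -p := brk_inv_sub hqB hb u
    have hk := brk_key h htop hq ha hb e hu
    rw [hinv, brk_inv_sub hq ha] at hk
    set c := -(a • -p - -p) - u with hc
    have hap : a • p = p + u + c := by rw [hc, smul_neg]; abel
    have hcfix : c ∈ fixAdd X N := hk
    have L : (b⁻¹ * a * b) • u = u + u + p - (p + p) + c := by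
      have hbu : b • u = u + p := by rw [hp]; abel
      rw [mul_smul, mul_smul, hbu, smul_add, brk_fixed hq ha hu, hap, smul_add, smul_add, smul_add,
        hcfix b⁻¹, brk_fixed hqB (inv_mem hb) hpB, show b⁻¹ • u = u + -p by rw [← hinv]; abel]
      abel
    have R : (b⁻¹ * a * b) • u = u + q + (a⁻¹ • q - q) := by
      have e2 : b⁻¹ * a * b = a⁻¹ * (b' * a) := by rw [hb']; group
      have hb'u : b' • u = u + q := by rw [hqd]; abel
      rw [e2, mul_smul, mul_smul, brk_fixed hq ha hu, hb'u, smul_add, brk_fixed hq (inv_mem ha) hu]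
      abel
    have hd : q + p = u + c - (a⁻¹ • q - q) := by
      have := R.symm.trans L
      calc q + p = (u + q + (a⁻¹ • q - q)) + p - u - (a⁻¹ • q - q) := by abel
        _ = _ := by rw [this]; abel
    have hfx : q + p - c ∈ fixAdd X N := by
      refine fix_of_both h htop (fun x hx => ?_) (fun x hx => ?_)
      · rw [hd, show u + c - (a⁻¹ • q - q) - c = u - (a⁻¹ • q - q) by abel, smul_sub, brk_fixed hq hx hu,
          brk_fixed hq hx (sub_mem_brk (inv_mem ha) q)]
      · rw [smul_sub, smul_add, brk_fixed hqB hx hqmem, brk_fixed hqB hx hpB, hcfix x]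
    have : (b' * b) • u - u = q + p := by
      have hb'u : b' • u = u + q := by rw [hqd]; abel
      have hbu : b • u = u + p := by rw [hp]; abel
      rw [mul_smul, hbu, smul_add, hb'u, brk_fixed hqB hmem hpB]; abel
    rw [this]
    simpa using add_mem hfx hcfix
  have : b' = b⁻¹ := eq_inv_of_mul_eq_one_left key
  calc b⁻¹ * a * b = a⁻¹ * b' * a := by rw [hb']; group
    _ = _ := by rw [this]

theorem torsion_of_quad (hf : ∀ x : X, (∀ v : N, x • v = v) → x = 1) (hq : Quad N A) :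
    (∀ a ∈ A, a ≠ 1 → ¬ IsOfFinOrder a) ∨ ∃ p : ℕ, p.Prime ∧ IsElementaryAbelian p A := by
  have hX : ∃ x y : X, ∃ n : N, y • (x • n - n) ≠ x • n - n := by
    by_contra hc
    push_neg at hc
    have hqT : Quad N (⊤ : Subgroup X) := fun a _ a' _ n => hc a a' n
    exact not_commute h (by
      rw [Subgroup.commutator_eq_bot_iff_le_centralizer]
      exact fun a _ b _ => quad_commute hf hqT (Subgroup.mem_top b) (Subgroup.mem_top a))
  refine or_iff_not_imp_left.mpr fun hc => ?_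
  push_neg at hc
  obtain ⟨a₀, ha₀, ha₀1, hfin⟩ := hc
  set p := (orderOf a₀).minFac with hpdef
  have hpp : p.Prime := Nat.minFac_prime (fun e => ha₀1 (orderOf_eq_one_iff.mp e))
  obtain ⟨k, hk⟩ : p ∣ orderOf a₀ := Nat.minFac_dvd _
  set a := a₀ ^ k with hadef
  have ha : a ∈ A := A.pow_mem ha₀ k
  have hap : a ^ p = 1 := by rw [hadef, ← pow_mul, mul_comm, ← hk]; exact pow_orderOf_eq_one _
  have ha1 : a ≠ 1 := by
    intro e
    have hpos := hfin.orderOf_pos
    have hk0 : 0 < k := pos_of_mul_pos_right (hk ▸ hpos) (Nat.zero_le p)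
    have := orderOf_le_of_pow_eq_one hk0 e
    have h2 := hpp.two_le
    nlinarith
  obtain ⟨b, hb, -, e⟩ := h.cond_left a ha ha1
  refine ⟨p, hpp, ⟨⟨fun x y => Subtype.ext (quad_commute hf hq x.2 y.2)⟩⟩, fun a' ha' => ?_⟩
  have hpa : ∀ n : N, p • (a • n - n) = 0 := fun n => by rw [← brk_pow hq ha n p, hap, one_smul, sub_self]
  have hW : ∀ w ∈ brk N B, p • w ∈ fixAdd X N := by
    intro w hw
    have h1 := (fixAdd X N).nsmul_mem (brk_key' h htop hq ha hb e hw) p
    have h2 : p • (a⁻¹ • w - w) = 0 := by rw [brk_inv_sub hq ha, smul_neg, hpa, neg_zero]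
    rw [smul_sub, smul_sub, h2, sub_zero, smul_comm p b⁻¹, h2, smul_zero, zero_sub] at h1
    exact neg_mem_iff.mp h1
  refine eq_one_of_brk_fix (RankOnePair_symm h) (by rw [sup_comm]; exact htop) (quad_right h htop hq) hX
    (A.pow_mem ha' p) fun w hw => ?_
  rw [brk_pow hq ha' w p, show p • (a' • w - w) = a' • (p • w) - p • w by rw [smul_sub, smul_comm p a'],
    hW w hw a', sub_self]
  exact zero_mem _

end Cfsg.Agent.Lib.Root
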