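import Cfsg.Agent.Lib.Root.Sets
import Cfsg.Agent.S5034

/-! Line partners: symmetry, conjugation, and the action of a rank one group on a line. -/
set_option autoImplicit false

namespace Cfsg.Agent.Lib.Root

variable {G : Type*} [Group G] {S : Set (Subgroup G)} {A B C : Subgroup G}

theorem conj_commutator (P Q : Subgroup G) (g : G) : conjBy ⁅P, Q⁆ g = ⁅conjBy P g, conjBy Q g⁆ :=
  Subgroup.map_commutator P Q _

theorem membersIn_conj (hS : IsRootSubgroupSet S) {U : Subgroup G} {E : Subgroup G} (g : G)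
    (hE : E ∈ membersIn S U) : conjBy E g ∈ membersIn S (conjBy U g) :=
  ⟨hS.conj_mem E hE.1 g, Subgroup.map_mono hE.2⟩

theorem linePartner_conj (hS : IsRootSubgroupSet S) (h : B ∈ linePartners S A) (g : G) :
    conjBy B g ∈ linePartners S (conjBy A g) := by
  obtain ⟨⟨hB, hne, hc⟩, -, hcov, hdis⟩ := h
  refine ⟨⟨hS.conj_mem B hB g, fun e => hne (conjBy_injective g e), comm_conj hc g⟩, fun E hE => hE.2, ?_, ?_⟩
  · intro x hx hx1
    rw [← conjBy_sup, mem_conjBy] at hx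
    obtain ⟨E, hE, hxE⟩ := hcov _ hx (fun e => hx1 (by
      calc x = g * (g⁻¹ * x * g) * g⁻¹ := by group
        _ = 1 := by rw [e, mul_one, mul_inv_cancel]))
    refine ⟨conjBy E g, ?_, mem_conjBy.2 hxE⟩
    rw [← conjBy_sup]
    exact membersIn_conj hS g hE
  · intro E₁ h₁ E₂ h₂ hne'
    rw [← conjBy_sup] at h₁ h₂
    have g₁ := membersIn_conj hS g⁻¹ h₁
    have g₂ := membersIn_conj hS g⁻¹ h₂
    rw [conjBy_inv_conjBy] at g₁ g₂
    have := congrArg (fun P => conjBy P g) (hdis _ g₁ _ g₂ fun e => hne' (conjBy_injective g⁻¹ e))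
    simp only [conjBy] at this
    rw [Subgroup.map_inf _ _ _ (MulAut.conj g).injective, Subgroup.map_bot] at this
    change conjBy (conjBy E₁ g⁻¹) g ⊓ conjBy (conjBy E₂ g⁻¹) g = ⊥ at this
    rwa [conjBy_conjBy_inv, conjBy_conjBy_inv] at this

theorem linePartner_symm (hA : A ∈ S) (h : B ∈ linePartners S A) : A ∈ linePartners S B := by
  obtain ⟨⟨-, hne, hc⟩, hp⟩ := h
  exact ⟨⟨hA, hne.symm, comm_symm hc⟩, by rwa [sup_comm]⟩

open scoped commutatorElement in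
/-- The third member: `⁅A, ⁅B, C⁆⁆ ∈ S`. -/
theorem third_mem (hS : IsRootSubgroupSet S) (hA : A ∈ S) (h : IsRankOnePair A B) (hac : ⁅A, C⁆ = ⊥)
    (hBC : RootCommutatorCase S B C) : ⁅A, ⁅B, C⁆⁆ ∈ S := by
  obtain ⟨a, ha, ha1⟩ := exists_left h
  obtain ⟨b, hb, hb1, e⟩ := h.cond_left a ha ha1
  have e1 : conjBy ⁅B, C⁆ a⁻¹ = ⁅conjBy A b⁻¹, C⁆ := by
    rw [e, conj_commutator, conjBy_eq_self_of_comm' hac (inv_mem ha)]
  have key : ∀ x ∈ A, ∀ c ∈ C, ⁅x, b * c * b⁻¹⁆ = ⁅x, ⁅b, c⁆⁆ := by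
    intro x hx c hc
    calc ⁅x, b * c * b⁻¹⁆ = ⁅x, ⁅b, c⁆ * c⁆ := by
          congr 1; rw [commutatorElement_def]; group
      _ = ⁅x, ⁅b, c⁆⁆ * (⁅b, c⁆ * ⁅x, c⁆ * ⁅b, c⁆⁻¹) := by simp only [commutatorElement_def]; group
      _ = _ := by rw [commutatorElement_eq_one_iff_mul_comm.2 (comm_iff.1 hac x hx c hc)]; group
  have : conjBy (conjBy ⁅B, C⁆ a⁻¹) b = ⁅A, ⁅B, C⁆⁆ := by
    rw [e1, conj_commutator, conjBy_conjBy_inv]
    refine le_antisymm (Subgroup.commutator_le.2 ?_) (Subgroup.commutator_le.2 ?_)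
    · rintro x hx _ ⟨c, hc, rfl⟩
      rw [MulEquiv.coe_toMonoidHom, MulAut.conj_apply, key x hx c hc]
      exact Subgroup.commutator_mem_commutator hx (Subgroup.commutator_mem_commutator hb hc)
    · intro x hx f hf
      obtain ⟨c, hc, ec⟩ := rc_surj hBC hb hb1 hf
      rw [← ec, ← commutatorElement_def, ← key x hx c hc]
      exact Subgroup.commutator_mem_commutator hx (conj_mem_conjBy b hc)
  exact this ▸ hS.conj_mem _ (hS.conj_mem _ hBC.1 _) _

/-- A rank one pair interchanges a line partner `C` of `A` with `⁅B, C⁆`. -/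
theorem line_swap_of_cover (hS : IsRootSubgroupSet S) (hA : A ∈ S) (hB : B ∈ S) (h : IsRankOnePair A B)
    (hCS : C ∈ S) (hac : ⁅A, C⁆ = ⊥) (hcov : ∀ a ∈ A, ∀ c ∈ C, a * c ≠ 1 → ∃ U ∈ S, a * c ∈ U)
    (hP : ∃ P ∈ S, IsRankOnePair C P) (hBC : RootCommutatorCase S B C) :
    ⁅A, ⁅B, C⁆⁆ = C ∧
      ∀ a ∈ A, ∀ b ∈ B, conjBy A b⁻¹ = conjBy B a⁻¹ → a ≠ 1 → conjBy C (a * b⁻¹ * a) = ⁅B, C⁆ := by
  obtain ⟨P, hPS, hCP⟩ := hP
  set F := ⁅B, C⁆ with hF
  have hFS : F ∈ S := hBC.1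
  have hLS : ⁅A, F⁆ ∈ S := third_mem hS hA h hac hBC
  set L := ⁅A, F⁆ with hL
  have hAF := rc_of_mem hS hA hFS hLS
  have hAL := comm_iff.1 (rc_comm_left hAF)
  have hFL := comm_iff.1 (rc_comm_right hAF)
  have hCF := comm_iff.1 (rc_comm_right hBC)
  have hBF := comm_iff.1 (rc_comm_left hBC)
  have hFF : ∀ x ∈ F, ∀ y ∈ F, x * y = y * x := fun x hx y hy =>
    congrArg Subtype.val ((hS.commutative F hFS).is_comm.comm ⟨x, hx⟩ ⟨y, hy⟩)
  have hCC : ∀ x ∈ C, ∀ y ∈ C, x * y = y * x := fun x hx y hy =>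
    congrArg Subtype.val ((hS.commutative C hCS).is_comm.comm ⟨x, hx⟩ ⟨y, hy⟩)
  have hCL : ∀ c ∈ C, ∀ u ∈ L, c * u = u * c := by
    have hle : L ≤ Subgroup.centralizer (C : Set G) := Subgroup.commutator_le.2 fun p hp q hq => by
      have hp' : p ∈ Subgroup.centralizer (C : Set G) :=
        Subgroup.mem_centralizer_iff.2 fun c hc => (comm_iff.1 hac p hp c hc).symm
      have hq' : q ∈ Subgroup.centralizer (C : Set G) :=
        Subgroup.mem_centralizer_iff.2 fun c hc => hCF c hc q hq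
      exact mul_mem (mul_mem (mul_mem hp' hq') (inv_mem hp')) (inv_mem hq')
    exact fun c hc u hu => Subgroup.mem_centralizer_iff.1 (hle hu) c hc
  have key : ∀ a ∈ A, ∀ b ∈ B, conjBy A b⁻¹ = conjBy B a⁻¹ → a ≠ 1 → ∀ c ∈ C,
      c ∈ L ∧ (a * b⁻¹ * a) * c * (a * b⁻¹ * a)⁻¹ ∈ F := by
    intro a ha b hb e ha1 c hc
    set n := a * b⁻¹ * a with hn
    have hnA : conjBy A n = B := by
      rw [hn, ← conjBy_mul, ← conjBy_mul, conjBy_eq_self_of_mem ha, e, conjBy_conjBy_inv]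
    set k := b⁻¹ * c * b⁻¹⁻¹ * c⁻¹ with hk
    have hkF : k ∈ F := comm_elem_mem (inv_mem hb) hc
    set u := a * k * a⁻¹ * k⁻¹ with hu
    have huL : u ∈ L := comm_elem_mem ha hkF
    have hac' : a * c = c * a := comm_iff.1 hac a ha c hc
    have hnc : n * c * n⁻¹ = u * k * c := by
      have h1 : a * c * a⁻¹ = c := by rw [hac', mul_inv_cancel_right]
      calc n * c * n⁻¹ = a * (b⁻¹ * (a * c * a⁻¹) * b) * a⁻¹ := by rw [hn]; group
        _ = a * (b⁻¹ * c * b) * a⁻¹ := by rw [h1]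
        _ = u * k * (a * c * a⁻¹) := by rw [hu, hk]; group
        _ = _ := by rw [h1]
    have hyfix : ∀ y ∈ B, y * (u * k * c) * y⁻¹ = u * k * c := by
      intro y hy
      rw [← hnA] at hy
      rw [← hnc, comm_iff.1 (comm_conj hac n) y hy _ (conj_mem_conjBy n hc), mul_inv_cancel_right]
    have hm : ∀ y ∈ B, y * (c * u) * y⁻¹ = c * u := by
      intro y hy
      set w := y * c * y⁻¹ * c⁻¹ with hw
      have hwF : w ∈ F := comm_elem_mem hy hc
      have h1 : y * u * y⁻¹ = u * w⁻¹ := by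
        have h2 : y * (u * k * c) * y⁻¹ = (y * u * y⁻¹) * (y * k * y⁻¹) * (w * c) := by rw [hw]; group
        rw [hyfix y hy, hBF y hy k hkF, mul_inv_cancel_right] at h2
        calc y * u * y⁻¹ = ((y * u * y⁻¹) * k * (w * c)) * c⁻¹ * w⁻¹ * k⁻¹ := by group
          _ = u * (k * w⁻¹) * k⁻¹ := by rw [← h2]; group
          _ = u * w⁻¹ := by rw [hFF k hkF _ (inv_mem hwF)]; group
      calc y * (c * u) * y⁻¹ = (w * c) * (y * u * y⁻¹) := by rw [hw]; group
        _ = (w * (c * u)) * w⁻¹ := by rw [h1]; group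
        _ = c * u := by
          rw [← mul_assoc, ← hCF c hc w hwF, mul_assoc c w u, hFL w hwF u huL, ← mul_assoc, mul_inv_cancel_right]
    set m := c * u with hmdef
    have hmA : ∀ x ∈ A, m * x = x * m := fun x hx =>
      ((show Commute c x from (comm_iff.1 hac x hx c hc).symm).mul_left
        (show Commute u x from (hAL x hx u huL).symm)).eq
    have hmF : ∀ x ∈ F, m * x = x * m := fun x hx =>
      ((show Commute c x from hCF c hc x hx).mul_left (show Commute u x from (hFL x hx u huL).symm)).eq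
    have hau1 : a * u⁻¹ ≠ 1 := fun e' => ha1 (Subgroup.mem_bot.1 (rc_inter_bot hS hA hB h hAF ▸
      (⟨ha, by rw [mul_inv_eq_one.1 e']; exact huL⟩ : a ∈ A ⊓ L)))
    obtain ⟨hmem, hpart, -⟩ := rc_members hS hA hB h hFS hAF
    obtain ⟨U', hU', hau⟩ := hpart.2.1 _ (mul_mem (Subgroup.mem_sup_left ha) (Subgroup.mem_sup_right (inv_mem huL))) hau1
    rw [hmem] at hU'
    have hU'' : U' ≠ L := by
      rintro rfl
      exact ha1 (Subgroup.mem_bot.1 (rc_inter_bot hS hA hB h hAF ▸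
        (⟨ha, by simpa using mul_mem hau huL⟩ : a ∈ A ⊓ L)))
    obtain ⟨k', hk', rfl⟩ := hU'.resolve_right hU''
    have hpair : IsRankOnePair (conjBy A k') B := by
      have := rankOne_conj h k'
      rwa [conjBy_eq_self_of_comm (rc_comm_left hBC) hk'] at this
    have hmc : ∀ x ∈ conjBy A k' ⊔ B, m * x = x * m := by
      have hle : conjBy A k' ⊔ B ≤ Subgroup.centralizer ({m} : Set G) := by
        refine sup_le ?_ fun y hy => Subgroup.mem_centralizer_singleton_iff.2 ?_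
        · rintro _ ⟨x, hx, rfl⟩
          rw [Subgroup.mem_centralizer_singleton_iff]
          exact (((show Commute m k' from hmF k' hk').mul_right (hmA x hx)).mul_right
            (show Commute m k' from hmF k' hk').inv_right).symm.eq
        · exact mul_inv_eq_iff_eq_mul.1 (hm y hy)
      exact fun x hx => (Subgroup.mem_centralizer_singleton_iff.1 (hle hx)).symm
    have hmau : m * (a * u⁻¹) = a * c := by
      rw [← mul_assoc, hmA a ha, hmdef]; group
    have hac1 : a * c ≠ 1 := fun e' => by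
      apply hau1
      have hm' : a * u⁻¹ = m⁻¹ := eq_inv_of_mul_eq_one_right (hmau.trans e')
      exact eq_one_of_centralizes hpair hau fun x hx => by
        rw [hm']; exact ((show Commute m x from hmc x hx).inv_left).eq
    obtain ⟨U, hU, hUm⟩ := hcov a ha c hc hac1
    have hUU : U = conjBy A k' :=
      eq_of_mul_mem hS (hS.conj_mem A hA k') hB hpair hmc hau hau1 hU (by rwa [hmau])
    rw [hUU, ← hmau] at hUm
    have hm1 : m = 1 := eq_one_of_centralizes hpair ((mul_mem_cancel_right hau).1 hUm) hmc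
    refine ⟨by rw [eq_inv_of_mul_eq_one_left hm1]; exact inv_mem huL, ?_⟩
    rw [hnc, show u * k * c = k * (c * u) by rw [← hFL k hkF u huL, mul_assoc, hCL c hc u huL]]
    rw [← hmdef, hm1, mul_one]
    exact hkF
  obtain ⟨c, hc, hc1⟩ := exists_left hCP
  obtain ⟨a, ha, ha1⟩ := exists_left h
  obtain ⟨b, hb, -, e⟩ := h.cond_left a ha ha1
  refine ⟨eq_of_mem_inter hS hCS hPS hCP hLS hc (key a ha b hb e ha1 c hc).1 hc1, fun a ha b hb e ha1 => ?_⟩
  set n := a * b⁻¹ * a with hn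
  refine (eq_of_mem_inter hS (hS.conj_mem C hCS n) (hS.conj_mem P hPS n) (rankOne_conj hCP n) hFS
    (conj_mem_conjBy n hc) (key a ha b hb e ha1 c hc).2 (fun e' => hc1 (conj_eq_one_iff.1 e'))).symm

/-- `line_swap_of_cover` for a line partner. -/
theorem line_swap (hS : IsRootSubgroupSet S) (hA : A ∈ S) (hB : B ∈ S) (h : IsRankOnePair A B)
    (hC : C ∈ linePartners S A) (hP : ∃ P ∈ S, IsRankOnePair C P) (hBC : RootCommutatorCase S B C) :
    ⁅A, ⁅B, C⁆⁆ = C ∧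
      ∀ a ∈ A, ∀ b ∈ B, conjBy A b⁻¹ = conjBy B a⁻¹ → a ≠ 1 → conjBy C (a * b⁻¹ * a) = ⁅B, C⁆ := by
  obtain ⟨⟨hCS, -, hac⟩, -, hcov, -⟩ := hC
  exact line_swap_of_cover hS hA hB h hCS hac (fun a ha c hc h1 => by
    obtain ⟨U, hU, hm⟩ := hcov _ (mul_mem (Subgroup.mem_sup_left ha) (Subgroup.mem_sup_right hc)) h1
    exact ⟨U, hU.1, hm⟩) hP hBC

/-- A line is generated by any member in the commutator case with an opposite of `A`, and `A`. -/
theorem exists_line_gen (hS : IsRootSubgroupSet S) (hpart : ∀ X ∈ S, ∃ P ∈ S, IsRankOnePair X P)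
    (hA : A ∈ S) (hB : B ∈ linePartners S A) :
    ∃ K ∈ S, RootCommutatorCase S A K ∧ A ⊔ ⁅A, K⁆ = A ⊔ B := by
  obtain ⟨P, hP, hAP⟩ := hpart A hA
  obtain ⟨U, hU, hPU⟩ := S5034.exists_rc_member hS hA hP hAP hB
  have hUA : U ≠ A := fun e => rc_not_rankOne hS hA (e ▸ hPU) (RankOnePair_symm hAP)
  obtain ⟨⟨hBS, hBA, hab⟩, -, hcov, hdis⟩ := hB
  have hABc : A ⊔ B ≤ Subgroup.centralizer (A : Set G) := sup_le
    (fun x hx => Subgroup.mem_centralizer_iff.2 fun y hy =>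
      congrArg Subtype.val ((hS.commutative A hA).is_comm.comm ⟨y, hy⟩ ⟨x, hx⟩))
    (Subgroup.commutator_eq_bot_iff_le_centralizer.1 (comm_symm hab))
  have hau : ⁅A, U⁆ = ⊥ := comm_symm (Subgroup.commutator_eq_bot_iff_le_centralizer.2 (hU.2.trans hABc))
  have hs := (line_swap_of_cover hS hA hP hAP hU.1 hau (fun a ha c hc h1 => by
    obtain ⟨V, hV, hm⟩ := hcov _ (mul_mem (Subgroup.mem_sup_left ha) (hU.2 hc)) h1
    exact ⟨V, hV.1, hm⟩) (hpart U hU.1) hPU).1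
  have hK := hPU.1
  refine ⟨_, hK, rc_of_mem hS hA hK (by rw [hs]; exact hU.1), ?_⟩
  obtain ⟨hmem, hpar, -⟩ := rc_members hS hA hP hAP hK (rc_of_mem hS hA hK (by rw [hs]; exact hU.1))
  rw [hs] at hmem hpar
  rw [hs]
  refine le_antisymm (sup_le le_sup_left hU.2) (sup_le le_sup_left ?_)
  obtain ⟨u, hu, hu1⟩ := U.bot_or_exists_ne_one.resolve_left (hS.ne_bot U hU.1)
  obtain ⟨a, ha, b, hb, rfl⟩ := mem_sup_commute hab (hU.2 hu)
  have hb1 : b ≠ 1 := by
    rintro rfl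
    rw [mul_one] at hu hu1
    exact hUA (eq_of_mem_inter hS hA hP hAP hU.1 ha hu hu1)
  have hbm : b ∈ A ⊔ U := by
    have := mul_mem (inv_mem (Subgroup.mem_sup_left (T := U) ha)) (Subgroup.mem_sup_right (S := A) hu)
    simpa using this
  obtain ⟨M, hM, hbM⟩ := hpar.2.1 b hbm hb1
  obtain ⟨Q, hQ, hBQ⟩ := hpart B hBS
  have hMB := eq_of_mem_inter hS hBS hQ hBQ hM.1 hb hbM hb1
  exact hMB ▸ hM.2

/-- In the commutator case some member moves `⁅A, C⁆` inside the line through `A`. -/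
theorem exists_shift (hS : IsRootSubgroupSet S) (hpart : ∀ X ∈ S, ∃ P ∈ S, IsRankOnePair X P)
    (hA : A ∈ S) (hC : C ∈ S) (hAC : RootCommutatorCase S A C) :
    ∃ D ∈ S, RootCommutatorCase S ⁅A, C⁆ D ∧ ⁅⁅A, C⁆, D⁆ = A := by
  have hFS := hAC.1
  obtain ⟨P, hP, hAP⟩ := hpart A hA
  obtain ⟨hmem, -, hline⟩ := rc_members hS hA hP hAP hC hAC
  set F := ⁅A, C⁆ with hF
  obtain ⟨B, hB, hFB⟩ := hpart F hFS
  obtain ⟨U, hU, hBU⟩ := S5034.exists_rc_member hS hFS hB hFB hline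
  rw [sup_comm F A, hmem] at hU
  have hUF : U ≠ F := fun e => rc_not_rankOne hS hFS (e ▸ hBU) (RankOnePair_symm hFB)
  obtain ⟨c, hc, rfl⟩ := hU.resolve_right hUF
  have hFc : conjBy F c = F := conjBy_eq_self_of_comm (comm_symm (rc_comm_right hAC)) hc
  have hline' := linePartner_conj hS hline c
  rw [hFc] at hline'
  have hUS := hS.conj_mem A hA c
  have hs := (line_swap hS hFS hB hFB hline' (hpart _ hUS) hBU).1
  have hDS := hS.conj_mem _ hBU.1 c⁻¹
  have heq : ⁅F, conjBy ⁅B, conjBy A c⁆ c⁻¹⁆ = A := by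
    conv_lhs => rw [← conjBy_inv_conjBy F c, hFc]
    rw [← conj_commutator, hs, conjBy_inv_conjBy]
  exact ⟨_, hDS, rc_of_mem hS hFS hDS (heq.symm ▸ hA), heq⟩

end Cfsg.Agent.Lib.Root
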