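import Cfsg.Agent.Lib.Root.Special

/-! Special rank one groups with more than three unipotent elements are perfect. -/
set_option autoImplicit false

namespace Cfsg.Agent.Lib.Root

variable {G : Type*} [Group G] {F D : Subgroup G}

/-- The maps `a b⁻¹ a` exchange the two unipotent subgroups. -/
theorem swap_elt (hs : IsSpecialRankOnePair F D) (hF : IsMulCommutative F) {a b : G} (ha : a ∈ F) (ha1 : a ≠ 1)
    (hb : b ∈ D) (hb1 : b ≠ 1) (e : conjBy F b⁻¹ = conjBy D a⁻¹) :
    conjBy F (a * b⁻¹ * a) = D ∧ conjBy D (a * b⁻¹ * a) = F ∧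
      conjBy (conjBy D a⁻¹) (a * b⁻¹ * a) = conjBy D a := by
  have e' := special_inv hs hF ha ha1 hb hb1 e
  refine ⟨?_, ?_, ?_⟩
  · rw [← conjBy_mul, conjBy_eq_self_of_mem ha, ← conjBy_mul, e, conjBy_conjBy_inv]
  · rw [← conjBy_mul, ← e', ← conjBy_mul, conjBy_inv_conjBy, conjBy_eq_self_of_mem ha]
  · rw [conjBy_mul, mul_assoc, mul_inv_cancel, mul_one, ← conjBy_mul,
      conjBy_eq_self_of_mem (inv_mem hb)]

theorem not_subset_three (h : 3 < ENat.card F) (u v w : G) : ∃ z ∈ F, z ≠ u ∧ z ≠ v ∧ z ≠ w := by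
  by_contra hc
  push Not at hc
  have hsub : (F : Set G) ⊆ {u, v, w} := fun z hz => by
    by_cases h1 : z = u
    · simp [h1]
    by_cases h2 : z = v
    · simp [h2]
    simp [hc z hz h1 h2]
  have h1 := Set.encard_le_encard hsub
  have h2 : ({u, v, w} : Set G).encard ≤ 3 := by
    refine (Set.encard_insert_le _ _).trans ?_
    refine le_trans (add_le_add_left (Set.encard_insert_le _ _) 1) ?_
    simp [Set.encard_singleton]; norm_num
  have h3 : ENat.card F = (F : Set G).encard := rfl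
  rw [h3] at h
  exact absurd (h1.trans h2) (not_le.2 h)

theorem le_derived (hs : IsSpecialRankOnePair F D) (hF : IsMulCommutative F) (hD : IsMulCommutative D)
    (hcard : 3 < ENat.card F) : F ≤ ⁅F ⊔ D, F ⊔ D⁆ := by
  classical
  set Y := F ⊔ D with hY
  have hFY : ∀ {x : G}, x ∈ F → x ∈ Y := fun h => Subgroup.mem_sup_left h
  have hDY : ∀ {x : G}, x ∈ D → x ∈ Y := fun h => Subgroup.mem_sup_right h
  let χ : G → Abelianization Y := fun g => if h : g ∈ Y then Abelianization.of ⟨g, h⟩ else 1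
  have hmul : ∀ {x y : G}, x ∈ Y → y ∈ Y → χ (x * y) = χ x * χ y := fun {x y} hx hy => by
    simp only [χ, dif_pos hx, dif_pos hy, dif_pos (mul_mem hx hy)]
    rw [← map_mul]; rfl
  have hinv : ∀ {x : G}, x ∈ Y → χ x⁻¹ = (χ x)⁻¹ := fun {x} hx => by
    simp only [χ, dif_pos hx, dif_pos (inv_mem hx)]
    rw [← map_inv]; rfl
  have hone : χ 1 = 1 := by
    simp only [χ, dif_pos (one_mem Y)]
    exact map_one _
  have hpow : ∀ {x : G}, x ∈ Y → ∀ n : ℕ, χ (x ^ n) = χ x ^ n := by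
    intro x hx n
    induction n with
    | zero => simp [hone]
    | succ n ih => rw [pow_succ, hmul (pow_mem hx n) hx, ih, pow_succ]
  intro a ha
  suffices hgoal : χ a = 1 by
    simp only [χ, dif_pos (hFY ha)] at hgoal
    have : (⟨a, hFY ha⟩ : Y) ∈ commutator Y := (QuotientGroup.eq_one_iff _).1 hgoal
    rw [← Subgroup.map_subtype_commutator]
    exact ⟨_, this, rfl⟩
  revert a
  by_contra hcon
  push Not at hcon
  obtain ⟨a, ha, hχa⟩ := hcon
  -- partners
  have hpart : ∀ u ∈ F, u ≠ 1 → ∃ b ∈ D, b ≠ 1 ∧ conjBy F b⁻¹ = conjBy D u⁻¹ ∧ χ b⁻¹ = χ u := by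
    intro u hu hu1
    obtain ⟨b, hb, hb1, e⟩ := hs.1.cond_left u hu hu1
    refine ⟨b, hb, hb1, e, ?_⟩
    have hbY := hDY hb
    have huY := hFY hu
    have h := congrArg χ (hs.2 u hu hu1 b hb hb1 e)
    rw [hmul (mul_mem (inv_mem hbY) huY) hbY, hmul (inv_mem hbY) huY,
      hmul (mul_mem (inv_mem huY) (inv_mem hbY)) huY, hmul (inv_mem huY) (inv_mem hbY),
      hinv hbY, hinv huY, inv_mul_cancel_comm, inv_mul_cancel_comm] at h
    rw [hinv hbY, ← h]
  have hswap : ∀ g ∈ Y, conjBy F g = D → conjBy D g = F → ∀ x ∈ F, x ≠ 1 →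
      ∃ y ∈ F, conjBy (conjBy D x) g = conjBy D y ∧ χ y = (χ x)⁻¹ := by
    intro g hg gF gD x hx hx1
    obtain ⟨b, hb, hb1, e, -⟩ := hpart x⁻¹ (inv_mem hx) (inv_ne_one.2 hx1)
    obtain ⟨nF, nD, nx⟩ := swap_elt hs hF (inv_mem hx) (inv_ne_one.2 hx1) hb hb1 e
    rw [inv_inv] at nx
    set n := x⁻¹ * b⁻¹ * x⁻¹
    have hn : n ∈ Y := mul_mem (mul_mem (inv_mem (hFY hx)) (inv_mem (hDY hb))) (inv_mem (hFY hx))
    set h := g * n⁻¹ with hh
    have hhF : conjBy F h = F := by
      rw [hh, ← conjBy_mul]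
      conv_lhs => rw [← nD, conjBy_inv_conjBy]
      exact gD
    have hhD : conjBy D h = D := by
      rw [hh, ← conjBy_mul]
      conv_lhs => rw [← nF, conjBy_inv_conjBy]
      exact gF
    have hhY : h ∈ Y := mul_mem hg (inv_mem hn)
    refine ⟨h * x⁻¹ * h⁻¹, ?_, ?_, ?_⟩
    · exact hhF.le (conj_mem_conjBy h (inv_mem hx))
    · rw [show g = h * n by rw [hh, inv_mul_cancel_right], ← conjBy_mul _ n h, nx]
      conv_rhs => rw [← hhD]
      rw [conjBy_mul, conjBy_mul]
      congr 1; group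
    · rw [hmul (mul_mem hhY (inv_mem (hFY hx))) (inv_mem hhY), hmul hhY (inv_mem (hFY hx)), hinv hhY,
        hinv (hFY hx), mul_inv_cancel_comm]
  have ha1 : a ≠ 1 := fun e => hχa (e ▸ hone)
  obtain ⟨b, hb, hb1, e, hχb⟩ := hpart a ha ha1
  obtain ⟨nF, nD, -⟩ := swap_elt hs hF ha ha1 hb hb1 e
  set n := a * b⁻¹ * a with hn
  have hnY : n ∈ Y := mul_mem (mul_mem (hFY ha) (inv_mem (hDY hb))) (hFY ha)
  have niF : conjBy F n⁻¹ = D := by
    conv_lhs => rw [← nD, conjBy_inv_conjBy]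
  have niD : conjBy D n⁻¹ = F := by
    conv_lhs => rw [← nF, conjBy_inv_conjBy]
  set c := n⁻¹ * b⁻¹ * n with hc
  have hcF : c ∈ F := by
    have : b⁻¹ ∈ conjBy F n := by rw [nF]; exact inv_mem hb
    exact mem_conjBy.1 this
  have hχc : χ c = χ a := by
    rw [hc, hmul (mul_mem (inv_mem hnY) (inv_mem (hDY hb))) hnY, hmul (inv_mem hnY) (inv_mem (hDY hb)),
      hinv hnY, inv_mul_cancel_comm, hχb]
  let Bad : G → Prop := fun x => conjBy (conjBy D (a * x)) n⁻¹ = conjBy D c⁻¹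
  have hbad : ∀ x ∈ F, ∀ x' ∈ F, Bad x → Bad x' → x = x' := by
    intro x hx x' hx' h h'
    exact mul_left_cancel (conjBy_right_unique hs.1 (mul_mem ha hx) (mul_mem ha hx')
      (conjBy_injective n⁻¹ (h.trans h'.symm)))
  have hgen : ∀ x ∈ F, x ≠ 1 → x ≠ a⁻¹ → ¬ Bad x → χ a * χ x * χ x = 1 := by
    intro x hx hx1 hxa hxb
    have haxF : a * x ∈ F := mul_mem ha hx
    have hax1 : a * x ≠ 1 := fun h => hxa (eq_inv_of_mul_eq_one_right h)
    obtain ⟨y1, hy1, e1, c1⟩ := hswap n⁻¹ (inv_mem hnY) niF niD (a * x) haxF hax1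
    have hcy : c * y1 ≠ 1 := fun h => hxb (by
      show conjBy (conjBy D (a * x)) n⁻¹ = conjBy D c⁻¹
      rw [e1, eq_inv_of_mul_eq_one_right h])
    obtain ⟨y2, hy2, e2, c2⟩ := hswap n hnY nF nD (c * y1) (mul_mem hcF hy1) hcy
    obtain ⟨y, hy, e3, c3⟩ := hswap n hnY nF nD x hx hx1
    have hne : n * x = a * (n * (c * (n⁻¹ * (a * x)))) := by rw [hc, hn]; group
    have he : conjBy (conjBy D x) n = conjBy D (a * y2) := by
      calc conjBy (conjBy D x) n = conjBy D (a * (n * (c * (n⁻¹ * (a * x))))) := by rw [conjBy_mul, hne]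
        _ = conjBy (conjBy (conjBy (conjBy (conjBy D (a * x)) n⁻¹) c) n) a := by simp only [conjBy_mul]
        _ = conjBy (conjBy D y2) a := by rw [e1, conjBy_mul D y1 c, e2]
        _ = _ := by rw [conjBy_mul]
    have hyy := conjBy_right_unique hs.1 hy (mul_mem ha hy2) (e3.symm.trans he)
    have := congrArg χ hyy
    rw [c3, hmul (hFY ha) (hFY hy2), c2, hmul (hFY hcF) (hFY hy1), c1, hmul (hFY ha) (hFY hx), hχc,
      mul_inv_rev, inv_inv, mul_inv_cancel_comm] at this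
    rw [show χ a * χ x * χ x = (χ a * χ x) * χ x from rfl, ← this, inv_mul_cancel]
  have hcube : ∀ u ∈ F, u ^ 2 ≠ 1 → χ u ^ 3 = 1 := by
    intro u hu hu2
    obtain ⟨b₁, hb₁, -, e₁, k₁⟩ := hpart u hu (fun h => hu2 (by rw [h, one_pow]))
    obtain ⟨b₂, hb₂, -, e₂, k₂⟩ := hpart (u ^ 2) (pow_mem hu 2) hu2
    have h := congrArg χ (special_pow hs hF hD 2 u hu b₁ hb₁ b₂ hb₂ hu2 e₁ e₂)
    rw [hinv (hDY hb₁)] at k₁
    rw [hinv (hDY hb₂), hpow (hFY hu)] at k₂
    rw [hpow (hDY hb₂), inv_eq_iff_eq_inv.1 k₁, inv_eq_iff_eq_inv.1 k₂, inv_pow, inv_inj, ← pow_mul] at h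
    have h' : χ u ^ 3 * χ u = 1 * χ u := by rw [← pow_succ, one_mul]; exact h
    exact mul_right_cancel h'
  rcases special_dichotomy hs hF hD with ⟨p, hp, -, hpe⟩ | ⟨htf, hdiv⟩
  · have hchi : ∀ u ∈ F, χ u ^ p = 1 := fun u hu => by rw [← hpow (hFY hu), hpe u hu, hone]
    by_cases hp3 : p = 3
    · subst hp3
      have ha3 := hchi a ha
      -- outside three points, `χ` is constant
      have hconst : ∀ x ∈ F, x ≠ 1 → x ≠ a⁻¹ → ¬ Bad x → χ x = χ a := by
        intro x hx h1 h2 h3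
        have h := hgen x hx h1 h2 h3
        have hx3 : χ x * (χ x * χ x) = 1 := by rw [← hchi x hx]; simp [pow_succ, mul_assoc]
        rw [mul_assoc] at h
        exact mul_right_cancel (hx3.trans h.symm)
      have hinj : ∀ t ∈ F, χ t = 1 → t = 1 := by
        intro t ht h1
        by_contra ht1
        have hta : χ (a⁻¹ * t) = (χ a)⁻¹ := by
          rw [hmul (inv_mem (hFY ha)) (hFY ht), hinv (hFY ha), h1, mul_one]
        have hainv : (χ a)⁻¹ ≠ χ a := fun h => hχa (by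
          have : χ a ^ 2 = 1 := by rw [pow_two]; nth_rewrite 1 [← h]; rw [inv_mul_cancel]
          calc χ a = χ a ^ 3 * (χ a ^ 2)⁻¹ := by rw [pow_succ _ 2]; group
            _ = 1 := by rw [ha3, this, inv_one, mul_one])
        have hb1 : Bad t := by
          by_contra hb
          refine hχa ?_
          rw [← hconst t ht ht1 (fun h => hχa ?_) hb, h1]
          rw [h, hinv (hFY ha)] at h1
          exact inv_eq_one.1 h1
        have hb2 : Bad (a⁻¹ * t) := by
          by_contra hb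
          refine hainv ?_
          rw [← hta]
          refine hconst _ (mul_mem (inv_mem ha) ht) (fun h => hχa ?_) (fun h => ht1 ?_) hb
          · rw [h, hone] at hta; exact inv_eq_one.1 hta.symm
          · simpa using h
        have h := hbad _ (mul_mem (inv_mem ha) ht) t ht hb2 hb1
        exact ha1 (inv_eq_one.1 (by simpa using h))
      have hsingle : ∀ x ∈ F, x ≠ 1 → x ≠ a⁻¹ → ¬ Bad x → x = a := fun x hx h1 h2 h3 => by
        have := hinj (x * a⁻¹) (mul_mem hx (inv_mem ha))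
          (by rw [hmul (hFY hx) (inv_mem (hFY ha)), hinv (hFY ha), hconst x hx h1 h2 h3, mul_inv_cancel])
        exact mul_inv_eq_one.1 this
      obtain ⟨z, hz, z1, z2, z3⟩ := not_subset_three hcard 1 a⁻¹ a
      have hzb : Bad z := by
        by_contra h
        exact z3 (hsingle z hz z1 z2 h)
      have a3 : a * (a * a) = 1 := by simpa [pow_succ, mul_assoc] using hpe a ha
      by_cases q1 : z * a = 1
      · exact z2 (eq_inv_of_mul_eq_one_left q1)
      by_cases q2 : z * a = a⁻¹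
      · refine z3 ?_
        have : z * a * a = 1 := by rw [q2, inv_mul_cancel]
        rw [mul_assoc] at this
        exact mul_right_cancel (this.trans a3.symm)
      by_cases q3 : Bad (z * a)
      · exact ha1 (by simpa using hbad _ (mul_mem hz ha) z hz q3 hzb)
      exact z1 (by simpa using hsingle _ (mul_mem hz ha) q1 q2 q3)
    by_cases hp2 : p = 2
    · subst hp2
      obtain ⟨x, hx, x1, x2, x3⟩ := not_subset_three hcard 1 a⁻¹
        (if h : ∃ x ∈ F, Bad x then h.choose else 1)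
      have hxb : ¬ Bad x := fun hb => x3 (by
        have h : ∃ x ∈ F, Bad x := ⟨x, hx, hb⟩
        rw [dif_pos h]
        exact hbad x hx _ h.choose_spec.1 hb h.choose_spec.2)
      have h := hgen x hx x1 x2 hxb
      rw [mul_assoc, ← pow_two, hchi x hx, mul_one] at h
      exact hχa h
    have ha2 : a ^ 2 ≠ 1 := by
      intro h
      have h1 : a ^ (Nat.gcd 2 p) = 1 := pow_gcd_eq_one.2 ⟨h, hpe a ha⟩
      rw [(Nat.coprime_primes Nat.prime_two hp).2 (Ne.symm hp2)] at h1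
      exact ha1 (by simpa using h1)
    have h3 : χ a ^ (Nat.gcd 3 p) = 1 := pow_gcd_eq_one.2 ⟨hcube a ha ha2, hchi a ha⟩
    rw [(Nat.coprime_primes Nat.prime_three hp).2 (Ne.symm hp3)] at h3
    exact hχa (by simpa using h3)
  · obtain ⟨u, hu, rfl⟩ := hdiv a ha 3 (by norm_num)
    refine hχa ?_
    rw [hpow (hFY hu)]
    refine hcube u hu fun h => ?_
    have hu1 : u ≠ 1 := fun e => ha1 (by rw [e, one_pow])
    exact htf u hu hu1 (isOfFinOrder_iff_pow_eq_one.2 ⟨2, by norm_num, h⟩)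

end Cfsg.Agent.Lib.Root
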