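import Cfsg.Agent.Lib.Root.TransvectionRoot

/-! The transvection subgroups of the special linear group. -/

set_option autoImplicit false

namespace Cfsg.Agent.Lib.Root.SL

open Matrix Cfsg.Agent.Lib.Forms Cfsg.Agent.Lib.Root

variable (k : Type*) [Field k] (n : ℕ)

local notation "G₀" => Matrix.SpecialLinearGroup (Fin (n + 3)) k

theorem toGL_injective :
    Function.Injective (Matrix.SpecialLinearGroup.toGL : G₀ → GL (Fin (n + 3)) k) :=
  fun _ _ h => Subtype.ext (congrArg Units.val h)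

theorem tv_mem_range (a φ : Fin (n + 3) → k) :
    tv a φ ∈ (Matrix.SpecialLinearGroup.toGL : G₀ →* GL (Fin (n + 3)) k).range :=
  ⟨⟨_, tv_det a φ⟩, Units.ext rfl⟩

/-- The transvection subgroup of `(a, φ)`. -/
noncomputable def T (a φ : Fin (n + 3) → k) : Subgroup G₀ := Tsub Matrix.SpecialLinearGroup.toGL a φ

/-- All transvection subgroups. -/
def family : Set (Subgroup G₀) :=
  {A | ∃ a φ : Fin (n + 3) → k, a ≠ 0 ∧ φ ≠ 0 ∧ φ ⬝ᵥ a = 0 ∧ A = T k n a φ}

theorem adj {a φ b ψ : Fin (n + 3) → k} (h : φ ⬝ᵥ a = 0) (hψ : ψ ⬝ᵥ b = 0) (h1 : φ ⬝ᵥ b ≠ 0)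
    (h2 : ψ ⬝ᵥ a ≠ 0) : FAdj (family k n) (T k n a φ) (T k n b ψ) := by
  refine ⟨⟨a, φ, ?_, ?_, h, rfl⟩, ⟨b, ψ, ?_, ?_, hψ, rfl⟩,
    (Tsub_rankOne (toGL_injective k n) h hψ h1 h2 (fun c => tv_mem_range k n _ _) (fun c => tv_mem_range k n _ _)).1⟩
  · rintro rfl; simp at h2
  · rintro rfl; simp at h1
  · rintro rfl; simp at h1
  · rintro rfl; simp at h2

theorem connected : IsConnectedFamily (FAdj (family k n)) (family k n) := by
  rintro A ⟨a, φ, ha, hφ, h, rfl⟩ B ⟨b, ψ, hb, hψ0, hψ, rfl⟩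
  obtain ⟨z, hz1, hz2⟩ := exists_both_ne hφ hψ0
  have hne : ∀ {v η : Fin (n + 3) → k}, v ≠ 0 → η ⬝ᵥ v = 0 → η ⬝ᵥ z ≠ 0 →
      ∃ χ : Fin (n + 3) → k, χ ⬝ᵥ v = 1 ∧ χ ⬝ᵥ z = 0 := by
    intro v η hv hv0 hvz
    have hvp : v ∉ Submodule.span k ({z} : Set (Fin (n + 3) → k)) := by
      rw [Submodule.mem_span_singleton]
      rintro ⟨s, rfl⟩
      rw [dotProduct_smul, smul_eq_mul, mul_eq_zero] at hv0
      rcases hv0 with rfl | h0
      · exact hv (zero_smul _ _)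
      · exact hvz h0
    obtain ⟨χ, hχ, hχ'⟩ := exists_dot_eq_one hvp
    exact ⟨χ, hχ, hχ' z (Submodule.mem_span_singleton_self z)⟩
  obtain ⟨χ₁, hA1, hA2⟩ := hne ha h hz1
  obtain ⟨χ₂, hB1, hB2⟩ := hne hb hψ hz2
  obtain ⟨χ, hχz, hχa, hχb⟩ : ∃ χ : Fin (n + 3) → k, χ ⬝ᵥ z = 0 ∧ χ ⬝ᵥ a ≠ 0 ∧ χ ⬝ᵥ b ≠ 0 := by
    by_cases e1 : χ₁ ⬝ᵥ b = 0
    · by_cases e2 : χ₂ ⬝ᵥ a = 0
      · exact ⟨χ₁ + χ₂, by simp [add_dotProduct, hA2, hB2], by simp [add_dotProduct, hA1, e2],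
          by simp [add_dotProduct, e1, hB1]⟩
      · exact ⟨χ₂, hB2, e2, by simp [hB1]⟩
    · exact ⟨χ₁, hA2, by simp [hA1], e1⟩
  exact (Relation.ReflTransGen.single (adj k n h hχz hz1 hχa)).tail (adj k n hχz hψ hχb hz2)

/-- The elementary transvection group `1 + k E₁₂`. -/
def base : Subgroup G₀ :=
  Subgroup.closure {t | ∃ c : k, (t : Matrix (Fin (n + 3)) (Fin (n + 3)) k) = Matrix.transvection 0 1 c}

theorem e01 : (Pi.single 1 1 : Fin (n + 3) → k) ⬝ᵥ Pi.single 0 1 = 0 := by simp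

theorem transvection_eq (c : k) :
    Matrix.transvection (0 : Fin (n + 3)) 1 c = (tv (Pi.single 0 1) (c • Pi.single 1 1) : GL (Fin (n + 3)) k) := by
  apply Matrix.ext_iff_mulVec.2
  intro x
  rw [tv_mulVec (by simp)]
  ext i
  simp [Matrix.transvection, add_mulVec, single_mulVec, Pi.single_apply]
  rcases eq_or_ne i 0 with rfl | hi <;> simp [*, Function.update]

theorem base_eq : base k n = T k n (Pi.single 0 1) (Pi.single 1 1) := by
  refine le_antisymm ((Subgroup.closure_le _).2 ?_) fun g hg => Subgroup.subset_closure ?_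
  · rintro t ⟨c, hc⟩
    exact (mem_Tsub (e01 k n)).2 ⟨c, Units.ext (hc.trans (transvection_eq k n c))⟩
  · obtain ⟨c, hc⟩ := (mem_Tsub (e01 k n)).1 hg
    exact ⟨c, (congrArg Units.val hc).trans (transvection_eq k n c).symm⟩

theorem conj_family {A : Subgroup G₀} (hA : A ∈ family k n) (g : G₀) : conjBy A g ∈ family k n := by
  obtain ⟨a, φ, ha, hφ, h, rfl⟩ := hA
  refine ⟨_, _, ?_, ?_, ?_, conjBy_Tsub (toGL_injective k n) h g⟩
  · intro e
    exact ha (gl_mulVec_injective (Matrix.SpecialLinearGroup.toGL g) (e.trans (mulVec_zero _).symm))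
  · intro e
    apply hφ
    have := congrArg (fun v => v ᵥ* (Matrix.SpecialLinearGroup.toGL g : Matrix (Fin (n + 3)) (Fin (n + 3)) k)) e
    simpa [vecMul_vecMul, ← Units.val_mul] using this
  · rw [vecMul_inv_dot, h]

theorem base_mem : base k n ∈ family k n :=
  ⟨_, _, by simp, by simp, e01 k n, base_eq k n⟩

theorem family_eq : family k n = {A | ∃ g : G₀, A = conjBy (base k n) g} := by
  ext A
  constructor
  · exact fun hA => conj_of_connected (connected k n) _ (base_mem k n) A hA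
  · rintro ⟨g, rfl⟩
    exact conj_family k n (base_mem k n) g

theorem pair (A B : Subgroup G₀) (hA : A ∈ family k n) (hB : B ∈ family k n) :
    ⁅A, B⁆ = ⊥ ∨ (IsRankOnePair A B ∧ IsPSL2PairOver k A B) ∨
      (RootCommutatorCase (family k n) A B ∧ ¬ IsRankOnePair A B) := by
  obtain ⟨a, φ, ha, hφ, h, rfl⟩ := hA
  obtain ⟨b, ψ, hb, hψ0, hψ, rfl⟩ := hB
  have hi := toGL_injective k n
  have hmem : ∀ (a φ : Fin (n + 3) → k) (c : k), tv a (c • φ) ∈ (Matrix.SpecialLinearGroup.toGL : G₀ →* _).range :=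
    fun a φ c => tv_mem_range k n _ _
  by_cases h1 : φ ⬝ᵥ b = 0
  · by_cases h2 : ψ ⬝ᵥ a = 0
    · exact Or.inl (Tsub_comm hi h hψ h1 h2)
    · exact Or.inr (Or.inr ⟨commutatorCase_facts hi h hψ h1 h2 (hmem _ _) (hmem _ _) _
        ⟨b, φ, hb, hφ, h1, rfl⟩ ha hb hφ hψ0, not_rankOne_of_one_sided hi h hψ h1 h2 ha hb hφ (hmem _ _)⟩)
  · by_cases h2 : ψ ⬝ᵥ a = 0
    · exact Or.inr (Or.inr ⟨rc_symm (commutatorCase_facts hi hψ h h2 h1 (hmem _ _) (hmem _ _) _
        ⟨a, ψ, ha, hψ0, h2, rfl⟩ hb ha hψ0 hφ),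
        fun hR => not_rankOne_of_one_sided hi hψ h h2 h1 hb ha hψ0 (hmem _ _) (RankOnePair_symm hR)⟩)
    · have := Tsub_rankOne hi h hψ h1 h2 (hmem _ _) (hmem _ _)
      exact Or.inr (Or.inl ⟨this.1, this.2.1⟩)

theorem generates : (⨆ A ∈ family k n, A) = ⊤ := by
  rw [eq_top_iff]
  intro g _
  have h := specialLinear_le_of_tv
    ((⨆ A ∈ family k n, A).map (Matrix.SpecialLinearGroup.toGL : G₀ →* GL (Fin (n + 3)) k)) (fun a φ h => ?_)
  · obtain ⟨g', hg', e⟩ := h ((mem_specialLinear (Matrix.SpecialLinearGroup.toGL g)).2 g.2)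
    exact toGL_injective k n e ▸ hg'
  · by_cases ha : a = 0
    · rw [ha, tv_zero_left]; exact one_mem _
    by_cases hφ : φ = 0
    · rw [hφ, tv_zero_right]; exact one_mem _
    obtain ⟨t, ht⟩ := tv_mem_range k n a φ
    exact ⟨t, (le_biSup (fun A : Subgroup G₀ => A) (show T k n a φ ∈ family k n from ⟨a, φ, ha, hφ, h, rfl⟩))
      ((mem_Tsub h).2 ⟨1, by rw [one_smul]; exact ht⟩), ht⟩

theorem rootClass : IsRootSubgroupClass (family k n) := by
  refine ⟨⟨?_, ?_, generates k n, fun A hA g => conj_family k n hA g, fun A hA B hB => ?_⟩,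
    ⟨_, base_mem k n⟩, conj_of_connected (connected k n)⟩
  · rintro A ⟨a, φ, ha, hφ, h, rfl⟩; exact Tsub_commutative (toGL_injective k n) h
  · rintro A ⟨a, φ, ha, hφ, h, rfl⟩
    exact Tsub_ne_bot h ha hφ fun c => tv_mem_range k n _ _
  · rcases pair k n A B hA hB with h | h | h
    · exact Or.inl h
    · exact Or.inr (Or.inl h.1)
    · exact Or.inr (Or.inr h.1)

theorem kRoot : IsKRootSubgroupSet k (family k n) := by
  refine ⟨(rootClass k n).1, fun A hA B hB hR => ?_⟩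
  rcases pair k n A B hA hB with h | h | h
  · obtain ⟨x, hx, hx1⟩ := exists_left hR
    exact absurd (eq_one_of_normalizes hR hx (conjBy_eq_self_of_comm' h hx)) hx1
  · exact h.2
  · exact absurd hR h.2

theorem nondegenerate : IsNondegenerateRootSet (family k n) := by
  have hn0 : (0 : Fin (n + 3)) ≠ 1 := by simp [Fin.ext_iff]
  have hn1 : (0 : Fin (n + 3)) ≠ 2 := by simp [Fin.ext_iff, Nat.mod_eq_of_lt (show 2 < n + 3 by omega)]
  have hn2 : (1 : Fin (n + 3)) ≠ 2 := by simp [Fin.ext_iff, Nat.mod_eq_of_lt (show 2 < n + 3 by omega)]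
  have he : ∀ i j : Fin (n + 3), i ≠ j → T k n (Pi.single i 1) (Pi.single j 1) ∈ family k n :=
    fun i j hij => ⟨_, _, by simp, by simp, by simp [hij], rfl⟩
  refine ⟨⟨_, he 0 1 hn0, _, he 2 1 hn2.symm, ?_, Tsub_comm (toGL_injective k n) (by simp)
      (by simp [hn2.symm]) (by simp [hn2.symm]) (by simp)⟩,
    ⟨_, he 0 1 hn0, _, he 1 0 hn0.symm,
      (adj k n (by simp) (by simp) (by simp) (by simp)).2.2⟩, ?_⟩
  · intro e
    obtain ⟨s, -, hs⟩ := Tsub_center_eq (by simp) (by simp [hn2.symm]) (by simp) (by simp)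
      (fun c => tv_mem_range k n _ _) e
    have := congrFun hs 0
    simp [hn1] at this
  · refine ⟨_, he 1 2 hn2, _, he 0 1 hn0, commutatorCase_facts (toGL_injective k n) (by simp [hn2])
      (by simp) (by simp [hn1]) (by simp) (fun c => tv_mem_range k n _ _) (fun c => tv_mem_range k n _ _) _
      (he 0 2 hn1) (by simp) (by simp) (by simp) (by simp)⟩

end Cfsg.Agent.Lib.Root.SL
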