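import Cfsg.Agent.Lib.Root.SLTransvectionClass

/-! Transvections in characteristic two as root involutions. -/

set_option autoImplicit false

namespace Cfsg.Agent.Lib.Root.SL

open Matrix Cfsg.Agent.Lib.Forms Cfsg.Agent.Lib.Root
open Cfsg.Agent.S5016 (up low coe_up coe_low mem_up mem_low)

variable (F : Type*) [Field F] [Fintype F] [CharP F 2] (n : ℕ)

local notation "G₀" => Matrix.SpecialLinearGroup (Fin (n + 3)) F

omit [Fintype F] in
/-- An element of `SL₂` of non-zero trace commutes with no involution in characteristic two. -/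
theorem eq_one_of_commute_trace {g y : Matrix.SpecialLinearGroup (Fin 2) F}
    (htr : (g : Matrix (Fin 2) (Fin 2) F) 0 0 + (g : Matrix (Fin 2) (Fin 2) F) 1 1 ≠ 0)
    (hy : y * y = 1) (hgy : g * y = y * g) : y = 1 := by
  have hinv : y⁻¹ = y := inv_eq_of_mul_eq_one_right hy
  have e : (y : Matrix (Fin 2) (Fin 2) F) 1 1 = (y : Matrix (Fin 2) (Fin 2) F) 0 0 := by
    have := congrArg (fun z : Matrix.SpecialLinearGroup (Fin 2) F => (z : Matrix (Fin 2) (Fin 2) F) 0 0) hinv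
    simpa [Matrix.SpecialLinearGroup.coe_inv, Matrix.adjugate_fin_two] using this
  have h01 := congrArg (fun z : Matrix.SpecialLinearGroup (Fin 2) F => (z : Matrix (Fin 2) (Fin 2) F) 0 1) hgy
  have h10 := congrArg (fun z : Matrix.SpecialLinearGroup (Fin 2) F => (z : Matrix (Fin 2) (Fin 2) F) 1 0) hgy
  simp only [Matrix.SpecialLinearGroup.coe_mul, Matrix.mul_apply, Fin.sum_univ_two, e] at h01 h10
  have h2 : (2 : F) = 0 := CharTwo.two_eq_zero
  have b0 : (y : Matrix (Fin 2) (Fin 2) F) 0 1 = 0 := by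
    refine (mul_eq_zero.1 ?_).resolve_left htr
    linear_combination h01 + (y : Matrix (Fin 2) (Fin 2) F) 0 1 * (g : Matrix (Fin 2) (Fin 2) F) 1 1 * h2
  have c0 : (y : Matrix (Fin 2) (Fin 2) F) 1 0 = 0 := by
    refine (mul_eq_zero.1 ?_).resolve_left htr
    linear_combination -h10 + (y : Matrix (Fin 2) (Fin 2) F) 1 0 * (g : Matrix (Fin 2) (Fin 2) F) 1 1 * h2
  have hd := y.2
  rw [Matrix.det_fin_two, e, b0] at hd
  have ha : (y : Matrix (Fin 2) (Fin 2) F) 0 0 = 1 := by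
    have hz : ((y : Matrix (Fin 2) (Fin 2) F) 0 0 - 1) * ((y : Matrix (Fin 2) (Fin 2) F) 0 0 - 1) = 0 := by
      linear_combination hd + (1 - (y : Matrix (Fin 2) (Fin 2) F) 0 0) * h2
    exact sub_eq_zero.1 (mul_self_eq_zero.1 hz)
  apply Subtype.ext
  ext i j
  fin_cases i <;> fin_cases j <;> simp [b0, c0, e, ha]

theorem odd_orderOf_of_trace {g : Matrix.SpecialLinearGroup (Fin 2) F}
    (htr : (g : Matrix (Fin 2) (Fin 2) F) 0 0 + (g : Matrix (Fin 2) (Fin 2) F) 1 1 ≠ 0) :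
    Odd (orderOf g) := by
  rw [← Nat.not_even_iff_odd]
  rintro ⟨m, hm⟩
  have hpos := orderOf_pos g
  have h1 : g ^ m = 1 := eq_one_of_commute_trace F htr
    (by rw [← pow_add, ← hm, pow_orderOf_eq_one]) (Commute.self_pow g m)
  have := Nat.le_of_dvd (by omega) (orderOf_dvd_of_pow_eq_one h1)
  omega

omit [Fintype F] in
theorem tv_sq (a φ : Fin (n + 3) → F) : tv a φ * tv a φ = 1 := by
  by_cases h : φ ⬝ᵥ a = 0
  · rw [tv_add h h, CharTwo.add_self_eq_zero, tv_zero_right]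
  · simp [tv, h]

/-- The transvections. -/
def elems : Set G₀ :=
  {t | ∃ a φ : Fin (n + 3) → F, a ≠ 0 ∧ φ ≠ 0 ∧ φ ⬝ᵥ a = 0 ∧ Matrix.SpecialLinearGroup.toGL t = tv a φ}

omit [Fintype F] [CharP F 2] in
theorem elems_conj {t : G₀} (ht : t ∈ elems F n) (g : G₀) : g * t * g⁻¹ ∈ elems F n := by
  obtain ⟨a, φ, ha, hφ, h, e⟩ := ht
  refine ⟨(Matrix.SpecialLinearGroup.toGL g : Matrix _ _ F) *ᵥ a,
    φ ᵥ* ((Matrix.SpecialLinearGroup.toGL g)⁻¹ : GL (Fin (n + 3)) F), ?_, ?_,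
    by rw [vecMul_inv_dot, h], ?_⟩
  · intro e0
    exact ha (gl_mulVec_injective (Matrix.SpecialLinearGroup.toGL g) (e0.trans (mulVec_zero _).symm))
  · intro e0
    apply hφ
    have := congrArg (fun v => v ᵥ* (Matrix.SpecialLinearGroup.toGL g : Matrix (Fin (n + 3)) (Fin (n + 3)) F)) e0
    simpa [vecMul_vecMul, ← Units.val_mul] using this
  · rw [map_mul, map_mul, map_inv, e, tv_conj _ h]

omit [Fintype F] [CharP F 2] in
theorem tv0_mem {c : F} (hc : c ≠ 0) (t : G₀)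
    (ht : (t : Matrix (Fin (n + 3)) (Fin (n + 3)) F) = Matrix.transvection 0 1 c) : t ∈ elems F n :=
  ⟨Pi.single 0 1, c • Pi.single 1 1, by simp, by simp [hc], by simp,
    Units.ext (ht.trans (transvection_eq F n c))⟩

omit [Fintype F] [CharP F 2] in
theorem elems_eq : elems F n = {t : G₀ | ∃ c : F, c ≠ 0 ∧
    ∃ g : G₀, ((g⁻¹ * t * g : G₀) : Matrix (Fin (n + 3)) (Fin (n + 3)) F) = Matrix.transvection 0 1 c} := by
  ext t
  constructor
  · intro ht
    obtain ⟨a, φ, ha, hφ, h, e⟩ := ht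
    obtain ⟨g, hg⟩ := conj_of_connected (connected F n) _ (base_mem F n) (T F n a φ) ⟨a, φ, ha, hφ, h, rfl⟩
    have ht : t ∈ T F n a φ := (mem_Tsub h).2 ⟨1, by rw [one_smul]; exact e⟩
    rw [hg, mem_conjBy, base_eq, T, mem_Tsub (e01 F n)] at ht
    obtain ⟨c, hc⟩ := ht
    refine ⟨c, ?_, g, (congrArg Units.val hc).trans (transvection_eq F n c).symm⟩
    rintro rfl
    rw [zero_smul, tv_zero_right, map_mul, map_mul, map_inv, e] at hc
    refine tv_ne_one h ha hφ ?_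
    rw [mul_eq_one_iff_eq_inv, inv_mul_eq_iff_eq_mul, mul_inv_cancel] at hc
    exact hc
  · rintro ⟨c, hc, g, hg⟩
    have := elems_conj F n (tv0_mem F n hc _ hg) g
    simpa [mul_assoc] using this

omit [Fintype F] in
theorem orderOf_elems {t : G₀} (ht : t ∈ elems F n) : orderOf t = 2 := by
  obtain ⟨a, φ, ha, hφ, h, e⟩ := ht
  refine orderOf_eq_prime (toGL_injective F n ?_) fun h1 => tv_ne_one h ha hφ ?_
  · rw [pow_two, map_mul, e, map_one, tv_sq]
  · rw [← e, h1, map_one]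

omit [Fintype F] in
theorem one_sided {t s : G₀} {a φ b ψ : Fin (n + 3) → F} (h : φ ⬝ᵥ a = 0) (hψ : ψ ⬝ᵥ b = 0)
    (h1 : φ ⬝ᵥ b = 0) (h2 : ψ ⬝ᵥ a ≠ 0) (hφ : φ ≠ 0) (hb : b ≠ 0)
    (et : Matrix.SpecialLinearGroup.toGL t = tv a φ) (es : Matrix.SpecialLinearGroup.toGL s = tv b ψ) :
    orderOf (t * s) = 4 ∧ (t * s) ^ 2 ∈ elems F n := by
  have e2 : Matrix.SpecialLinearGroup.toGL ((t * s) ^ 2) = tv b (-(ψ ⬝ᵥ a) • φ) := by
    rw [pow_two, map_mul, map_mul, et, es, ← tv_commutator h hψ h1,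
      inv_eq_of_mul_eq_one_right (tv_sq F n a φ), inv_eq_of_mul_eq_one_right (tv_sq F n b ψ)]
    group
  have hm : (t * s) ^ 2 ∈ elems F n := ⟨b, _, hb, by simp [h2, hφ], by simp [h1], e2⟩
  refine ⟨?_, hm⟩
  have := orderOf_elems F n hm
  refine orderOf_eq_prime_pow (p := 2) (n := 1) (fun e => ?_) ?_
  · rw [pow_one] at e; rw [e, orderOf_one] at this; omega
  · have h2' := pow_orderOf_eq_one ((t * s) ^ 2)
    rw [this, ← pow_mul] at h2'
    exact h2'

theorem opposite {t s : G₀} {a φ b ψ : Fin (n + 3) → F} (h : φ ⬝ᵥ a = 0) (hψ : ψ ⬝ᵥ b = 0)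
    (h1 : φ ⬝ᵥ b ≠ 0) (h2 : ψ ⬝ᵥ a ≠ 0)
    (et : Matrix.SpecialLinearGroup.toGL t = tv a φ) (es : Matrix.SpecialLinearGroup.toGL s = tv b ψ) :
    Odd (orderOf (t * s)) ∧ (Fintype.card F = 2 → (t * s) ^ 3 = 1) := by
  have hi := toGL_injective F n
  obtain ⟨Φ, -, hu, hl, -, -⟩ := exists_sl2_hom (ρ := (Matrix.SpecialLinearGroup.toGL : G₀ →* _)) hi
    (a := a) (φ := (φ ⬝ᵥ b)⁻¹ • φ) (b := b)
    (ψ := (ψ ⬝ᵥ a)⁻¹ • ψ) (by simp [h2]) (by simp [h1]) (by simp [h]) (by simp [hψ])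
    (fun c => tv_mem_range F n _ _) (fun c => tv_mem_range F n _ _)
  have e : t * s = Φ (up F (φ ⬝ᵥ b) * low F (ψ ⬝ᵥ a)) := hi (by
    rw [map_mul Φ, map_mul, map_mul, hu, hl, et, es, smul_smul, smul_smul, mul_inv_cancel₀ h1,
      mul_inv_cancel₀ h2, one_smul, one_smul])
  refine ⟨?_, fun hF => ?_⟩
  · rw [e]
    refine (odd_orderOf_of_trace F ?_).of_dvd_nat (orderOf_map_dvd Φ _)
    simp [coe_up, coe_low, Matrix.SpecialLinearGroup.coe_mul, Matrix.mul_apply, Fin.sum_univ_two]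
    have h2' : (2 : F) = 0 := CharTwo.two_eq_zero
    intro h0
    exact mul_ne_zero h1 h2 (by linear_combination h0 - h2')
  · have hF1 : ∀ x : F, x ≠ 0 → x = 1 := fun x hx => by
      have := FiniteField.pow_card_sub_one_eq_one x hx
      rwa [hF, pow_one] at this
    rw [e, hF1 _ h1, hF1 _ h2, ← map_pow]
    have h2' : (2 : F) = 0 := CharTwo.two_eq_zero
    have h3 : (up F 1 * low F 1) ^ 3 = 1 := by
      apply Subtype.ext
      rw [pow_succ, pow_two]
      simp only [Matrix.SpecialLinearGroup.coe_mul, coe_up, coe_low, Matrix.SpecialLinearGroup.coe_one]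
      ext i j
      fin_cases i <;> fin_cases j <;> simp [Matrix.mul_apply, Fin.sum_univ_two]
      all_goals first
        | linear_combination (6 : F) * h2'
        | linear_combination (4 : F) * h2'
        | linear_combination (2 : F) * h2'
        | linear_combination h2'
    rw [h3, map_one]

theorem pair_elems {t s : G₀} (ht : t ∈ elems F n) (hs : s ∈ elems F n) :
    (t * s = s * t ∨ Odd (orderOf (t * s)) ∨ (orderOf (t * s) = 4 ∧ (t * s) ^ 2 ∈ elems F n)) ∧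
    (Fintype.card F = 2 → Odd (orderOf (t * s)) → orderOf (t * s) = 1 ∨ orderOf (t * s) = 3) := by
  obtain ⟨a, φ, ha, hφ, h, et⟩ := id ht
  obtain ⟨b, ψ, hb, hψ0, hψ, es⟩ := id hs
  by_cases h1 : φ ⬝ᵥ b = 0
  · by_cases h2 : ψ ⬝ᵥ a = 0
    · have hc : t * s = s * t := toGL_injective F n (by rw [map_mul, map_mul, et, es]; exact tv_commute h hψ h1 h2)
      refine ⟨Or.inl hc, fun _ hodd => ?_⟩
      have hd : orderOf (t * s) ∣ 2 := orderOf_dvd_of_pow_eq_one (by
        rw [Commute.mul_pow hc, ← orderOf_elems F n ht, pow_orderOf_eq_one, orderOf_elems F n ht,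
          ← orderOf_elems F n hs, pow_orderOf_eq_one, one_mul])
      rcases (Nat.dvd_prime Nat.prime_two).1 hd with e | e
      · exact Or.inl e
      · rw [e] at hodd; exact absurd hodd (by decide)
    · have := one_sided F n h hψ h1 h2 hφ hb et es
      refine ⟨Or.inr (Or.inr this), fun _ hodd => ?_⟩
      rw [this.1] at hodd; exact absurd hodd (by decide)
  · by_cases h2 : ψ ⬝ᵥ a = 0
    · obtain ⟨o4, hm⟩ := one_sided F n hψ h h2 h1 hψ0 ha es et
      have e : t * s = t * (s * t) * t⁻¹ := by group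
      have o4' : orderOf (t * s) = 4 := by rw [← o4, orderOf_mul_comm_aux t s]
      refine ⟨Or.inr (Or.inr ⟨o4', ?_⟩), fun _ hodd => ?_⟩
      · rw [e, conj_pow]; exact elems_conj F n hm t
      · rw [o4'] at hodd; exact absurd hodd (by decide)
    · obtain ⟨ho, h3⟩ := opposite F n h hψ h1 h2 et es
      refine ⟨Or.inr (Or.inl ho), fun hF _ => ?_⟩
      exact (Nat.dvd_prime Nat.prime_three).1 (orderOf_dvd_of_pow_eq_one (h3 hF))
where
  orderOf_mul_comm_aux (t s : G₀) : orderOf (t * s) = orderOf (s * t) :=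
    orderOf_eq_orderOf_iff.2 fun k => by
      rw [show t * s = t * (s * t) * t⁻¹ by group, conj_pow, conj_eq_one_iff]

omit [Fintype F] [CharP F 2] in
theorem generates_elems : Subgroup.closure (elems F n) = ⊤ := by
  rw [eq_top_iff, ← generates F n]
  refine iSup₂_le fun A hA => ?_
  obtain ⟨a, φ, ha, hφ, h, rfl⟩ := hA
  intro g hg
  obtain ⟨c, hc⟩ := (mem_Tsub h).1 hg
  rcases eq_or_ne c 0 with rfl | hc0
  · have : g = 1 := toGL_injective F n (by rw [hc, zero_smul, tv_zero_right, map_one])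
    rw [this]; exact one_mem _
  · exact Subgroup.subset_closure ⟨a, c • φ, ha, by simp [hc0, hφ], by simp [h], hc⟩

omit [Fintype F] [CharP F 2] in
theorem exists_conj_elems {t : G₀} (ht : t ∈ elems F n) :
    ∃ g : G₀, ∀ t₀ : G₀, (t₀ : Matrix (Fin (n + 3)) (Fin (n + 3)) F) = Matrix.transvection 0 1 1 →
      t = g * t₀ * g⁻¹ := by
  rw [elems_eq] at ht
  obtain ⟨c, hc, g, hg⟩ := ht
  have h02 : (0 : Fin (n + 3)) ≠ 2 := by simp [Fin.ext_iff, Nat.mod_eq_of_lt (show 2 < n + 3 by omega)]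
  have h01 : (0 : Fin (n + 3)) ≠ 1 := by simp [Fin.ext_iff]
  have h21 : (2 : Fin (n + 3)) ≠ 1 := by simp [Fin.ext_iff, Nat.mod_eq_of_lt (show 2 < n + 3 by omega)]
  set d : G₀ := Matrix.SpecialLinearGroup.diag2n h02 c hc with hd
  refine ⟨g * d, fun t₀ ht₀ => ?_⟩
  have e : d * t₀ = (g⁻¹ * t * g) * d := by
    apply Subtype.ext
    rw [Matrix.SpecialLinearGroup.coe_mul, Matrix.SpecialLinearGroup.coe_mul, hg, ht₀, hd,
      Matrix.SpecialLinearGroup.diag2n_coe]
    ext i j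
    simp only [Matrix.diagonal_mul, Matrix.mul_diagonal, Matrix.transvection, Matrix.add_apply,
      Matrix.one_apply, Matrix.single_apply]
    by_cases hi : i = 0 <;> by_cases hj : j = 1 <;> by_cases hij : i = j <;>
      simp_all [eq_comm] <;> subst_vars <;> simp_all [eq_comm]
  calc t = g * ((g⁻¹ * t * g) * d) * d⁻¹ * g⁻¹ := by group
    _ = g * (d * t₀) * d⁻¹ * g⁻¹ := by rw [e]
    _ = g * d * t₀ * (g * d)⁻¹ := by group

theorem rootInvolutionClass : IsRootInvolutionClass (elems F n) ∧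
    (Fintype.card F = 2 → IsThreeFourPlusTranspositionSet (elems F n)) := by
  have hset : IsRootInvolutionSet (elems F n) :=
    ⟨fun d hd => orderOf_elems F n hd, generates_elems F n, fun d hd g => elems_conj F n hd g,
      fun a ha b hb => (pair_elems F n ha hb).1⟩
  let t₀ : G₀ := Matrix.SpecialLinearGroup.transvection (show (0 : Fin (n + 3)) ≠ 1 by simp [Fin.ext_iff]) 1
  have h0 : t₀ ∈ elems F n := tv0_mem F n one_ne_zero _ (Matrix.SpecialLinearGroup.transvection_coe _ _)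
  refine ⟨⟨hset, ⟨t₀, h0⟩, fun a ha b hb => ?_⟩, fun hF => ⟨hset, fun a ha b hb => (pair_elems F n ha hb).2 hF⟩⟩
  obtain ⟨g, hg⟩ := exists_conj_elems F n ha
  obtain ⟨g', hg'⟩ := exists_conj_elems F n hb
  have e1 := hg t₀ (Matrix.SpecialLinearGroup.transvection_coe _ _)
  have e2 := hg' t₀ (Matrix.SpecialLinearGroup.transvection_coe _ _)
  refine ⟨g' * g⁻¹, ?_⟩
  rw [e1, e2]; group

end Cfsg.Agent.Lib.Root.SL
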