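import Cfsg.Agent.S5016
import Cfsg.Agent.Lib.Root.Sets

/-! Rank one pairs which are images of `SL₂`. -/

set_option autoImplicit false

namespace Cfsg.Agent.Lib.Root

open Matrix
open Cfsg.Agent.S5016 (up low coe_up coe_low up_zero low_zero mem_up mem_low conj_eq)

local notation "SL₂" => Matrix.SpecialLinearGroup (Fin 2)

variable {G : Type*} [Group G] {k : Type*} [Field k] {φ : SL₂ k →* G}

theorem upper_sup_lower (k : Type*) [Field k] :
    upperUnipotentSL2 k ⊔ lowerUnipotentSL2 k = ⊤ := by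
  rw [sup_comm]; exact (Cfsg.Agent.S5016.main k).1.1

theorem range_eq_sup_map (φ : SL₂ k →* G) :
    φ.range = (upperUnipotentSL2 k).map φ ⊔ (lowerUnipotentSL2 k).map φ := by
  rw [← Subgroup.map_sup, upper_sup_lower, MonoidHom.range_eq_map]

theorem up_eq_one_of_central {t : k} (h : up k t ∈ Subgroup.center (SL₂ k)) : t = 0 := by
  have h1 := Subgroup.mem_center_iff.1 h (low k 1)
  have h2 := congrArg (fun g : SL₂ k => (g : Matrix (Fin 2) (Fin 2) k) 0 0) h1
  simpa [coe_up, coe_low, Matrix.SpecialLinearGroup.coe_mul, Matrix.mul_apply, Fin.sum_univ_two] using h2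

theorem low_eq_one_of_central {t : k} (h : low k t ∈ Subgroup.center (SL₂ k)) : t = 0 := by
  have h1 := Subgroup.mem_center_iff.1 h (up k 1)
  have h2 := congrArg (fun g : SL₂ k => (g : Matrix (Fin 2) (Fin 2) k) 0 0) h1
  simpa [coe_up, coe_low, Matrix.SpecialLinearGroup.coe_mul, Matrix.mul_apply, Fin.sum_univ_two] using h2

theorem map_conj (φ : SL₂ k →* G) (A : Subgroup (SL₂ k)) (x : SL₂ k) :
    conjBy (A.map φ) (φ x) = (conjBy A x).map φ := by
  rw [conjBy, conjBy, Subgroup.map_map, Subgroup.map_map]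
  congr 1
  ext z
  simp

theorem isPSL2PairOver_map (hker : φ.ker ≤ Subgroup.center (SL₂ k)) :
    IsPSL2PairOver k ((upperUnipotentSL2 k).map φ) ((lowerUnipotentSL2 k).map φ) :=
  ⟨φ, range_eq_sup_map φ, hker, rfl, rfl⟩

theorem map_up_ne_one (hker : φ.ker ≤ Subgroup.center (SL₂ k)) {t : k} (ht : t ≠ 0) : φ (up k t) ≠ 1 :=
  fun h => ht (up_eq_one_of_central (hker h))

theorem map_low_ne_one (hker : φ.ker ≤ Subgroup.center (SL₂ k)) {t : k} (ht : t ≠ 0) : φ (low k t) ≠ 1 :=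
  fun h => ht (low_eq_one_of_central (hker h))

theorem isRankOnePair_map (hker : φ.ker ≤ Subgroup.center (SL₂ k)) :
    IsRankOnePair ((upperUnipotentSL2 k).map φ) ((lowerUnipotentSL2 k).map φ) := by
  refine ⟨?_, ?_, ?_, ?_, ?_⟩
  · intro e
    have h1 : φ (up k 1) ∈ (lowerUnipotentSL2 k).map φ := e ▸ ⟨_, (mem_up k _).2 ⟨1, rfl⟩, rfl⟩
    obtain ⟨l, hl, hle⟩ := h1
    obtain ⟨t, rfl⟩ := (mem_low k l).1 hl
    have hz : up k 1 * (low k t)⁻¹ ∈ Subgroup.center (SL₂ k) := hker (by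
      rw [MonoidHom.mem_ker, map_mul, map_inv, hle, mul_inv_cancel])
    have h2 := congrArg (fun g : SL₂ k => (g : Matrix (Fin 2) (Fin 2) k) 0 1)
      (Subgroup.mem_center_iff.1 hz (up k 1))
    have h3 := congrArg (fun g : SL₂ k => (g : Matrix (Fin 2) (Fin 2) k) 0 0)
      (Subgroup.mem_center_iff.1 hz (up k 1))
    rw [← Cfsg.Agent.S5016.low_neg] at h2 h3 hz
    simp [coe_up, coe_low, Matrix.SpecialLinearGroup.coe_mul, Matrix.mul_apply, Fin.sum_univ_two] at h2 h3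
    rw [h3, Cfsg.Agent.S5016.low_neg, low_zero, inv_one, mul_one] at hz
    exact one_ne_zero (up_eq_one_of_central hz)
  · haveI : Group.IsNilpotent (upperUnipotentSL2 k) :=
      (Cfsg.Agent.S5016.main k).1.2.nilpotent_right
    exact Group.nilpotent_of_surjective (φ.subgroupMap _) (φ.subgroupMap_surjective _)
  · haveI : Group.IsNilpotent (lowerUnipotentSL2 k) :=
      (Cfsg.Agent.S5016.main k).1.2.nilpotent_left
    exact Group.nilpotent_of_surjective (φ.subgroupMap _) (φ.subgroupMap_surjective _)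
  · rintro _ ⟨a, ha, rfl⟩ ha1
    obtain ⟨t, rfl⟩ := (mem_up k a).1 ha
    have ht : t ≠ 0 := fun h => ha1 (by rw [h, up_zero, map_one])
    refine ⟨φ (low k t⁻¹), ⟨_, (mem_low k _).2 ⟨_, rfl⟩, rfl⟩, map_low_ne_one hker (inv_ne_zero ht), ?_⟩
    have h := conj_eq t⁻¹ (inv_ne_zero ht)
    rw [inv_inv] at h
    rw [← map_inv, ← map_inv, map_conj, map_conj, h]
  · rintro _ ⟨b, hb, rfl⟩ hb1
    obtain ⟨t, rfl⟩ := (mem_low k b).1 hb
    have ht : t ≠ 0 := fun h => hb1 (by rw [h, low_zero, map_one])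
    refine ⟨φ (up k t⁻¹), ⟨_, (mem_up k _).2 ⟨_, rfl⟩, rfl⟩, map_up_ne_one hker (inv_ne_zero ht), ?_⟩
    rw [← map_inv, ← map_inv, map_conj, map_conj, conj_eq t ht]

theorem not_rootCommutatorCase_map (S : Set (Subgroup G)) (hker : φ.ker ≤ Subgroup.center (SL₂ k)) :
    ¬ RootCommutatorCase S ((upperUnipotentSL2 k).map φ) ((lowerUnipotentSL2 k).map φ) := by
  intro h
  have hu : up k 1 ∈ upperUnipotentSL2 k := (mem_up k _).2 ⟨1, rfl⟩
  have hl : low k 1 ∈ lowerUnipotentSL2 k := (mem_low k _).2 ⟨1, rfl⟩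
  obtain ⟨c, hc⟩ : ∃ c : SL₂ k, c = up k 1 * low k 1 * (up k 1)⁻¹ * (low k 1)⁻¹ := ⟨_, rfl⟩
  have h1 := h.2.1 (φ c) (by
    rw [← Subgroup.map_commutator]; exact Subgroup.mem_map_of_mem _ (hc ▸ comm_elem_mem hu hl))
    (φ (up k 1)) (Subgroup.mem_sup_left (Subgroup.mem_map_of_mem _ hu))
  have hz : (c * up k 1) * (up k 1 * c)⁻¹ ∈ Subgroup.center (SL₂ k) := hker (by
    rw [MonoidHom.mem_ker, map_mul, map_inv, map_mul, map_mul, h1, mul_inv_cancel])
  set z := (c * up k 1) * (up k 1 * c)⁻¹ with hzd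
  obtain ⟨r, hr, hzr⟩ := Matrix.SpecialLinearGroup.mem_center_iff.1 hz
  have h4 : c * up k 1 = z * (up k 1 * c) := by rw [hzd]; group
  have hcm : (c : Matrix (Fin 2) (Fin 2) k) = !![3, -1; 1, 0] := by
    rw [hc, ← Cfsg.Agent.S5016.up_neg, ← Cfsg.Agent.S5016.low_neg]
    simp only [Matrix.SpecialLinearGroup.coe_mul, coe_up, coe_low]
    ext i j; fin_cases i <;> fin_cases j <;>
      simp [Matrix.mul_apply, Fin.sum_univ_two] <;> norm_num
  have h5 := congrArg (fun g : SL₂ k => (g : Matrix (Fin 2) (Fin 2) k)) h4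
  simp only [Matrix.SpecialLinearGroup.coe_mul, coe_up, hcm, ← hzr] at h5
  have h6 := congrFun (congrFun h5 1) 0
  have h7 := congrFun (congrFun h5 0) 0
  simp [Matrix.mul_apply, Fin.sum_univ_two, Matrix.scalar_apply, Matrix.diagonal] at h6 h7
  rw [← h6] at h7
  exact one_ne_zero (by linear_combination -h7 : (1 : k) = 0)

end Cfsg.Agent.Lib.Root
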