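import Cfsg.Agent.Lib.Root.TransvectionRoot
import Cfsg.Agent.Lib.Forms.UnitaryStd

/-! The transvection subgroups of the special unitary group. -/

set_option autoImplicit false

namespace Cfsg.Agent.Lib.Root.SU

open Matrix Cfsg.Agent.Lib.Forms Cfsg.Agent.Lib.Root Cfsg.Geo

variable {F : Type*} [Field F] [Fintype F] {q : ℕ} (hF : Fintype.card F = q ^ 2) (n : ℕ)

set_option quotPrecheck false
local notation "V" => (Fin (n + 2) → F)
local notation "SUG" => ↥(Cfsg.SU (n + 2) F q)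

/-- The inclusion into `GL`. -/
noncomputable def toGLHom : SUG →* GL (Fin (n + 2)) F :=
  Matrix.SpecialLinearGroup.toGL.comp (Cfsg.SU (n + 2) F q).subtype

/-- The form. -/
abbrev hh : V → V → F := Cfsg.hermForm (n + 2) F q

/-- The transvection subgroup inside `SU`. -/
noncomputable def T (p : V) : Subgroup SUG := Tsub (toGLHom (F := F) (q := q) n) p (hv (hh (q := q) n) p)

/-- The generated subgroup. -/
noncomputable def G₀ : Subgroup SUG := ⨆ B ∈ {A : Subgroup SUG | ∃ p : V, p ≠ 0 ∧ hh (q := q) n p p = 0 ∧ A = T n p}, B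

/-- The inclusion of the generated subgroup. -/
noncomputable def ρ : ↥(G₀ (F := F) (q := q) n) →* GL (Fin (n + 2)) F :=
  (toGLHom n).comp (G₀ n).subtype

/-- The members. -/
noncomputable def T' (p : V) : Subgroup ↥(G₀ (F := F) (q := q) n) := Tsub (ρ n) p (hv (hh (q := q) n) p)

theorem T'_eq (p : V) : T' (q := q) n p = (T n p).subgroupOf (G₀ n) := rfl

/-- The family. -/
def family : Set (Subgroup ↥(G₀ (F := F) (q := q) n)) :=
  {A | ∃ p : V, p ≠ 0 ∧ hh (q := q) n p p = 0 ∧ A = T' n p}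

omit [Fintype F] in
theorem toGLHom_injective : Function.Injective (toGLHom (F := F) (q := q) n) := fun _ _ h =>
  Subtype.ext (Subtype.ext (congrArg Units.val h))

omit [Fintype F] in
theorem ρ_injective : Function.Injective (ρ (F := F) (q := q) n) :=
  (toGLHom_injective n).comp Subtype.val_injective

theorem toGLHom_range (g : GL (Fin (n + 2)) F) :
    g ∈ (toGLHom (F := F) (q := q) n).range ↔
      g ∈ isoH (hh (q := q) n) ∧ (g : Matrix (Fin (n + 2)) (Fin (n + 2)) F).det = 1 := by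
  constructor
  · rintro ⟨x, rfl⟩
    exact ⟨x.2, x.1.2⟩
  · rintro ⟨h1, h2⟩
    have e : Matrix.SpecialLinearGroup.toGL (⟨_, h2⟩ : Matrix.SpecialLinearGroup (Fin (n + 2)) F) = g := Units.ext rfl
    refine ⟨⟨⟨_, h2⟩, ?_⟩, e⟩
    exact fun u v => h1 u v

include hF

theorem hv_self {p : V} (hp : hh (q := q) n p p = 0) : hv (hh (q := q) n) p ⬝ᵥ p = 0 := by
  rw [hv_dot (isUnitary_hermForm hF (n + 2))]; exact hp

theorem range_iff {p : V} (hp0 : p ≠ 0) (hp : hh (q := q) n p p = 0) (c : F) :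
    tv p (c • hv (hh (q := q) n) p) ∈ (toGLHom (F := F) (q := q) n).range ↔ c + conjQ hF c = 0 := by
  set H := isUnitary_hermForm hF (n + 2)
  constructor
  · intro hc
    obtain ⟨hc1, -⟩ := (toGLHom_range n _).1 hc
    obtain ⟨⟨y, hy⟩, x, hx⟩ := H.nondegenerate p hp0
    have hy' : hh (q := q) n y p ≠ 0 := hy
    have hx' : hh (q := q) n p x ≠ 0 := hx
    have h := hc1 y x
    rw [utv_mulVec H hp, utv_mulVec H hp] at h
    simp only [H.add_left, H.smul_left, herm_add_right H, herm_smul_right H, map_mul] at h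
    have e : conjQ hF (hh (q := q) n x p) = hh (q := q) n p x := (H.herm p x).symm
    have hp' : Cfsg.hermForm (n + 2) F q p p = 0 := hp
    rw [e, hp'] at h
    have : (c + conjQ hF c) * (hh (q := q) n y p * hh (q := q) n p x) = 0 := by
      linear_combination h
    exact (mul_eq_zero.1 this).resolve_right (mul_ne_zero hy' hx')
  · intro hc
    have := utvGroup_le H (utv_mem_utvGroup (σ := conjQ hF) hp hc)
    exact (toGLHom_range n _).2 ⟨this.1, det_of_mem this.2⟩

theorem closure_eq (p : V) (hp : hh (q := q) n p p = 0) :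
    Subgroup.closure {g : SUG |
      (∀ v : V, ∃ c : F, ((g : Matrix.SpecialLinearGroup (Fin (n + 2)) F) : Matrix (Fin (n + 2)) (Fin (n + 2)) F) *ᵥ v = v + c • p) ∧
      ∀ v : V, Cfsg.hermForm (n + 2) F q v p = 0 →
        ((g : Matrix.SpecialLinearGroup (Fin (n + 2)) F) : Matrix (Fin (n + 2)) (Fin (n + 2)) F) *ᵥ v = v} = T n p := by
  set H := isUnitary_hermForm hF (n + 2)
  refine le_antisymm ((Subgroup.closure_le _).2 ?_) fun g hg => Subgroup.subset_closure ?_
  · rintro g ⟨h1, h2⟩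
    by_cases hp0 : p = 0
    · have : g = 1 := toGLHom_injective n (gl_ext fun x => by
        obtain ⟨c, hc⟩ := h1 x
        rw [map_one, Units.val_one, one_mulVec]
        exact hc.trans (by simp [hp0]))
      rw [this]; exact one_mem _
    obtain ⟨⟨y, hy⟩, -⟩ := H.nondegenerate p hp0
    obtain ⟨c₀, hc₀⟩ := h1 y
    refine (mem_Tsub (hv_self hF n hp)).2 ⟨c₀ / hh (q := q) n y p, gl_ext fun x => ?_⟩
    rw [utv_mulVec H hp]
    show ((g : Matrix.SpecialLinearGroup (Fin (n + 2)) F) : Matrix (Fin (n + 2)) (Fin (n + 2)) F) *ᵥ x = _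
    have e := h2 (x - (hh (q := q) n x p / hh (q := q) n y p) • y) (by
      rw [sub_eq_add_neg, H.add_left, herm_neg_left H, H.smul_left, div_mul_cancel₀ _ hy, add_neg_cancel])
    rw [mulVec_sub, mulVec_smul, hc₀] at e
    linear_combination (norm := module) e
  · obtain ⟨c, hc⟩ := (mem_Tsub (hv_self hF n hp)).1 hg
    have hx : ∀ x : V, ((g : Matrix.SpecialLinearGroup (Fin (n + 2)) F) : Matrix (Fin (n + 2)) (Fin (n + 2)) F) *ᵥ x =
        x + (c * hh (q := q) n x p) • p := fun x =>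
      (congrArg (fun z : GL (Fin (n + 2)) F => (z : Matrix (Fin (n + 2)) (Fin (n + 2)) F) *ᵥ x) hc).trans (utv_mulVec H hp c x)
    exact ⟨fun v => ⟨_, hx v⟩, fun v hv => by rw [hx, show hh (q := q) n v p = 0 from hv, mul_zero, zero_smul, add_zero]⟩

theorem ρ_range_iff {p : V} (hp0 : p ≠ 0) (hp : hh (q := q) n p p = 0) (c : F) :
    tv p (c • hv (hh (q := q) n) p) ∈ (ρ (F := F) (q := q) n).range ↔ c + conjQ hF c = 0 := by
  rw [← range_iff hF n hp0 hp]
  constructor
  · rintro ⟨x, hx⟩; exact ⟨x.1, hx⟩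
  · rintro ⟨x, hx⟩
    refine ⟨⟨x, (le_biSup (fun B : Subgroup SUG => B)
      (show T n p ∈ {A : Subgroup SUG | ∃ p : V, p ≠ 0 ∧ hh (q := q) n p p = 0 ∧ A = T n p} from ⟨p, hp0, hp, rfl⟩))
      ((mem_Tsub (hv_self hF n hp)).2 ⟨c, hx⟩)⟩, hx⟩

theorem T'_smul {p : V} (hp : hh (q := q) n p p = 0) {s : F} (hs : s ≠ 0) : T' n (s • p) = T' (q := q) n p := by
  rw [T', T', hv_smul (isUnitary_hermForm hF (n + 2)), Tsub_smul_center (by simp [hv_self hF n hp]) hs,
    Tsub_smul (hv_self hF n hp) (by simpa using hs)]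

theorem rankOne {L : Type*} [Field L] (i : L →+* F) (hi : ∀ c, c ∈ i.range ↔ conjQ hF c = c) {p r : V}
    (hp : hh (q := q) n p p = 0) (hr : hh (q := q) n r r = 0) (h : hh (q := q) n r p ≠ 0) :
    IsRankOnePair (T' (q := q) n p) (T' n r) ∧ IsPSL2PairOver L (T' (q := q) n p) (T' n r) ∧
      ∀ S, ¬ RootCommutatorCase S (T' (q := q) n p) (T' n r) := by
  set H := isUnitary_hermForm hF (n + 2)
  have hp0 : p ≠ 0 := fun e => h (by rw [e]; exact herm_zero_right H r)
  have hr0 : r ≠ 0 := fun e => h (by rw [e]; exact herm_zero_left H p)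
  obtain ⟨κ, hκ0, hκ⟩ := exists_skew H
  have hκ' : conjQ hF κ = -κ := eq_neg_of_add_eq_zero_right hκ
  set s := (κ * hh (q := q) n r p)⁻¹ with hs
  have hs0 : s ≠ 0 := inv_ne_zero (mul_ne_zero hκ0 h)
  set r' := s • r with hr'
  have hr'0 : r' ≠ 0 := smul_ne_zero hs0 hr0
  have hr'r : hh (q := q) n r' r' = 0 := by
    rw [hr']; show Cfsg.hermForm _ F q _ _ = 0
    rw [H.smul_left, herm_smul_right H, show Cfsg.hermForm (n + 2) F q r r = 0 from hr, mul_zero, mul_zero]
  have hr'p : hh (q := q) n r' p = κ⁻¹ := by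
    show Cfsg.hermForm _ F q _ _ = _
    rw [hr', H.smul_left, hs, mul_inv, mul_assoc, inv_mul_cancel₀ h, mul_one]
  have hpr' : hh (q := q) n p r' = -κ⁻¹ := by
    show Cfsg.hermForm _ F q _ _ = _
    rw [H.herm, show Cfsg.hermForm (n + 2) F q r' p = κ⁻¹ from hr'p, map_inv₀, hκ', inv_neg]
  have hfix : ∀ c κ' : F, κ' ≠ 0 → κ' + conjQ hF κ' = 0 → (c * κ' + conjQ hF (c * κ') = 0 ↔ c ∈ i.range) := by
    intro c κ' h0 h1
    rw [hi, map_mul, eq_neg_of_add_eq_zero_right h1]
    constructor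
    · intro e
      have : κ' * (c - conjQ hF c) = 0 := by linear_combination e
      exact (sub_eq_zero.1 ((mul_eq_zero.1 this).resolve_left h0)).symm
    · intro e; rw [e]; ring
  have := Tsub_rankOne_field (ρ := ρ (F := F) (q := q) n) (ρ_injective n) i (a := p) (b := r')
    (φ := κ • hv (hh (q := q) n) p) (ψ := (-κ) • hv (hh (q := q) n) r')
    (by rw [smul_dotProduct, hv_dot H, show Cfsg.hermForm (n + 2) F q p r' = -κ⁻¹ from hpr', smul_eq_mul, neg_mul_neg, mul_inv_cancel₀ hκ0])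
    (by rw [smul_dotProduct, hv_dot H, show Cfsg.hermForm (n + 2) F q r' p = κ⁻¹ from hr'p, smul_eq_mul, mul_inv_cancel₀ hκ0])
    (by rw [smul_dotProduct, hv_self hF n hp, smul_zero]) (by rw [smul_dotProduct, hv_self hF n hr'r, smul_zero])
    (fun c => by rw [smul_smul, ρ_range_iff hF n hp0 hp, hfix c κ hκ0 hκ])
    (fun c => by rw [smul_smul, ρ_range_iff hF n hr'0 hr'r, hfix c (-κ) (neg_ne_zero.2 hκ0) (by rw [map_neg, hκ']; ring)])
  rw [Tsub_smul (hv_self hF n hp) hκ0, Tsub_smul (hv_self hF n hr'r) (neg_ne_zero.2 hκ0)] at this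
  rw [← T'_smul hF n hr hs0]
  exact this

theorem conj_family {A : Subgroup ↥(G₀ (F := F) (q := q) n)} (hA : A ∈ family n)
    (g : ↥(G₀ (F := F) (q := q) n)) : conjBy A g ∈ family n := by
  obtain ⟨p, hp0, hp, rfl⟩ := hA
  set H := isUnitary_hermForm hF (n + 2)
  set M := ρ n g with hM
  have hiso : M ∈ isoH (hh (q := q) n) := ((toGLHom_range n _).1 ⟨g.1, rfl⟩).1
  refine ⟨(M : Matrix _ _ F) *ᵥ p, fun e => hp0 (gl_mulVec_injective M (e.trans (mulVec_zero _).symm)),
    (hiso p p).trans hp, ?_⟩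
  rw [T', conjBy_Tsub (ρ_injective n) (hv_self hF n hp) g, ← hM, T']
  congr 1
  refine dotProduct_eq _ _ fun x => ?_
  rw [← dotProduct_mulVec, hv_dot H, hv_dot H]
  conv_rhs => rw [← mulVec_inv_mulVec M x]
  exact (hiso _ p).symm

theorem connected {L : Type*} [Field L] (i : L →+* F) (hi : ∀ c, c ∈ i.range ↔ conjQ hF c = c) :
    IsConnectedFamily (FAdj (family (F := F) (q := q) n)) (family n) := by
  rintro A ⟨p, hp0, hp, rfl⟩ B ⟨r, hr0, hr, rfl⟩
  set H := isUnitary_hermForm hF (n + 2)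
  have adj : ∀ {a b : V}, hh (q := q) n a a = 0 → hh (q := q) n b b = 0 → hh (q := q) n b a ≠ 0 →
      FAdj (family (F := F) (q := q) n) (T' n a) (T' n b) := fun {a b} ha hb hab =>
    ⟨⟨a, fun e => hab (by rw [e]; exact herm_zero_right H b), ha, rfl⟩,
      ⟨b, fun e => hab (by rw [e]; exact herm_zero_left H a), hb, rfl⟩, (rankOne hF n i hi ha hb hab).1⟩
  have partner : ∀ {a : V}, a ≠ 0 → hh (q := q) n a a = 0 → ∃ a', hh (q := q) n a' a' = 0 ∧ hh (q := q) n a' a ≠ 0 := by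
    intro a ha0 ha
    obtain ⟨-, x, hx⟩ := H.nondegenerate a ha0
    obtain ⟨c, hc⟩ := exists_isotropic_translate H ha hx
    refine ⟨x + c • a, hc, ?_⟩
    show Cfsg.hermForm _ F q _ _ ≠ 0
    rw [H.add_left, H.smul_left, show Cfsg.hermForm (n + 2) F q a a = 0 from ha, mul_zero, add_zero, H.herm]
    simpa using hx
  obtain ⟨p', hp'1, hp'2⟩ := partner hp0 hp
  obtain ⟨r', hr'1, hr'2⟩ := partner hr0 hr
  have hz : ∃ z, hh (q := q) n z z = 0 ∧ hh (q := q) n z p ≠ 0 ∧ hh (q := q) n z r ≠ 0 := by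
    by_cases e1 : hh (q := q) n p' r = 0
    swap; · exact ⟨p', hp'1, hp'2, e1⟩
    by_cases e2 : hh (q := q) n r' p = 0
    swap; · exact ⟨r', hr'1, e2, hr'2⟩
    obtain ⟨s, hs0, hs⟩ : ∃ s : F, s ≠ 0 ∧ s * hh (q := q) n r' p' + conjQ hF (s * hh (q := q) n r' p') = 0 := by
      by_cases eb : hh (q := q) n r' p' = 0
      · exact ⟨1, one_ne_zero, by rw [eb, mul_zero, map_zero, add_zero]⟩
      · obtain ⟨κ, hκ0, hκ⟩ := exists_skew H
        exact ⟨κ / hh (q := q) n r' p', div_ne_zero hκ0 eb, by rw [div_mul_cancel₀ _ eb]; exact hκ⟩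
    have e2' : Cfsg.hermForm (n + 2) F q r' p = 0 := e2
    have e1' : Cfsg.hermForm (n + 2) F q p' r = 0 := e1
    refine ⟨p' + s • r', ?_, ?_, ?_⟩
    · show Cfsg.hermForm _ F q _ _ = _
      simp only [H.add_left, H.smul_left, herm_add_right H, herm_smul_right H]
      rw [show Cfsg.hermForm (n + 2) F q p' p' = 0 from hp'1, show Cfsg.hermForm (n + 2) F q r' r' = 0 from hr'1]
      rw [map_mul, show conjQ hF (hh (q := q) n r' p') = Cfsg.hermForm (n + 2) F q p' r' from (H.herm p' r').symm] at hs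
      linear_combination hs
    · show Cfsg.hermForm _ F q _ _ ≠ _
      rw [H.add_left, H.smul_left, e2', mul_zero, add_zero]; exact hp'2
    · show Cfsg.hermForm _ F q _ _ ≠ _
      rw [H.add_left, H.smul_left, e1', zero_add]; exact mul_ne_zero hs0 hr'2
  obtain ⟨z, hz0, hz1, hz2⟩ := hz
  exact (Relation.ReflTransGen.single (adj hp hz0 hz1)).tail
    (adj hz0 hr (fun e => hz2 ((herm_eq_zero_comm H).1 e)))

theorem generates : (⨆ A ∈ family (F := F) (q := q) n, A) = ⊤ := by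
  rw [eq_top_iff]
  intro g _
  have key : ∀ x ∈ G₀ (F := F) (q := q) n, x ∈ (⨆ A ∈ family (F := F) (q := q) n, A).map (G₀ n).subtype := by
    intro x hx
    refine (iSup₂_le (f := fun (B : Subgroup SUG) (_ : B ∈ {A : Subgroup SUG | ∃ p : V, p ≠ 0 ∧ hh (q := q) n p p = 0 ∧ A = T n p}) => B) ?_) hx
    rintro B ⟨p, hp0, hp, rfl⟩ y hy
    have hyG : y ∈ G₀ (F := F) (q := q) n := (le_biSup (fun B : Subgroup SUG => B)
      (show T n p ∈ {A : Subgroup SUG | ∃ p : V, p ≠ 0 ∧ hh (q := q) n p p = 0 ∧ A = T n p} from ⟨p, hp0, hp, rfl⟩)) hy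
    exact ⟨⟨y, hyG⟩, (le_biSup (fun A : Subgroup ↥(G₀ (F := F) (q := q) n) => A)
      (show T' n p ∈ family n from ⟨p, hp0, hp, rfl⟩)) hy, rfl⟩
  obtain ⟨y, hy, e⟩ := key g g.2
  exact Subtype.val_injective e ▸ hy

theorem main : IsRootSubgroupClass (family (F := F) (q := q) n) ∧
    IsDegenerateRootSet (family (F := F) (q := q) n) ∧
    (∃ (L : Type) (_ : Field L) (_ : Fintype L), Fintype.card L = q ∧ IsKRootSubgroupSet L (family (F := F) (q := q) n)) ∧
    IsConnectedFamily (FAdj (family (F := F) (q := q) n)) (family n) := by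
  classical
  set H := isUnitary_hermForm hF (n + 2)
  let K₀ : Subfield F := RingHom.eqLocusField (conjQ hF : F →+* F) (RingHom.id F)
  have hmem : ∀ x : F, x ∈ K₀ ↔ conjQ hF x = x := fun x => Iff.rfl
  haveI : Fintype K₀ := Fintype.ofFinite K₀
  have hK : Fintype.card K₀ = q := by
    have := Cfsg.Agent.Lib.Classical.Herm.card_fixed hF
    rw [← this, Nat.card_eq_fintype_card]
    exact Fintype.card_congr (Equiv.subtypeEquivRight fun x => hmem x)
  haveI : CharP K₀ (ringChar K₀) := ringChar.charP K₀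
  obtain ⟨f, hp', hf⟩ := FiniteField.card K₀ (ringChar K₀)
  haveI : Fact (ringChar K₀).Prime := ⟨hp'⟩
  haveI : Fintype (GaloisField (ringChar K₀) f) := Fintype.ofFinite _
  have hL : Fintype.card (GaloisField (ringChar K₀) f) = Fintype.card K₀ := by
    rw [← Nat.card_eq_fintype_card, GaloisField.card _ _ f.ne_zero, hf]
  let e := FiniteField.ringEquivOfCardEq hL
  let i : GaloisField (ringChar K₀) f →+* F := K₀.subtype.comp e.toRingHom
  have hi : ∀ c, c ∈ i.range ↔ conjQ hF c = c := by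
    intro c
    constructor
    · rintro ⟨x, rfl⟩; exact (hmem _).1 (e x).2
    · intro hc; exact ⟨e.symm ⟨c, (hmem c).2 hc⟩, by simp [i]⟩
  have hcon := connected hF n i hi
  have hcomm : ∀ {p r : V}, hh (q := q) n p p = 0 → hh (q := q) n r r = 0 → hh (q := q) n r p = 0 →
      ⁅T' (q := q) n p, T' n r⁆ = ⊥ := fun {p r} hp hr h =>
    Tsub_comm (ρ_injective n) (hv_self hF n hp) (hv_self hF n hr) (by rw [hv_dot H]; exact h)
      (by rw [hv_dot H]; exact (herm_eq_zero_comm H).1 h)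
  have hbot : ∀ A ∈ family (F := F) (q := q) n, A ≠ ⊥ := by
    rintro A ⟨p, hp0, hp, rfl⟩ hbot'
    obtain ⟨κ, hκ0, hκ⟩ := exists_skew H
    obtain ⟨g, hg⟩ := (ρ_range_iff hF n hp0 hp κ).2 hκ
    have : g ∈ T' n p := (mem_Tsub (hv_self hF n hp)).2 ⟨κ, hg⟩
    rw [hbot', Subgroup.mem_bot] at this
    rw [this, map_one] at hg
    exact tv_ne_one (by simp [hv_self hF n hp]) hp0 (smul_ne_zero hκ0 (fun e0 => hp0 (hv_injective H (e0.trans
      (show hv (hh (q := q) n) 0 = 0 from funext fun j => herm_zero_right H _).symm)))) hg.symm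
  have hpair : ∀ A ∈ family (F := F) (q := q) n, ∀ B ∈ family n, ⁅A, B⁆ = ⊥ ∨
      (IsRankOnePair A B ∧ IsPSL2PairOver (GaloisField (ringChar K₀) f) A B ∧ ∀ S, ¬ RootCommutatorCase S A B) := by
    rintro A ⟨p, hp0, hp, rfl⟩ B ⟨r, hr0, hr, rfl⟩
    by_cases h : hh (q := q) n r p = 0
    · exact Or.inl (hcomm hp hr h)
    · exact Or.inr (rankOne hF n i hi hp hr h)
  have hset : IsRootSubgroupSet (family (F := F) (q := q) n) :=
    { commutative := by rintro A ⟨p, hp0, hp, rfl⟩; exact Tsub_commutative (ρ_injective n) (hv_self hF n hp)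
      ne_bot := hbot
      generates := generates hF n
      conj_mem := fun A hA g => conj_family hF n hA g
      pair := fun A hA B hB => (hpair A hA B hB).imp id (fun h => Or.inl h.1) }
  obtain ⟨v, -, hv0, x, -, hvx⟩ := exists_isotropic_perp H (k := 0) (fun i => i.elim0) (by simp)
  have hv' : v ≠ 0 := fun e => hvx (by rw [e]; exact herm_zero_left H x)
  refine ⟨⟨hset, ⟨_, v, hv', hv0, rfl⟩, conj_of_connected hcon⟩, fun A hA B hB hc => ?_,
    ⟨_, inferInstance, inferInstance, hL.trans hK, hset, fun A hA B hB hR => ?_⟩, hcon⟩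
  · rcases hpair A hA B hB with h | h
    · exact hbot _ hc.1 h
    · exact h.2.2 _ hc
  · rcases hpair A hA B hB with h | h
    · obtain ⟨x, hx, hx1⟩ := exists_left hR
      exact absurd (eq_one_of_normalizes hR hx (conjBy_eq_self_of_comm' h hx)) hx1
    · exact h.2.1

end Cfsg.Agent.Lib.Root.SU
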