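import Cfsg.Agent.Lib.Root.TransvectionRoot
import Cfsg.Agent.Lib.Forms.OrthBasic

/-! The root groups of totally singular lines of a quadratic form. -/

set_option autoImplicit false

namespace Cfsg.Agent.Lib.Root.Siegel

open Matrix QuadraticMap Cfsg.Agent.Lib.Forms Cfsg.Agent.Lib.Root
open Cfsg.Agent.S5016 (up low coe_up coe_low mem_up mem_low)

variable {ι : Type} [Fintype ι] [DecidableEq ι] {F : Type*} [Field F] (Q : QuadraticForm F (ι → F))

/-- The functional `x ↦ f(v, x)`. -/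
def fv (v : ι → F) : ι → F := Cfsg.polarVec ⇑Q v

theorem fv_dot (v x : ι → F) : fv Q v ⬝ᵥ x = polar Q v x := polarVec_dot Q v x

/-- A totally singular line with a basis. -/
structure Ln (p r : ι → F) : Prop where
  li : LinearIndependent F ![p, r]
  qp : Q p = 0
  qr : Q r = 0
  pr : polar Q p r = 0

/-- The root element of a line. -/
noncomputable def R (p r : ι → F) (c : F) : GL ι F := tv p (c • fv Q r) * tv r ((-c) • fv Q p)

variable {Q}

theorem polar_self_zero {p : ι → F} (h : Q p = 0) : polar Q p p = 0 := by rw [polar_self, h, smul_zero]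

theorem Ln.symm {p r : ι → F} (h : Ln Q p r) : Ln Q r p :=
  ⟨LinearIndependent.pair_symm_iff.1 h.li, h.qr, h.qp, by rw [polar_comm, h.pr]⟩

theorem R_mulVec {p r : ι → F} (h : Ln Q p r) (c : F) (x : ι → F) :
    (R Q p r c : Matrix ι ι F) *ᵥ x = x + (c * polar Q r x) • p - (c * polar Q p x) • r := by
  rw [R, mul_mulVec', tv_mulVec (by simp [fv_dot, polar_comm (⇑Q) r p, h.pr]), tv_mulVec (by simp [fv_dot, polar_comm (⇑Q) r p, h.pr])]
  simp only [smul_dotProduct, fv_dot, smul_eq_mul, polar_add_right, polar_smul_right, polar_self_zero h.qr,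
    polar_self_zero h.qp, mul_zero, add_zero]
  module

theorem R_add {p r : ι → F} (h : Ln Q p r) (c d : F) : R Q p r c * R Q p r d = R Q p r (c + d) := by
  refine gl_ext fun x => ?_
  rw [mul_mulVec', R_mulVec h, R_mulVec h, R_mulVec h]
  simp only [polar_add_right, polar_sub_right, polar_smul_right, polar_self_zero h.qr, polar_self_zero h.qp,
    h.pr, polar_comm (⇑Q) r p, smul_eq_mul, mul_zero, add_zero, sub_zero]
  module

theorem R_zero {p r : ι → F} (h : Ln Q p r) : R Q p r 0 = 1 := gl_ext fun x => by simp [R_mulVec h]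

theorem R_inv {p r : ι → F} (h : Ln Q p r) (c : F) : (R Q p r c)⁻¹ = R Q p r (-c) :=
  inv_eq_of_mul_eq_one_right (by rw [R_add h, add_neg_cancel, R_zero h])

theorem R_isometry {p r : ι → F} (h : Ln Q p r) (c : F) (x : ι → F) :
    Q ((R Q p r c : Matrix ι ι F) *ᵥ x) = Q x := by
  rw [R_mulVec h, sub_eq_add_neg, ← neg_smul, QuadraticMap.map_add (f := ⇑Q), QuadraticMap.map_add (f := ⇑Q), QuadraticMap.map_smul,
    QuadraticMap.map_smul, h.qp, h.qr, polar_add_left, polar_smul_left, polar_smul_right, polar_smul_right,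
    polar_smul_right, polar_comm (⇑Q) x p, polar_comm (⇑Q) x r, h.pr]
  simp only [smul_eq_mul]
  ring

theorem R_ne_one (hnd : ∀ x, (∀ y, polar Q x y = 0) → x = 0) {p r : ι → F} (h : Ln Q p r) {c : F} (hc : c ≠ 0) :
    R Q p r c ≠ 1 := by
  intro e
  obtain ⟨y, hy⟩ : ∃ y, polar Q r y ≠ 0 := by
    by_contra hcon
    push Not at hcon
    exact (h.li.ne_zero 1) (hnd r hcon)
  have h1 := R_mulVec h c y
  rw [e, Units.val_one, one_mulVec] at h1
  have h2 : (c * polar Q r y) • p + (-(c * polar Q p y)) • r = 0 := by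
    linear_combination (norm := module) -h1
  exact mul_ne_zero hc hy ((LinearIndependent.pair_iff.1 h.li) _ _ h2).1

theorem R_basis {p r : ι → F} (h : Ln Q p r) {a b c d : F} (h' : Ln Q (a • p + b • r) (c • p + d • r)) (e : F) :
    R Q (a • p + b • r) (c • p + d • r) e = R Q p r ((a * d - b * c) * e) := by
  refine gl_ext fun x => ?_
  rw [R_mulVec h', R_mulVec h]
  simp only [polar_add_left, polar_smul_left, smul_eq_mul]
  module

theorem R_conj {g : GL ι F} (hg : ∀ v, Q ((g : Matrix ι ι F) *ᵥ v) = Q v) {p r : ι → F} (h : Ln Q p r) (c : F)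
    (h' : Ln Q ((g : Matrix ι ι F) *ᵥ p) ((g : Matrix ι ι F) *ᵥ r)) :
    g * R Q p r c * g⁻¹ = R Q ((g : Matrix ι ι F) *ᵥ p) ((g : Matrix ι ι F) *ᵥ r) c := by
  have hpol : ∀ u v, polar Q ((g : Matrix ι ι F) *ᵥ u) ((g : Matrix ι ι F) *ᵥ v) = polar Q u v := fun u v => by
    simp only [polar, ← mulVec_add, hg]
  refine gl_ext fun x => ?_
  rw [mul_mulVec', mul_mulVec', R_mulVec h, R_mulVec h', mulVec_sub, mulVec_add, mulVec_smul, mulVec_smul,
    mulVec_inv_mulVec, ← hpol r, ← hpol p, mulVec_inv_mulVec]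

theorem Ln.map {g : GL ι F} (hg : ∀ v, Q ((g : Matrix ι ι F) *ᵥ v) = Q v) {p r : ι → F} (h : Ln Q p r) :
    Ln Q ((g : Matrix ι ι F) *ᵥ p) ((g : Matrix ι ι F) *ᵥ r) := by
  refine ⟨LinearIndependent.pair_iff.2 fun a b e => ?_, by rw [hg, h.qp], by rw [hg, h.qr],
    by simp only [polar, ← mulVec_add, hg]; exact h.pr⟩
  rw [← mulVec_smul, ← mulVec_smul, ← mulVec_add] at e
  exact LinearIndependent.pair_iff.1 h.li a b (gl_mulVec_injective g (e.trans (mulVec_zero _).symm))

section Group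

variable {G : Type*} [Group G] {ρ : G →* GL ι F}

variable (Q ρ) in
/-- The root group of the line through `p` and `r`. -/
noncomputable def RT (p r : ι → F) : Subgroup G := (Subgroup.closure (Set.range (R Q p r))).comap ρ

theorem mem_RT {p r : ι → F} (h : Ln Q p r) {g : G} : g ∈ RT Q ρ p r ↔ ∃ c, ρ g = R Q p r c := by
  refine ⟨fun hg => ?_, fun ⟨c, hc⟩ => Subgroup.subset_closure ⟨c, hc.symm⟩⟩
  have hg' : ρ g ∈ Subgroup.closure (Set.range (R Q p r)) := hg
  generalize ρ g = x at hg'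
  induction hg' using Subgroup.closure_induction with
  | mem y hy => obtain ⟨c, rfl⟩ := hy; exact ⟨c, rfl⟩
  | one => exact ⟨0, (R_zero h).symm⟩
  | mul a b _ _ ha hb => obtain ⟨c, rfl⟩ := ha; obtain ⟨d, rfl⟩ := hb; exact ⟨c + d, R_add h c d⟩
  | inv a _ ha => obtain ⟨c, rfl⟩ := ha; exact ⟨-c, R_inv h c⟩

theorem RT_basis {p r : ι → F} (h : Ln Q p r) {a b c d : F} (hD : a * d - b * c ≠ 0)
    {p' r' : ι → F} (hp : p' = a • p + b • r) (hr : r' = c • p + d • r) :
    Ln Q p' r' ∧ RT Q ρ p' r' = RT Q ρ p r := by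
  subst hp hr
  have hQ : ∀ u v : F, Q (u • p + v • r) = 0 := fun u v => by
    rw [QuadraticMap.map_add (f := ⇑Q), QuadraticMap.map_smul, QuadraticMap.map_smul, polar_smul_left, polar_smul_right,
      h.qp, h.qr, h.pr]
    simp
  have hL : Ln Q (a • p + b • r) (c • p + d • r) := by
    refine ⟨LinearIndependent.pair_iff.2 fun u v e => ?_, hQ a b, hQ c d, ?_⟩
    · have h0 := LinearIndependent.pair_iff.1 h.li (u * a + v * c) (u * b + v * d)
        (by linear_combination (norm := module) e)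
      constructor
      · exact (mul_eq_zero.1 (by linear_combination d * h0.1 - c * h0.2 : u * (a * d - b * c) = 0)).resolve_right hD
      · exact (mul_eq_zero.1 (by linear_combination a * h0.2 - b * h0.1 : v * (a * d - b * c) = 0)).resolve_right hD
    · simp only [polar_add_left, polar_add_right, polar_smul_left, polar_smul_right, polar_self_zero h.qp,
        polar_self_zero h.qr, h.pr, polar_comm (⇑Q) r p]
      simp
  refine ⟨hL, ?_⟩
  ext g
  rw [mem_RT hL, mem_RT h]
  constructor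
  · rintro ⟨e, he⟩; exact ⟨_, he.trans (R_basis h hL e)⟩
  · rintro ⟨e, he⟩
    refine ⟨(a * d - b * c)⁻¹ * e, ?_⟩
    rw [R_basis h hL, ← mul_assoc, mul_inv_cancel₀ hD, one_mul, he]

theorem RT_swap {p r : ι → F} (h : Ln Q p r) : RT Q ρ r p = RT Q ρ p r :=
  (RT_basis (ρ := ρ) h (a := 0) (b := 1) (c := 1) (d := 0) (by simp) (by simp) (by simp)).2

theorem RT_comm (hρ : Function.Injective ρ) {p r s t : ι → F} (h : Ln Q p r) (h' : Ln Q s t)
    (hc : ∀ c d, R Q p r c * R Q s t d = R Q s t d * R Q p r c) : ⁅RT Q ρ p r, RT Q ρ s t⁆ = ⊥ := by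
  rw [comm_iff]
  intro x hx y hy
  obtain ⟨c, hc'⟩ := (mem_RT h).1 hx
  obtain ⟨d, hd⟩ := (mem_RT h').1 hy
  exact hρ (by rw [map_mul, map_mul, hc', hd, hc])

/-- A root pair with trivial pairing commutes. -/
theorem R_commute {p r s t : ι → F} (h : Ln Q p r) (h' : Ln Q s t) (h1 : polar Q p s = 0) (h2 : polar Q p t = 0)
    (h3 : polar Q r s = 0) (h4 : polar Q r t = 0) (c d : F) :
    R Q p r c * R Q s t d = R Q s t d * R Q p r c := by
  refine gl_ext fun x => ?_
  rw [mul_mulVec', mul_mulVec', R_mulVec h, R_mulVec h', R_mulVec h', R_mulVec h]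
  simp only [polar_add_right, polar_sub_right, polar_smul_right, h1, h2, h3, h4, polar_comm (⇑Q) s p,
    polar_comm (⇑Q) t p, polar_comm (⇑Q) s r, polar_comm (⇑Q) t r, smul_eq_mul, mul_zero]
  module

/-- Lines through a common point commute. -/
theorem R_commute_shared {p r t : ι → F} (h : Ln Q p r) (h' : Ln Q p t) (c d : F) :
    R Q p r c * R Q p t d = R Q p t d * R Q p r c := by
  refine gl_ext fun x => ?_
  rw [mul_mulVec', mul_mulVec', R_mulVec h, R_mulVec h', R_mulVec h', R_mulVec h]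
  simp only [polar_add_right, polar_sub_right, polar_smul_right, polar_self_zero h.qp, h.pr, h'.pr,
    polar_comm (⇑Q) r p, polar_comm (⇑Q) t p, polar_comm (⇑Q) t r, smul_eq_mul, mul_zero]
  module

theorem R_commutator {p r s t : ι → F} (h : Ln Q p r) (h' : Ln Q s t) (hps : Ln Q p s) (h2 : polar Q p t = 0)
    (h3 : polar Q r s = 0) (h4 : polar Q r t = 1) (c d : F) :
    R Q p r c * R Q s t d * (R Q p r c)⁻¹ * (R Q s t d)⁻¹ = R Q p s (-(c * d)) := by
  rw [mul_inv_eq_iff_eq_mul, mul_inv_eq_iff_eq_mul]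
  refine gl_ext fun x => ?_
  simp only [mul_mulVec', R_mulVec h, R_mulVec h', R_mulVec hps]
  simp only [polar_add_right, polar_sub_right, polar_smul_right, h2, h3, h4, hps.pr, h.pr, h'.pr,
    polar_self_zero h.qp, polar_self_zero h.qr, polar_self_zero h'.qp, polar_self_zero h'.qr,
    polar_comm (⇑Q) s p, polar_comm (⇑Q) t p, polar_comm (⇑Q) s r, polar_comm (⇑Q) t r,
    polar_comm (⇑Q) r p, polar_comm (⇑Q) t s, smul_eq_mul, mul_zero, mul_one]
  module

end Group

end Cfsg.Agent.Lib.Root.Siegel
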