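import Cfsg.Agent.Lib.Root.SiegelElements

/-! Pairs of root groups of totally singular lines. -/

set_option autoImplicit false

namespace Cfsg.Agent.Lib.Root.Siegel

open Matrix QuadraticMap Cfsg.Agent.Lib.Forms Cfsg.Agent.Lib.Root
open Cfsg.Agent.S5016 (up low coe_up coe_low mem_up mem_low)

variable {ι : Type} [Fintype ι] [DecidableEq ι] {F : Type*} [Field F] {Q : QuadraticForm F (ι → F)}
  {G : Type*} [Group G] {ρ : G →* GL ι F}

section Opp

variable {p r s t : ι → F} (h : Ln Q p r) (h' : Ln Q s t) (h1 : polar Q p s = 1) (h2 : polar Q p t = 0)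
  (h3 : polar Q r s = 0) (h4 : polar Q r t = 1)
include h h' h1 h2 h3 h4

theorem opp_rankOne (hρ : Function.Injective ρ) (hR : ∀ c, R Q p r c ∈ ρ.range) (hR' : ∀ c, R Q s t c ∈ ρ.range) :
    IsRankOnePair (RT Q ρ p r) (RT Q ρ s t) ∧ IsPSL2PairOver F (RT Q ρ p r) (RT Q ρ s t) ∧
      ∀ S : Set (Subgroup G), ¬ RootCommutatorCase S (RT Q ρ p r) (RT Q ρ s t) := by
  have pp := polar_self_zero h.qp
  have rr := polar_self_zero h.qr
  have ss := polar_self_zero h'.qp
  have tt := polar_self_zero h'.qr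
  have hrp : polar Q r p = 0 := by rw [polar_comm]; exact h.pr
  have hts : polar Q t s = 0 := by rw [polar_comm]; exact h'.pr
  have hsp : polar Q s p = 1 := by rw [polar_comm]; exact h1
  have htp : polar Q t p = 0 := by rw [polar_comm]; exact h2
  have hsr : polar Q s r = 0 := by rw [polar_comm]; exact h3
  have htr : polar Q t r = 1 := by rw [polar_comm]; exact h4
  have a1 : fv Q s ⬝ᵥ p = 1 := by rw [fv_dot, hsp]
  have a2 : fv Q r ⬝ᵥ t = 1 := by rw [fv_dot, h4]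
  have a3 : fv Q r ⬝ᵥ p = 0 := by rw [fv_dot, hrp]
  have a4 : fv Q s ⬝ᵥ t = 0 := by rw [fv_dot, h'.pr]
  have b1 : fv Q t ⬝ᵥ r = 1 := by rw [fv_dot, htr]
  have b2 : (-fv Q p) ⬝ᵥ (-s) = 1 := by simp [fv_dot, h1]
  have b3 : (-fv Q p) ⬝ᵥ r = 0 := by simp [fv_dot, h.pr]
  have b4 : fv Q t ⬝ᵥ (-s) = 0 := by simp [fv_dot, hts]
  set E₁ := emb a1 a2 a3 a4 with hE1
  set E₂ := emb b1 b2 b3 b4 with hE2
  have hcomm : ∀ g g', E₁ g * E₂ g' = E₂ g' * E₁ g := fun g g' => gl_ext fun x => by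
    simp only [mul_mulVec', hE1, hE2, emb_mulVec]
    simp only [fv_dot, neg_dotProduct, polar_add_right, polar_smul_right, polar_neg_right, pp, rr, ss, tt, h.pr,
      h'.pr, h1, h2, h3, h4, hrp, hts, hsp, htp, hsr, htr, smul_eq_mul, mul_zero, add_zero, neg_zero]
    module
  let E : Matrix.SpecialLinearGroup (Fin 2) F →* GL ι F :=
    { toFun := fun g => E₁ g * E₂ g
      map_one' := by rw [map_one, map_one, mul_one]
      map_mul' := fun g g' => by
        rw [map_mul, map_mul, mul_assoc (E₁ g), ← mul_assoc (E₁ g'), hcomm g' g, mul_assoc (E₂ g),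
          ← mul_assoc (E₁ g)] }
  have hEu : ∀ c, E (up F c) = R Q p r c := fun c => by
    show E₁ _ * E₂ _ = _
    rw [hE1, hE2, emb_up, emb_up, R, smul_neg, neg_smul]
  have hEl : ∀ c, E (low F c) = R Q s t (-c) := fun c => by
    show E₁ _ * E₂ _ = _
    refine gl_ext fun x => ?_
    rw [hE1, hE2, emb_low, emb_low, mul_mulVec', R_mulVec h', tv_mulVec (by simp [a4]),
      tv_mulVec (by simp [fv_dot, hts])]
    simp only [smul_dotProduct, fv_dot, polar_add_right, polar_smul_right, polar_neg_right, ss, smul_eq_mul,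
      neg_zero, mul_zero, add_zero]
    module
  have hEinj : ∀ g, E g = 1 → g = 1 := by
    intro g e
    refine emb_injective a1 a2 a3 a4 (?_ : E₁ g = E₁ 1)
    rw [map_one]
    have hp := congrArg (fun M : GL ι F => (M : Matrix ι ι F) *ᵥ p) e
    have ht := congrArg (fun M : GL ι F => (M : Matrix ι ι F) *ᵥ t) e
    have hfp : (E₂ g : Matrix ι ι F) *ᵥ p = p := by
      simp [hE2, emb_mulVec, fv_dot, pp, htp]
    have hft : (E₂ g : Matrix ι ι F) *ᵥ t = t := by
      simp [hE2, emb_mulVec, fv_dot, tt, h2]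
    simp only [E, MonoidHom.coe_mk, OneHom.coe_mk, mul_mulVec', hfp, hft, Units.val_one, one_mulVec] at hp ht
    simp only [hE1, emb_mulVec, a1, a2, a3, a4, mul_one, mul_zero, add_zero, zero_add] at hp ht
    refine gl_ext fun x => ?_
    rw [hE1, emb_mulVec, Units.val_one, one_mulVec]
    linear_combination (norm := module) (fv Q s ⬝ᵥ x) • hp + (fv Q r ⬝ᵥ x) • ht
  have hr : ∀ g, E g ∈ ρ.range := by
    intro g
    have : upperUnipotentSL2 F ⊔ lowerUnipotentSL2 F ≤ ρ.range.comap E := by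
      refine sup_le ?_ ?_ <;> intro x hx
      · obtain ⟨c, rfl⟩ := (mem_up F x).1 hx
        rw [Subgroup.mem_comap, hEu]; exact hR c
      · obtain ⟨c, rfl⟩ := (mem_low F x).1 hx
        rw [Subgroup.mem_comap, hEl]; exact hR' _
    rw [upper_sup_lower] at this
    exact this (Subgroup.mem_top g)
  let Φ : Matrix.SpecialLinearGroup (Fin 2) F →* G :=
    (MonoidHom.ofInjective hρ).symm.toMonoidHom.comp (E.codRestrict ρ.range hr)
  have hΦ : ∀ g, ρ (Φ g) = E g := fun g =>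
    congrArg Subtype.val ((MonoidHom.ofInjective hρ).apply_symm_apply ⟨E g, hr g⟩)
  have hker : Φ.ker ≤ Subgroup.center _ := fun g hg => by
    rw [hEinj g (by rw [← hΦ, hg, map_one])]; exact one_mem _
  have eA : (upperUnipotentSL2 F).map Φ = RT Q ρ p r := by
    ext z
    rw [mem_RT h]
    constructor
    · rintro ⟨x, hx, rfl⟩
      obtain ⟨c, rfl⟩ := (mem_up F x).1 hx
      exact ⟨c, (hΦ _).trans (hEu c)⟩
    · rintro ⟨c, hc⟩
      exact ⟨up F c, (mem_up F _).2 ⟨c, rfl⟩, hρ (((hΦ _).trans (hEu c)).trans hc.symm)⟩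
  have eB : (lowerUnipotentSL2 F).map Φ = RT Q ρ s t := by
    ext z
    rw [mem_RT h']
    constructor
    · rintro ⟨x, hx, rfl⟩
      obtain ⟨c, rfl⟩ := (mem_low F x).1 hx
      exact ⟨-c, (hΦ _).trans (hEl c)⟩
    · rintro ⟨c, hc⟩
      exact ⟨low F (-c), (mem_low F _).2 ⟨_, rfl⟩, hρ (((hΦ _).trans (hEl _)).trans (by rw [neg_neg, hc]))⟩
  rw [← eA, ← eB]
  exact ⟨isRankOnePair_map hker, isPSL2PairOver_map hker, fun S => not_rootCommutatorCase_map S hker⟩

end Opp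

/-- Two lines in opposite position. -/
theorem rankOne_of_det (hρ : Function.Injective ρ) (hR : ∀ p r, Ln Q p r → ∀ c, R Q p r c ∈ ρ.range)
    {p r s t : ι → F} (h : Ln Q p r) (h' : Ln Q s t)
    (hD : polar Q p s * polar Q r t - polar Q p t * polar Q r s ≠ 0) :
    IsRankOnePair (RT Q ρ p r) (RT Q ρ s t) ∧ IsPSL2PairOver F (RT Q ρ p r) (RT Q ρ s t) ∧
      ∀ S : Set (Subgroup G), ¬ RootCommutatorCase S (RT Q ρ p r) (RT Q ρ s t) := by
  set D := polar Q p s * polar Q r t - polar Q p t * polar Q r s with hDdef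
  obtain ⟨L', eT⟩ := RT_basis (ρ := ρ) h' (a := polar Q r t / D) (b := -(polar Q r s / D))
    (c := -(polar Q p t / D)) (d := polar Q p s / D)
    (by
      rw [show polar Q r t / D * (polar Q p s / D) - -(polar Q r s / D) * -(polar Q p t / D) = D / (D * D) by
        rw [hDdef]; field_simp]
      exact div_ne_zero hD (mul_ne_zero hD hD)) rfl rfl
  rw [← eT]
  refine opp_rankOne h L' ?_ ?_ ?_ ?_ hρ (hR _ _ h) (hR _ _ L') <;>
    simp only [polar_add_right, polar_smul_right, smul_eq_mul] <;> field_simp <;> linear_combination -hDdef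

/-- A pair with commutator subgroup central in their join is not a rank one pair. -/
theorem not_rankOne_of_commutatorCase {S : Set (Subgroup G)} {A B : Subgroup G} (hA : IsMulCommutative A)
    (hB : IsMulCommutative B) (hc : RootCommutatorCase S A B) : ¬ IsRankOnePair A B := by
  intro h
  obtain ⟨a, ha, ha1⟩ := exists_left h
  obtain ⟨b, hb, hb1, e⟩ := h.cond_left a ha ha1
  -- the common conjugate
  have hmem : b⁻¹ * a * b⁻¹⁻¹ ∈ conjBy B a⁻¹ := e ▸ conj_mem_conjBy b⁻¹ ha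
  rw [inv_inv, mem_conjBy, inv_inv] at hmem
  set b' := a * (b⁻¹ * a * b) * a⁻¹ with hb'
  have hb'' : b' ∈ B := hmem
  have c1 : b⁻¹ * a * b * a⁻¹ ∈ ⁅A, B⁆ := by
    have := comm_elem_mem (A := B) (B := A) (inv_mem hb) ha
    rw [Subgroup.commutator_comm, inv_inv] at this
    exact this
  have c2 : a⁻¹ * b' * a * b'⁻¹ ∈ ⁅A, B⁆ := by
    have := comm_elem_mem (inv_mem ha) hb''
    rwa [inv_inv] at this
  have hae : a = (b⁻¹ * a * b * a⁻¹)⁻¹ * (a⁻¹ * b' * a * b'⁻¹) * b' := by rw [hb']; group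
  refine ha1 (eq_one_of_normalizes h ha (conjBy_eq_self_of_commute fun x hx => ?_))
  have hb'x : Commute b' x := congrArg Subtype.val (hB.is_comm.comm ⟨b', hb''⟩ ⟨x, hx⟩)
  have k1 : Commute (b⁻¹ * a * b * a⁻¹) x := hc.2.1 _ c1 x (Subgroup.mem_sup_right hx)
  have k2 : Commute (a⁻¹ * b' * a * b'⁻¹) x := hc.2.1 _ c2 x (Subgroup.mem_sup_right hx)
  have := ((k1.inv_left.mul_left k2).mul_left hb'x)
  rw [← hae] at this
  exact this

theorem RT_commutative (hρ : Function.Injective ρ) {p r : ι → F} (h : Ln Q p r) :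
    IsMulCommutative (RT Q ρ p r) := ⟨⟨fun x y => by
  obtain ⟨c, hc⟩ := (mem_RT h).1 x.2
  obtain ⟨d, hd⟩ := (mem_RT h).1 y.2
  apply Subtype.ext
  apply hρ
  simp only [Subgroup.coe_mul, map_mul, hc, hd]
  rw [R_add h, R_add h, add_comm]⟩⟩

variable (hρ : Function.Injective ρ) (hR : ∀ p r, Ln Q p r → ∀ c, R Q p r c ∈ ρ.range)
  (hnd : ∀ x, (∀ y, polar Q x y = 0) → x = 0)
include hρ hR hnd

theorem exists_mem_RT {p r : ι → F} (h : Ln Q p r) (c : F) : ∃ g ∈ RT Q ρ p r, ρ g = R Q p r c := by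
  obtain ⟨g, hg⟩ := hR p r h c
  exact ⟨g, (mem_RT h).2 ⟨c, hg⟩, hg⟩

theorem RT_ne_bot {p r : ι → F} (h : Ln Q p r) : RT Q ρ p r ≠ ⊥ := by
  intro e
  obtain ⟨g, hg, hge⟩ := exists_mem_RT hρ hR hnd h 1
  rw [e, Subgroup.mem_bot] at hg
  rw [hg, map_one] at hge
  exact R_ne_one hnd h one_ne_zero hge.symm

/-- The commutator case. -/
theorem commutator_case (S : Set (Subgroup G)) {p r s t : ι → F} (h : Ln Q p r) (h' : Ln Q s t) (hps : Ln Q p s)
    (h2 : polar Q p t = 0) (h3 : polar Q r s = 0) (h4 : polar Q r t = 1) (hS : RT Q ρ p s ∈ S) :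
    RootCommutatorCase S (RT Q ρ p r) (RT Q ρ s t) := by
  have key : ∀ x y : G, ∀ c d : F, ρ x = R Q p r c → ρ y = R Q s t d →
      ρ (x * y * x⁻¹ * y⁻¹) = R Q p s (-(c * d)) := by
    intro x y c d hx hy
    rw [map_mul, map_mul, map_mul, map_inv, map_inv, hx, hy, R_commutator h h' hps h2 h3 h4]
  have hle : ⁅RT Q ρ p r, RT Q ρ s t⁆ ≤ RT Q ρ p s := by
    rw [Subgroup.commutator_le]
    intro x hx y hy
    obtain ⟨c, hc⟩ := (mem_RT h).1 hx
    obtain ⟨d, hd⟩ := (mem_RT h').1 hy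
    exact (mem_RT hps).2 ⟨_, by rw [commutatorElement_def]; exact key x y c d hc hd⟩
  have hfix : ∀ x ∈ RT Q ρ p r, x ≠ 1 → RT Q ρ p s ≤
      Subgroup.closure ((fun y : G => x * y * x⁻¹ * y⁻¹) '' (RT Q ρ s t : Set G)) := by
    intro x hx hx1 z hz
    obtain ⟨c, hc⟩ := (mem_RT h).1 hx
    have hc0 : c ≠ 0 := fun h0 => hx1 (hρ (by rw [hc, h0, R_zero h, map_one]))
    obtain ⟨e, he⟩ := (mem_RT hps).1 hz
    obtain ⟨y, hy, hye⟩ := exists_mem_RT hρ hR hnd h' (-(e * c⁻¹))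
    refine Subgroup.subset_closure ⟨y, hy, hρ ?_⟩
    rw [key x y _ _ hc hye, he]
    congr 1; field_simp
  have hfix' : ∀ y ∈ RT Q ρ s t, y ≠ 1 → RT Q ρ p s ≤
      Subgroup.closure ((fun x : G => x * y * x⁻¹ * y⁻¹) '' (RT Q ρ p r : Set G)) := by
    intro y hy hy1 z hz
    obtain ⟨d, hd⟩ := (mem_RT h').1 hy
    have hd0 : d ≠ 0 := fun h0 => hy1 (hρ (by rw [hd, h0, R_zero h', map_one]))
    obtain ⟨e, he⟩ := (mem_RT hps).1 hz
    obtain ⟨x, hx, hxe⟩ := exists_mem_RT hρ hR hnd h (-(e * d⁻¹))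
    refine Subgroup.subset_closure ⟨x, hx, hρ ?_⟩
    rw [key x y _ _ hxe hd, he]
    congr 1; field_simp
  have hsub1 : ∀ x ∈ RT Q ρ p r, Subgroup.closure ((fun y : G => x * y * x⁻¹ * y⁻¹) '' (RT Q ρ s t : Set G)) ≤
      ⁅RT Q ρ p r, RT Q ρ s t⁆ := fun x hx => (Subgroup.closure_le _).2 <| by
    rintro _ ⟨y, hy, rfl⟩; exact comm_elem_mem hx hy
  have hsub2 : ∀ y ∈ RT Q ρ s t, Subgroup.closure ((fun x : G => x * y * x⁻¹ * y⁻¹) '' (RT Q ρ p r : Set G)) ≤
      ⁅RT Q ρ p r, RT Q ρ s t⁆ := fun y hy => (Subgroup.closure_le _).2 <| by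
    rintro _ ⟨x, hx, rfl⟩; exact comm_elem_mem hx hy
  obtain ⟨x, hx, hx1⟩ := (RT Q ρ p r).bot_or_exists_ne_one.resolve_left (RT_ne_bot hρ hR hnd h)
  have heq : ⁅RT Q ρ p r, RT Q ρ s t⁆ = RT Q ρ p s := le_antisymm hle ((hfix x hx hx1).trans (hsub1 x hx))
  refine ⟨heq ▸ hS, ?_, fun x hx hx1 => le_antisymm (hsub1 x hx) (hle.trans (hfix x hx hx1)),
    fun y hy hy1 => le_antisymm (hsub2 y hy) (hle.trans (hfix' y hy hy1))⟩
  have e1 : ⁅RT Q ρ p r, RT Q ρ p s⁆ = ⊥ := RT_comm hρ h hps (R_commute_shared h hps)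
  have e2 : ⁅RT Q ρ s t, RT Q ρ p s⁆ = ⊥ := by
    have := RT_comm (ρ := ρ) hρ h' hps.symm (R_commute_shared h' hps.symm)
    rwa [RT_swap hps] at this
  intro z hz w hw
  rw [heq] at hz
  have : RT Q ρ p r ⊔ RT Q ρ s t ≤ Subgroup.centralizer {z} := by
    refine sup_le ?_ ?_ <;> intro u hu <;> rw [Subgroup.mem_centralizer_singleton_iff]
    · exact comm_iff.1 e1 u hu z hz
    · exact comm_iff.1 e2 u hu z hz
  exact (Subgroup.mem_centralizer_singleton_iff.1 (this hw)).symm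

/-- The cases for two lines with non-zero entry. -/
theorem pair_aux (S : Set (Subgroup G)) (hS : ∀ p r, Ln Q p r → RT Q ρ p r ∈ S) {p r s t : ι → F} (h : Ln Q p r)
    (h' : Ln Q s t) (hD : polar Q p s * polar Q r t - polar Q p t * polar Q r s = 0) (h0 : polar Q r t ≠ 0) :
    ⁅RT Q ρ p r, RT Q ρ s t⁆ = ⊥ ∨ RootCommutatorCase S (RT Q ρ p r) (RT Q ρ s t) := by
  obtain ⟨L1, e1⟩ := RT_basis (ρ := ρ) h (a := 1) (b := -(polar Q p t / polar Q r t)) (c := 0) (d := 1)
    (by simp) rfl rfl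
  obtain ⟨L2, e2⟩ := RT_basis (ρ := ρ) h' (a := 1) (b := -(polar Q r s / polar Q r t)) (c := 0) (d := (polar Q r t)⁻¹)
    (by simp [h0]) rfl rfl
  rw [← e1, ← e2]
  set p' := (1 : F) • p + (-(polar Q p t / polar Q r t)) • r with hp'
  set r' := (0 : F) • p + (1 : F) • r with hr'
  set s' := (1 : F) • s + (-(polar Q r s / polar Q r t)) • t with hs'
  set t' := (0 : F) • s + (polar Q r t)⁻¹ • t with ht'
  have k1 : polar Q p' s' = 0 := by
    simp only [hp', hs', polar_add_left, polar_add_right, polar_smul_left, polar_smul_right, smul_eq_mul]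
    field_simp
    linear_combination hD
  have k2 : polar Q p' t' = 0 := by
    simp only [hp', ht', polar_add_left, polar_add_right, polar_smul_left, polar_smul_right, smul_eq_mul]
    field_simp
    ring
  have k3 : polar Q r' s' = 0 := by
    simp only [hr', hs', polar_add_left, polar_add_right, polar_smul_left, polar_smul_right, smul_eq_mul]
    field_simp
    ring
  have k4 : polar Q r' t' = 1 := by
    simp only [hr', ht', polar_add_left, polar_add_right, polar_smul_left, polar_smul_right, smul_eq_mul]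
    field_simp
    ring
  by_cases hli : LinearIndependent F ![p', s']
  · exact Or.inr (commutator_case hρ hR hnd S L1 L2 ⟨hli, L1.qp, L2.qp, k1⟩ k2 k3 k4
      (hS _ _ ⟨hli, L1.qp, L2.qp, k1⟩))
  · left
    obtain ⟨u, v, huv, hne⟩ : ∃ u v : F, u • p' + v • s' = 0 ∧ ¬ (u = 0 ∧ v = 0) := by
      by_contra hcon
      push Not at hcon
      exact hli (LinearIndependent.pair_iff.2 fun u v e => hcon u v e)
    have hp0 : p' ≠ 0 := L1.li.ne_zero 0
    have hs0 : s' ≠ 0 := L2.li.ne_zero 0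
    have hv : v ≠ 0 := by
      rintro rfl
      rw [zero_smul, add_zero, smul_eq_zero] at huv
      exact hne ⟨huv.resolve_right hp0, rfl⟩
    have hu : u ≠ 0 := by
      rintro rfl
      rw [zero_smul, zero_add, smul_eq_zero] at huv
      exact hne ⟨rfl, huv.resolve_right hs0⟩
    have hsp : s' = (-(u / v)) • p' := by
      have : v • s' = -(u • p') := eq_neg_of_add_eq_zero_right huv
      calc s' = v⁻¹ • (v • s') := by rw [smul_smul, inv_mul_cancel₀ hv, one_smul]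
        _ = _ := by rw [this, smul_neg, smul_smul, neg_smul, div_eq_inv_mul]
    obtain ⟨L3, e3⟩ := RT_basis (ρ := ρ) L2 (a := -(v / u)) (b := 0) (c := 0) (d := 1)
      (by simp [hu, hv]) (p' := p') (r' := t') (by rw [hsp, zero_smul, add_zero, smul_smul]; field_simp; simp)
      (by simp)
    rw [← e3]
    exact RT_comm hρ L1 L3 (R_commute_shared L1 L3)

theorem pair_cases (S : Set (Subgroup G)) (hS : ∀ p r, Ln Q p r → RT Q ρ p r ∈ S) {p r s t : ι → F} (h : Ln Q p r)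
    (h' : Ln Q s t) :
    ⁅RT Q ρ p r, RT Q ρ s t⁆ = ⊥ ∨
      (IsRankOnePair (RT Q ρ p r) (RT Q ρ s t) ∧ IsPSL2PairOver F (RT Q ρ p r) (RT Q ρ s t)) ∨
      (RootCommutatorCase S (RT Q ρ p r) (RT Q ρ s t) ∧ ¬ IsRankOnePair (RT Q ρ p r) (RT Q ρ s t)) := by
  by_cases hD : polar Q p s * polar Q r t - polar Q p t * polar Q r s = 0
  swap
  · exact Or.inr (Or.inl ⟨(rankOne_of_det hρ hR h h' hD).1, (rankOne_of_det hρ hR h h' hD).2.1⟩)
  have wrap : ⁅RT Q ρ p r, RT Q ρ s t⁆ = ⊥ ∨ RootCommutatorCase S (RT Q ρ p r) (RT Q ρ s t) →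
      ⁅RT Q ρ p r, RT Q ρ s t⁆ = ⊥ ∨
      (IsRankOnePair (RT Q ρ p r) (RT Q ρ s t) ∧ IsPSL2PairOver F (RT Q ρ p r) (RT Q ρ s t)) ∨
      (RootCommutatorCase S (RT Q ρ p r) (RT Q ρ s t) ∧ ¬ IsRankOnePair (RT Q ρ p r) (RT Q ρ s t)) :=
    fun hh => hh.imp id fun hc => Or.inr ⟨hc, not_rankOne_of_commutatorCase (RT_commutative hρ h) (RT_commutative hρ h') hc⟩
  apply wrap
  by_cases c4 : polar Q r t = 0
  swap; · exact pair_aux hρ hR hnd S hS h h' hD c4
  by_cases c3 : polar Q r s = 0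
  swap
  · have := pair_aux hρ hR hnd S hS h h'.symm (by linear_combination -hD) c3
    rwa [RT_swap h'] at this
  by_cases c2 : polar Q p t = 0
  swap
  · have := pair_aux hρ hR hnd S hS h.symm h' (by linear_combination -hD) c2
    rwa [RT_swap h] at this
  by_cases c1 : polar Q p s = 0
  swap
  · have := pair_aux hρ hR hnd S hS h.symm h'.symm (by linear_combination hD) c1
    rwa [RT_swap h, RT_swap h'] at this
  exact Or.inl (RT_comm hρ h h' (R_commute h h' c1 c2 c3 c4))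

end Cfsg.Agent.Lib.Root.Siegel
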