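import Cfsg.Agent.Lib.Root.SiegelPairs
import Cfsg.Agent.Lib.Classical.QuadOmega.SingularPlus
import Cfsg.Agent.Lib.Forms.WittQuad

/-! The root groups of the hyperbolic orthogonal group. -/

set_option autoImplicit false

namespace Cfsg.Agent.Lib.Root.Siegel

open Matrix QuadraticMap Cfsg.Agent.Lib.Forms Cfsg.Agent.Lib.Root
open Cfsg.Agent.Lib.Classical.QuadOmega (plusQ plusQ_apply polar_plusQ nd_plusQ)

variable {F : Type*} [Field F] (m : ℕ)

local notation "I" => (Fin (m + 3) ⊕ Fin (m + 3))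
local notation "Q₀" => plusQ (m + 3) F

/-- The unit vector. -/
noncomputable def eL (i : Fin (m + 3)) : I → F := Pi.single (Sum.inl i) 1

/-- The dual unit vector. -/
noncomputable def eR (i : Fin (m + 3)) : I → F := Pi.single (Sum.inr i) 1

theorem polar_LL (i j : Fin (m + 3)) : polar Q₀ (eL m i) (eL m j) = (0 : F) := by
  simp [polar_plusQ, eL]

theorem polar_RR (i j : Fin (m + 3)) : polar Q₀ (eR m i) (eR m j) = (0 : F) := by
  simp [polar_plusQ, eR]

theorem polar_LR (i j : Fin (m + 3)) : polar Q₀ (eL m i) (eR m j) = if i = j then (1 : F) else 0 := by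
  simp [polar_plusQ, eL, eR, Pi.single_apply, eq_comm]

theorem Q_L (i : Fin (m + 3)) : Q₀ (eL m i : I → F) = 0 := by
  simp [plusQ_apply, Cfsg.quadFormPlus, eL]

theorem Q_R (i : Fin (m + 3)) : Q₀ (eR m i : I → F) = 0 := by
  simp [plusQ_apply, Cfsg.quadFormPlus, eR]

theorem polar_RL (i j : Fin (m + 3)) : polar Q₀ (eR m j) (eL m i) = if i = j then (1 : F) else 0 := by
  rw [polar_comm]; exact polar_LR m i j

theorem polarBilin_nd : (polarBilin Q₀ : LinearMap.BilinForm F (I → F)).Nondegenerate :=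
  ⟨fun x hx => nd_plusQ (F := F) (m + 3) x hx, fun x hx => nd_plusQ (F := F) (m + 3) x fun y => by
    rw [polar_comm]; exact hx y⟩

theorem exists_move (x y : Fin 3 → I → F) (hx : LinearIndependent F x) (hy : LinearIndependent F y)
    (hQx : ∀ i, Q₀ (x i) = 0) (hQy : ∀ i, Q₀ (y i) = 0) (hp : ∀ i j, polar Q₀ (x i) (x j) = polar Q₀ (y i) (y j)) :
    ∃ γ : (I → F) ≃ₗ[F] (I → F), (∀ v, Q₀ (γ v) = Q₀ v) ∧ ∀ i, γ (x i) = y i := by
  classical
  let b := Module.Basis.span hx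
  let φ := b.constr F y
  have hφb : ∀ i, φ (b i) = y i := fun i => b.constr_basis F y i
  have hbv : ∀ i, ((b i : Submodule.span F (Set.range x)) : I → F) = x i := fun i => by
    simp [b, Module.Basis.span_apply]
  have hinj : Function.Injective φ := by
    rw [← LinearMap.ker_eq_bot, LinearMap.ker_eq_bot']
    intro v hv
    rw [← b.sum_repr v, map_sum] at hv
    simp only [map_smul, hφb] at hv
    have := Fintype.linearIndependent_iff.1 hy _ hv
    rw [← b.sum_repr v]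
    simp [this]
  have hQ : ∀ v, Q₀ (φ v) = Q₀ (v : I → F) := by
    intro v
    have e1 : φ v = ∑ i, b.repr v i • y i := by
      have h0 := congrArg φ (b.sum_repr v)
      simp only [map_sum, map_smul, hφb] at h0
      exact h0.symm
    have e2 : (v : I → F) = ∑ i, b.repr v i • x i := by
      have h0 := congrArg Subtype.val (b.sum_repr v)
      simp only [AddSubmonoidClass.coe_finset_sum, SetLike.val_smul, hbv] at h0
      exact h0.symm
    rw [e1, e2, Fin.sum_univ_three, Fin.sum_univ_three]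
    simp only [QuadraticMap.map_add (f := ⇑Q₀), QuadraticMap.map_smul, polar_add_left, polar_smul_left,
      polar_smul_right, hQx, hQy, hp]
  obtain ⟨γ, hγ, hγe⟩ := witt_extension Q₀ (polarBilin_nd m) _ (Submodule.span F (Set.range x)) rfl φ hinj hQ
  exact ⟨γ, hγ, fun i => by rw [← hbv i, hγe, hφb]⟩

theorem li_std3 (i j k : I) (hij : i ≠ j) (hik : i ≠ k) (hjk : j ≠ k) :
    LinearIndependent F ![(Pi.single i 1 : I → F), Pi.single j 1, Pi.single k 1] := by
  rw [Fintype.linearIndependent_iff]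
  intro g hg l
  rw [Fin.sum_univ_three] at hg
  have a := congrFun hg i
  have b := congrFun hg j
  have c := congrFun hg k
  simp [Pi.single_apply, hij, hij.symm, hik, hik.symm, hjk, hjk.symm] at a b c
  fin_cases l <;> assumption

theorem polar_map {γ : (I → F) ≃ₗ[F] (I → F)} (hγ : ∀ v, Q₀ (γ v) = Q₀ v) (u v : I → F) :
    polar Q₀ (γ u) (γ v) = polar Q₀ u v := by
  simp only [polar, ← map_add, hγ]

/-- A line opposite to two lines with a common point. -/
theorem exists_opposite {p r t : I → F} (h : Ln Q₀ p r) (h' : Ln Q₀ p t) (hli : LinearIndependent F ![p, r, t])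
    (hg : polar Q₀ r t = 0 ∨ polar Q₀ r t = 1) :
    ∃ u z, Ln Q₀ u z ∧ polar Q₀ p u * polar Q₀ r z - polar Q₀ p z * polar Q₀ r u ≠ 0 ∧
      polar Q₀ p u * polar Q₀ t z - polar Q₀ p z * polar Q₀ t u ≠ 0 := by
  have n0 : (0 : Fin (m + 3)) ≠ 1 := by simp [Fin.ext_iff]
  have n1 : (0 : Fin (m + 3)) ≠ 2 := by simp [Fin.ext_iff, Nat.mod_eq_of_lt (show 2 < m + 3 by omega)]
  have n2 : (1 : Fin (m + 3)) ≠ 2 := by simp [Fin.ext_iff, Nat.mod_eq_of_lt (show 2 < m + 3 by omega)]
  -- transport a configuration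
  suffices H : ∀ T Z : I → F, LinearIndependent F ![(eL m 0 : I → F), eL m 1, T] → Q₀ T = 0 →
      polar Q₀ (eL m 0) T = 0 → polar Q₀ (eL m 1) T = polar Q₀ r t → Q₀ Z = 0 → polar Q₀ (eR m 0) Z = 0 →
      polar Q₀ (eL m 0) Z = 0 → polar Q₀ (eL m 1) Z = 1 → polar Q₀ T Z = 1 →
      ∃ u z, Ln Q₀ u z ∧ polar Q₀ p u * polar Q₀ r z - polar Q₀ p z * polar Q₀ r u ≠ 0 ∧
        polar Q₀ p u * polar Q₀ t z - polar Q₀ p z * polar Q₀ t u ≠ 0 by
    rcases hg with hg | hg
    · refine H (eL m 2) (eR m 1 + eR m 2) (li_std3 m _ _ _ (by simpa using n0) (by simpa using n1) (by simpa using n2))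
        (Q_L m 2) (polar_LL m _ _) (by rw [hg]; exact polar_LL m _ _) ?_ ?_ ?_ ?_ ?_ <;>
        simp [QuadraticMap.map_add (f := ⇑Q₀), polar_add_right, Q_R, polar_RR, polar_LR, n0, n1, n2, n2.symm]
    · refine H (eR m 1) (eL m 1 + eR m 1 + eL m 2 - eR m 2) (li_std3 m _ _ _ (by simpa using n0) (by simp) (by simp))
        (Q_R m 1) (by simp [polar_LR, n0]) (by simp [hg, polar_LR]) ?_ ?_ ?_ ?_ ?_ <;>
        simp [sub_eq_add_neg, QuadraticMap.map_add (f := ⇑Q₀), polar_add_right, polar_add_left, polar_neg_right,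
          Q_R, Q_L, polar_RR, polar_LL, polar_RL, polar_LR, n0, n1, n2, n0.symm, n1.symm, n2.symm]
  intro T Z hT qT T0 T1 qZ RZ Z0 Z1 TZ
  obtain ⟨γ, hγ, hγe⟩ := exists_move m ![p, r, t] ![eL m 0, eL m 1, T] hli hT
    (by intro i; fin_cases i <;> simp [h.qp, h.qr, h'.qr])
    (by intro i; fin_cases i <;> simp [Q_L, qT])
    (by
      intro i j
      fin_cases i <;> fin_cases j <;>
        simp [polar_self_zero h.qp, polar_self_zero h.qr, polar_self_zero h'.qr, polar_self_zero qT, h.pr, h'.pr,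
          polar_comm (⇑Q₀) r p, polar_comm (⇑Q₀) t p, polar_comm (⇑Q₀) t r, polar_LL, Q_L, qT, T0, T1,
          polar_comm (⇑Q₀) T (eL m 0), polar_comm (⇑Q₀) T (eL m 1)])
  have hp : γ p = eL m 0 := hγe 0
  have hr : γ r = eL m 1 := hγe 1
  have ht : γ t = T := hγe 2
  have hpull : ∀ v w : I → F, polar Q₀ v (γ.symm w) = polar Q₀ (γ v) w := fun v w => by
    rw [← polar_map m hγ v, LinearEquiv.apply_symm_apply]
  have hQs : ∀ w : I → F, Q₀ (γ.symm w) = Q₀ w := fun w => by rw [← hγ, LinearEquiv.apply_symm_apply]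
  have hu : polar Q₀ p (γ.symm (eR m 0)) = 1 := by rw [hpull, hp, polar_LR, if_pos rfl]
  have hru : polar Q₀ r (γ.symm (eR m 0)) = 0 := by rw [hpull, hr, polar_LR, if_neg n0.symm]
  have hz : polar Q₀ p (γ.symm Z) = 0 := by rw [hpull, hp, Z0]
  have hrz : polar Q₀ r (γ.symm Z) = 1 := by rw [hpull, hr, Z1]
  have htz : polar Q₀ t (γ.symm Z) = 1 := by rw [hpull, ht, TZ]
  refine ⟨γ.symm (eR m 0), γ.symm Z, ⟨LinearIndependent.pair_iff.2 fun a b e => ?_, by rw [hQs, Q_R],
    by rw [hQs, qZ], by rw [← polar_map m hγ, LinearEquiv.apply_symm_apply, LinearEquiv.apply_symm_apply, RZ]⟩, ?_, ?_⟩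
  · have ea := congrArg (polar Q₀ p) e
    have eb := congrArg (polar Q₀ r) e
    simp only [polar_add_right, polar_smul_right, hu, hz, hru, hrz, polar_zero_right, smul_eq_mul] at ea eb
    exact ⟨by simpa using ea, by simpa using eb⟩
  · rw [hu, hz, hrz]; simp
  · rw [hu, hz, htz]; simp

variable {G : Type*} [Group G]

/-- All root groups. -/
def lineFamily (ρ : G →* GL (Fin (m + 3) ⊕ Fin (m + 3)) F) : Set (Subgroup G) :=
  {A | ∃ p r, Ln (plusQ (m + 3) F) p r ∧ A = RT (plusQ (m + 3) F) ρ p r}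

variable {ρ : G →* GL (Fin (m + 3) ⊕ Fin (m + 3)) F} (hρ : Function.Injective ρ)
  (hR : ∀ p r, Ln (plusQ (m + 3) F) p r → ∀ c, R (plusQ (m + 3) F) p r c ∈ ρ.range)

include hρ hR

theorem connected_shared {p r t : I → F} (h : Ln Q₀ p r) (h' : Ln Q₀ p t) :
    Relation.ReflTransGen (FAdj (lineFamily m ρ)) (RT Q₀ ρ p r) (RT Q₀ ρ p t) := by
  -- normalise the pairing
  obtain ⟨s, hs, hg⟩ : ∃ s : F, s ≠ 0 ∧ (polar Q₀ r (s • t) = 0 ∨ polar Q₀ r (s • t) = 1) := by
    by_cases h0 : polar Q₀ r t = 0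
    · exact ⟨1, one_ne_zero, Or.inl (by rw [one_smul, h0])⟩
    · exact ⟨(polar Q₀ r t)⁻¹, inv_ne_zero h0, Or.inr (by rw [polar_smul_right, smul_eq_mul, inv_mul_cancel₀ h0])⟩
  obtain ⟨L', eT⟩ := RT_basis (ρ := ρ) h' (a := 1) (b := 0) (c := 0) (d := s) (by simp [hs])
    (p' := p) (r' := s • t) (by simp) (by simp)
  rw [← eT]
  set t' := s • t
  by_cases hli : LinearIndependent F ![p, r, t']
  · obtain ⟨u, z, hn, hD, hD'⟩ := exists_opposite m h L' hli hg
    have a1 : FAdj (lineFamily m ρ) (RT Q₀ ρ p r) (RT Q₀ ρ u z) :=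
      ⟨⟨p, r, h, rfl⟩, ⟨u, z, hn, rfl⟩, (rankOne_of_det hρ hR h hn hD).1⟩
    have a2 : FAdj (lineFamily m ρ) (RT Q₀ ρ u z) (RT Q₀ ρ p t') :=
      ⟨⟨u, z, hn, rfl⟩, ⟨p, t', L', rfl⟩, RankOnePair_symm (rankOne_of_det hρ hR L' hn hD').1⟩
    exact (Relation.ReflTransGen.single a1).tail a2
  · obtain ⟨g, hg0, hne⟩ : ∃ g : Fin 3 → F, g 0 • p + g 1 • r + g 2 • t' = 0 ∧ ¬ ∀ i, g i = 0 := by
      rw [Fintype.linearIndependent_iff] at hli
      push Not at hli
      obtain ⟨g, hg', i, hi⟩ := hli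
      exact ⟨g, by simpa [Fin.sum_univ_three] using hg', fun hall => hi (hall i)⟩
    have hc : g 2 ≠ 0 := by
      intro h2
      rw [h2, zero_smul, add_zero] at hg0
      obtain ⟨e0, e1⟩ := LinearIndependent.pair_iff.1 h.li _ _ hg0
      exact hne fun i => by fin_cases i <;> assumption
    have ht : t' = (-(g 0 / g 2)) • p + (-(g 1 / g 2)) • r := by
      have : g 2 • t' = -(g 0 • p) - g 1 • r := by linear_combination (norm := module) hg0
      calc t' = (g 2)⁻¹ • (g 2 • t') := by rw [smul_smul, inv_mul_cancel₀ hc, one_smul]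
        _ = _ := by rw [this, smul_sub, smul_neg, smul_smul, smul_smul, div_eq_inv_mul, div_eq_inv_mul]; module
    have hb : g 1 ≠ 0 := by
      intro h1
      rw [h1, zero_div, neg_zero, zero_smul, add_zero] at ht
      have := LinearIndependent.pair_iff.1 L'.li (-(g 0 / g 2)) (-1) (by rw [← ht]; simp)
      simpa using this.2
    obtain ⟨-, e⟩ := RT_basis (ρ := ρ) h (a := 1) (b := 0) (c := -(g 0 / g 2)) (d := -(g 1 / g 2))
      (by simp [hb, hc]) (p' := p) (r' := t') (by simp) ht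
    rw [e]

theorem connected : IsConnectedFamily (FAdj (lineFamily m ρ)) (lineFamily m ρ) := by
  rintro A ⟨p, r, h, rfl⟩ B ⟨s, t, h', rfl⟩
  -- a point of the second line orthogonal to `p`
  obtain ⟨a, b, hab, hps⟩ : ∃ a b : F, (a ≠ 0 ∨ b ≠ 0) ∧ polar Q₀ p (a • s + b • t) = 0 := by
    by_cases h0 : polar Q₀ p s = 0
    · exact ⟨1, 0, Or.inl one_ne_zero, by simp [h0]⟩
    · exact ⟨-(polar Q₀ p t), polar Q₀ p s, Or.inr h0, by simp [polar_add_right, polar_smul_right]; ring⟩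
  obtain ⟨c, d, hD⟩ : ∃ c d : F, a * d - b * c ≠ 0 := by
    rcases hab with ha | hb
    · exact ⟨0, 1, by simpa using ha⟩
    · exact ⟨1, 0, by simpa using hb⟩
  obtain ⟨L', eT⟩ := RT_basis (ρ := ρ) h' hD (p' := a • s + b • t) (r' := c • s + d • t) rfl rfl
  rw [← eT]
  set s' := a • s + b • t
  set t'' := c • s + d • t
  by_cases hli : LinearIndependent F ![p, s']
  · have Lm : Ln Q₀ p s' := ⟨hli, h.qp, L'.qp, hps⟩
    have e1 := connected_shared m hρ hR h Lm
    have e2 := connected_shared m hρ hR Lm.symm L'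
    rw [RT_swap Lm] at e2
    exact e1.trans e2
  · obtain ⟨u, v, huv, hne⟩ : ∃ u v : F, u • p + v • s' = 0 ∧ ¬ (u = 0 ∧ v = 0) := by
      by_contra hcon
      push Not at hcon
      exact hli (LinearIndependent.pair_iff.2 fun u v e => hcon u v e)
    have hu : u ≠ 0 := by
      rintro rfl
      rw [zero_smul, zero_add, smul_eq_zero] at huv
      exact hne ⟨rfl, huv.resolve_right (L'.li.ne_zero 0)⟩
    have hv : v ≠ 0 := by
      rintro rfl
      rw [zero_smul, add_zero, smul_eq_zero] at huv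
      exact hu (huv.resolve_right (h.li.ne_zero 0))
    have hp : p = (-(v / u)) • s' := by
      have : u • p = -(v • s') := eq_neg_of_add_eq_zero_left huv
      calc p = u⁻¹ • (u • p) := by rw [smul_smul, inv_mul_cancel₀ hu, one_smul]
        _ = _ := by rw [this, smul_neg, smul_smul, neg_smul, div_eq_inv_mul]
    obtain ⟨L3, e3⟩ := RT_basis (ρ := ρ) L' (a := -(v / u)) (b := 0) (c := 0) (d := 1) (by simp [hu, hv])
      (p' := p) (r' := t'') (by rw [zero_smul, add_zero]; exact hp) (by simp)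
    rw [← e3]
    exact connected_shared m hρ hR h L3

theorem kRoot (hgen : (⨆ A ∈ lineFamily m ρ, A) = ⊤) (hiso : ∀ g : G, ∀ v, Q₀ ((ρ g : Matrix I I F) *ᵥ v) = Q₀ v) :
    IsKRootSubgroupSet F (lineFamily m ρ) := by
  have hnd := nd_plusQ (F := F) (m + 3)
  have hS : ∀ p r, Ln Q₀ p r → RT Q₀ ρ p r ∈ lineFamily m ρ := fun p r h => ⟨p, r, h, rfl⟩
  refine ⟨⟨?_, ?_, hgen, ?_, fun A hA B hB => ?_⟩, fun A hA B hB hRO => ?_⟩
  · rintro A ⟨p, r, h, rfl⟩; exact RT_commutative hρ h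
  · rintro A ⟨p, r, h, rfl⟩; exact RT_ne_bot hρ hR hnd h
  · rintro A ⟨p, r, h, rfl⟩ g
    refine ⟨_, _, h.map (hiso g), ?_⟩
    ext z
    rw [mem_conjBy, mem_RT h, mem_RT (h.map (hiso g))]
    refine exists_congr fun c => ?_
    rw [← R_conj (hiso g) h c (h.map (hiso g)), map_mul, map_mul, map_inv]
    constructor
    · intro e; rw [← e]; group
    · intro e; rw [e]; group
  · obtain ⟨p, r, h, rfl⟩ := hA
    obtain ⟨s, t, h', rfl⟩ := hB
    rcases pair_cases hρ hR hnd (lineFamily m ρ) hS h h' with e | e | e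
    · exact Or.inl e
    · exact Or.inr (Or.inl e.1)
    · exact Or.inr (Or.inr e.1)
  · obtain ⟨p, r, h, rfl⟩ := hA
    obtain ⟨s, t, h', rfl⟩ := hB
    rcases pair_cases hρ hR hnd (lineFamily m ρ) hS h h' with e | e | e
    · obtain ⟨x, hx, hx1⟩ := exists_left hRO
      exact absurd (eq_one_of_normalizes hRO hx (conjBy_eq_self_of_comm' e hx)) hx1
    · exact e.2
    · exact absurd hRO e.2

end Cfsg.Agent.Lib.Root.Siegel
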