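import Cfsg.Agent.Lib.Root.SiegelPlus

/-! The Siegel transvection groups. -/

set_option autoImplicit false

namespace Cfsg.Agent.Lib.Root.Siegel

open Matrix QuadraticMap Cfsg.Agent.Lib.Forms Cfsg.Agent.Lib.Root
open Cfsg.Agent.Lib.Classical.QuadOmega (plusQ plusQ_apply nd_plusQ)

variable (F : Type*) [Field F] (m : ℕ)

local notation "I" => (Fin (m + 3) ⊕ Fin (m + 3))
local notation "Q₀" => plusQ (m + 3) F

/-- The isometry group. -/
abbrev G₁ : Subgroup (GL (Fin (m + 3) ⊕ Fin (m + 3)) F) :=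
  Cfsg.isometryGroup F (Cfsg.quadFormPlus (m + 3) F)

theorem G₁_iso (g : G₁ F m) (v : I → F) :
    Q₀ (((g : GL I F) : Matrix I I F) *ᵥ v) = Q₀ v := by
  rw [plusQ_apply, plusQ_apply]; exact g.2 v v

theorem R_mem {p r : I → F} (h : Ln Q₀ p r) (c : F) : R Q₀ p r c ∈ (G₁ F m).subtype.range := by
  rw [Subgroup.range_subtype]
  intro u _
  show Cfsg.quadFormPlus _ F _ = Cfsg.quadFormPlus _ F _
  rw [← plusQ_apply, ← plusQ_apply]
  exact R_isometry h c u

theorem polar_eq (v p : I → F) :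
    Cfsg.quadFormPlus (m + 3) F (v + p) - Cfsg.quadFormPlus (m + 3) F v - Cfsg.quadFormPlus (m + 3) F p =
      polar Q₀ p v := by
  rw [polar_comm, polar, plusQ_apply, plusQ_apply, plusQ_apply]

theorem ln_iff (p r : I → F) :
    (LinearIndependent F ![p, r] ∧ Cfsg.quadFormPlus (m + 3) F p = 0 ∧ Cfsg.quadFormPlus (m + 3) F r = 0 ∧
      Cfsg.quadFormPlus (m + 3) F (p + r) = 0) ↔ Ln Q₀ p r := by
  simp only [← plusQ_apply]
  constructor
  · rintro ⟨h1, h2, h3, h4⟩
    exact ⟨h1, h2, h3, by rw [polar, h4, h2, h3]; simp⟩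
  · intro h
    exact ⟨h.li, h.qp, h.qr, by rw [QuadraticMap.map_add (f := ⇑Q₀), h.qp, h.qr, h.pr]; simp⟩

theorem exists_sep {p r : I → F} (h : Ln Q₀ p r) : ∃ x, polar Q₀ p x = 1 ∧ polar Q₀ r x = 0 := by
  have hnd := nd_plusQ (F := F) (m + 3)
  obtain ⟨y, hy⟩ : ∃ y, polar Q₀ r y ≠ 0 := by
    by_contra hc; push Not at hc; exact (h.li.ne_zero 1) (hnd r hc)
  by_contra hcon
  push Not at hcon
  have hk : ∀ x, polar Q₀ p x = polar Q₀ p y * (polar Q₀ r y)⁻¹ * polar Q₀ r x := by
    intro x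
    set z := x + (-(polar Q₀ r x * (polar Q₀ r y)⁻¹)) • y with hz
    have hrz : polar Q₀ r z = 0 := by
      simp only [hz, polar_add_right, polar_smul_right, smul_eq_mul]; field_simp; ring
    have hpz : polar Q₀ p z = 0 := by
      by_contra hne
      exact hcon ((polar Q₀ p z)⁻¹ • z) (by rw [polar_smul_right, smul_eq_mul, inv_mul_cancel₀ hne])
        (by rw [polar_smul_right, hrz, smul_zero])
    simp only [hz, polar_add_right, polar_smul_right, smul_eq_mul] at hpz
    linear_combination hpz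
  have := hnd (p + (-(polar Q₀ p y * (polar Q₀ r y)⁻¹)) • r) fun x => by
    rw [polar_add_left, polar_smul_left, hk x, smul_eq_mul]; ring
  exact one_ne_zero ((LinearIndependent.pair_iff.1 h.li) 1 _ (by rw [one_smul]; exact this)).1

theorem closure_eq {p r : I → F} (h : Ln Q₀ p r) :
    Subgroup.closure {σ : ↥(Cfsg.isometryGroup F (Cfsg.quadFormPlus (m + 3) F)) | ∀ v : I → F,
      Cfsg.quadFormPlus (m + 3) F (v + p) - Cfsg.quadFormPlus (m + 3) F v - Cfsg.quadFormPlus (m + 3) F p = 0 →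
      Cfsg.quadFormPlus (m + 3) F (v + r) - Cfsg.quadFormPlus (m + 3) F v - Cfsg.quadFormPlus (m + 3) F r = 0 →
        ((σ : Matrix.GeneralLinearGroup I F) : Matrix I I F) *ᵥ v = v} = RT Q₀ (G₁ F m).subtype p r := by
  simp only [polar_eq]
  refine le_antisymm ((Subgroup.closure_le _).2 ?_) fun g hg => Subgroup.subset_closure ?_
  · intro σ hσ
    have hnd := nd_plusQ (F := F) (m + 3)
    obtain ⟨x1, p1, r1⟩ := exists_sep F m h
    obtain ⟨x2, r2, p2⟩ := exists_sep F m h.symm
    set S := ((σ : GL I F) : Matrix I I F)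
    set a := S *ᵥ x1 - x1 with ha
    set b := S *ᵥ x2 - x2 with hb
    have hx : ∀ x, S *ᵥ x = x + polar Q₀ p x • a + polar Q₀ r x • b := by
      intro x
      have e := hσ (x + (-(polar Q₀ p x)) • x1 + (-(polar Q₀ r x)) • x2)
        (by simp only [polar_add_right, polar_smul_right, p1, p2, smul_eq_mul]; ring)
        (by simp only [polar_add_right, polar_smul_right, r1, r2, smul_eq_mul]; ring)
      rw [mulVec_add, mulVec_add, mulVec_smul, mulVec_smul] at e
      rw [ha, hb]
      linear_combination (norm := module) e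
    have hpol : ∀ u v, polar Q₀ (S *ᵥ u) (S *ᵥ v) = polar Q₀ u v := fun u v => by
      simp only [polar, ← mulVec_add]
      rw [G₁_iso F m σ, G₁_iso F m σ, G₁_iso F m σ]
    have hdec : ∀ z, (∀ y, polar Q₀ p y = 0 → polar Q₀ r y = 0 → polar Q₀ z y = 0) →
        z = polar Q₀ z x1 • p + polar Q₀ z x2 • r := by
      intro z hz
      refine sub_eq_zero.1 (hnd _ fun y => ?_)
      have e := hz (y + (-(polar Q₀ p y)) • x1 + (-(polar Q₀ r y)) • x2)
        (by simp only [polar_add_right, polar_smul_right, p1, p2, smul_eq_mul]; ring)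
        (by simp only [polar_add_right, polar_smul_right, r1, r2, smul_eq_mul]; ring)
      simp only [polar_add_right, polar_smul_right, smul_eq_mul] at e
      simp only [polar_sub_left, polar_add_left, polar_smul_left, smul_eq_mul]
      linear_combination e
    have hperp : ∀ x y, polar Q₀ p y = 0 → polar Q₀ r y = 0 → polar Q₀ (S *ᵥ x - x) y = 0 := by
      intro x y h1 h2
      have e := hpol x y
      rw [hσ y h1 h2] at e
      rw [polar_sub_left, e, sub_self]
    have ea := hdec a (hperp x1)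
    have eb := hdec b (hperp x2)
    have hq : ∀ α β : F, Q₀ (α • p + β • r) = 0 := fun α β => by
      simp [QuadraticMap.map_add (f := ⇑Q₀), QuadraticMap.map_smul, polar_smul_left, polar_smul_right, h.qp, h.qr, h.pr]
    have hqa : Q₀ a = 0 := by rw [ea, hq]
    have hqb : Q₀ b = 0 := by rw [eb, hq]
    have hab : polar Q₀ a b = 0 := by
      rw [ea, eb]
      simp [polar_add_left, polar_add_right, polar_smul_left, polar_smul_right, polar_self_zero h.qp,
        polar_self_zero h.qr, h.pr, polar_comm (⇑Q₀) r p]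
    have q1 : polar Q₀ a x1 = 0 := by
      have e := G₁_iso F m σ x1
      rw [show S *ᵥ x1 = x1 + a by rw [ha, add_sub_cancel], QuadraticMap.map_add (f := ⇑Q₀), hqa, add_zero,
        polar_comm] at e
      linear_combination e
    have q2 : polar Q₀ b x2 = 0 := by
      have e := G₁_iso F m σ x2
      rw [show S *ᵥ x2 = x2 + b by rw [hb, add_sub_cancel], QuadraticMap.map_add (f := ⇑Q₀), hqb, add_zero,
        polar_comm] at e
      linear_combination e
    have q3 : polar Q₀ b x1 + polar Q₀ a x2 = 0 := by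
      have e := hpol x1 x2
      rw [show S *ᵥ x1 = x1 + a by rw [ha, add_sub_cancel], show S *ᵥ x2 = x2 + b by rw [hb, add_sub_cancel],
        polar_add_left, polar_add_right, polar_add_right, hab, polar_comm (⇑Q₀) x1 b] at e
      linear_combination e
    refine (mem_RT h).2 ⟨-(polar Q₀ a x2), gl_ext fun x => ?_⟩
    rw [R_mulVec h]
    show S *ᵥ x = _
    rw [q1, zero_smul, zero_add] at ea
    rw [q2, zero_smul, add_zero, eq_neg_of_add_eq_zero_left q3] at eb
    rw [hx, eb]
    generalize polar Q₀ a x2 = α at ea ⊢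
    rw [ea]
    module
  · obtain ⟨c, hc⟩ := (mem_RT h).1 hg
    intro v h1 h2
    have : ((g : GL I F) : Matrix I I F) = (R Q₀ p r c : Matrix I I F) := congrArg Units.val hc
    rw [this, R_mulVec h, h1, h2]
    simp

/-- The generated subgroup. -/
noncomputable def G₀ : Subgroup (G₁ F m) := ⨆ B ∈ lineFamily m (G₁ F m).subtype, B

/-- Its inclusion. -/
noncomputable def ρ₀ : ↥(G₀ F m) →* GL I F := (G₁ F m).subtype.comp (G₀ F m).subtype

theorem R_mem₀ {p r : I → F} (h : Ln Q₀ p r) (c : F) : R Q₀ p r c ∈ (ρ₀ F m).range := by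
  obtain ⟨g, hg⟩ := R_mem F m h c
  exact ⟨⟨g, (le_biSup (fun B : Subgroup (G₁ F m) => B)
    (show RT Q₀ (G₁ F m).subtype p r ∈ lineFamily m (G₁ F m).subtype from ⟨p, r, h, rfl⟩))
    ((mem_RT h).2 ⟨c, hg⟩)⟩, hg⟩

theorem image_eq : (fun A : Subgroup (G₁ F m) => A.subgroupOf (G₀ F m)) '' lineFamily m (G₁ F m).subtype =
    lineFamily m (ρ₀ F m) := by
  ext A
  constructor
  · rintro ⟨B, ⟨p, r, h, rfl⟩, rfl⟩
    exact ⟨p, r, h, rfl⟩
  · rintro ⟨p, r, h, rfl⟩
    exact ⟨_, ⟨p, r, h, rfl⟩, rfl⟩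

theorem main : IsKRootSubgroupSet F (lineFamily m (ρ₀ F m)) ∧
    IsConnectedFamily (FAdj (lineFamily m (G₁ F m).subtype)) (lineFamily m (G₁ F m).subtype) := by
  have hρ : Function.Injective (ρ₀ F m) := Subtype.val_injective.comp Subtype.val_injective
  refine ⟨kRoot m hρ (fun p r h c => R_mem₀ F m h c) ?_ fun g v => G₁_iso F m g.1 v,
    connected m Subtype.val_injective (fun p r h c => R_mem F m h c)⟩
  rw [eq_top_iff]
  intro g _
  have key : G₀ F m ≤ (⨆ A ∈ lineFamily m (ρ₀ F m), A).map (G₀ F m).subtype := by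
    refine iSup₂_le fun B hB => ?_
    obtain ⟨p, r, h, rfl⟩ := hB
    intro y hy
    have hyG : y ∈ G₀ F m := (le_biSup (fun B : Subgroup (G₁ F m) => B)
      (show RT Q₀ (G₁ F m).subtype p r ∈ lineFamily m (G₁ F m).subtype from ⟨p, r, h, rfl⟩)) hy
    exact ⟨⟨y, hyG⟩, (le_biSup (fun A : Subgroup ↥(G₀ F m) => A)
      (show RT Q₀ (ρ₀ F m) p r ∈ lineFamily m (ρ₀ F m) from ⟨p, r, h, rfl⟩)) hy, rfl⟩
  obtain ⟨y, hy, e⟩ := key g.2
  exact Subtype.val_injective e ▸ hy

end Cfsg.Agent.Lib.Root.Siegel
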