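import Cfsg.Agent.Lib.Root.TransvectionRoot
import Cfsg.Agent.Lib.Forms.SympStd

/-! The transvection subgroups of the symplectic group. -/

set_option autoImplicit false

namespace Cfsg.Agent.Lib.Root.Sp

open Matrix Cfsg.Agent.Lib.Forms Cfsg.Agent.Lib.Root

variable (F : Type*) [Field F] (m : ℕ)

local notation "V" => (Fin (m + 1) ⊕ Fin (m + 1) → F)
local notation "G₀" => Matrix.symplecticGroup (Fin (m + 1)) F

/-- The functional `x ↦ f(x, p)`. -/
def fn (p : V) : V := Matrix.J (Fin (m + 1)) F *ᵥ p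

theorem fn_dot (p x : V) : fn F m p ⬝ᵥ x = stdB (m + 1) F x p := by
  rw [stdB_apply, Cfsg.sympForm, fn, dotProduct_comm]

theorem fn_self (p : V) : fn F m p ⬝ᵥ p = 0 := by rw [fn_dot]; exact stdB_isAlt _ p

theorem fn_symm (p r : V) : fn F m p ⬝ᵥ r = - (fn F m r ⬝ᵥ p) := by
  rw [fn_dot, fn_dot]; exact ((stdB_isAlt _).neg_eq p r).symm

theorem fn_ne_zero {p : V} (hp : p ≠ 0) : fn F m p ≠ 0 := fun e =>
  hp ((stdB_nondegenerate (m + 1)).2 p fun x => by rw [← fn_dot, e, zero_dotProduct])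

theorem tv_mem (p : V) (c : F) : tv p (c • fn F m p) ∈ (spToGL (m + 1) F).range := by
  have e : tv p (c • fn F m p) = sympT (stdB (m + 1) F) p c := by
    apply gl_ext; intro x
    rw [sympT_mulVec (stdB_isAlt _), tv_mulVec (by simp [fn_self]), smul_dotProduct, fn_dot, smul_eq_mul]
  obtain ⟨A, hA⟩ := exists_spToGL_eq (e ▸ sympT_mem (stdB_isAlt (m + 1)) p c)
  exact ⟨A, hA⟩

/-- The transvection subgroup of the point `p`. -/
noncomputable def T (p : V) : Subgroup G₀ := Tsub (spToGL (m + 1) F) p (fn F m p)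

theorem T_eq (p : V) : Subgroup.closure {g : G₀ | ∃ c : F, ∀ v : V,
    (g : Matrix (Fin (m + 1) ⊕ Fin (m + 1)) (Fin (m + 1) ⊕ Fin (m + 1)) F) *ᵥ v =
      v + (c * (v ⬝ᵥ (Matrix.J (Fin (m + 1)) F *ᵥ p))) • p} = T F m p := by
  have key : ∀ (g : G₀) (c : F), spToGL (m + 1) F g = tv p (c • fn F m p) ↔ ∀ v : V,
      (g : Matrix (Fin (m + 1) ⊕ Fin (m + 1)) (Fin (m + 1) ⊕ Fin (m + 1)) F) *ᵥ v =
        v + (c * (v ⬝ᵥ (Matrix.J (Fin (m + 1)) F *ᵥ p))) • p := by
    intro g c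
    have hv : ∀ v : V, (tv p (c • fn F m p) : Matrix _ _ F) *ᵥ v =
        v + (c * (v ⬝ᵥ (Matrix.J (Fin (m + 1)) F *ᵥ p))) • p := fun v => by
      rw [tv_mulVec (by simp [fn_self]), smul_dotProduct, smul_eq_mul, dotProduct_comm]; rfl
    exact ⟨fun e v => by rw [← spToGL_val, e, hv], fun h => gl_ext fun v => by rw [spToGL_val, h, hv]⟩
  refine le_antisymm ((Subgroup.closure_le _).2 ?_) fun g hg => Subgroup.subset_closure ?_
  · rintro g ⟨c, hc⟩
    exact (mem_Tsub (fn_self F m p)).2 ⟨c, (key g c).2 hc⟩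
  · obtain ⟨c, hc⟩ := (mem_Tsub (fn_self F m p)).1 hg
    exact ⟨c, (key g c).1 hc⟩

/-- All transvection subgroups. -/
def family : Set (Subgroup G₀) := {A | ∃ p : V, p ≠ 0 ∧ A = T F m p}

theorem adj {p r : V} (h : fn F m p ⬝ᵥ r ≠ 0) : FAdj (family F m) (T F m p) (T F m r) := by
  refine ⟨⟨p, ?_, rfl⟩, ⟨r, ?_, rfl⟩, (Tsub_rankOne (spToGL_injective _) (fn_self F m p) (fn_self F m r) h
    (by rw [fn_symm, neg_ne_zero]; exact h) (tv_mem F m p) (tv_mem F m r)).1⟩
  · rintro rfl; simp [fn] at h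
  · rintro rfl; simp at h

theorem connected : IsConnectedFamily (FAdj (family F m)) (family F m) := by
  rintro A ⟨p, hp, rfl⟩ B ⟨r, hr, rfl⟩
  obtain ⟨z, hz1, hz2⟩ := exists_both_ne (fn_ne_zero F m hp) (fn_ne_zero F m hr)
  exact (Relation.ReflTransGen.single (adj F m hz1)).tail
    (adj F m (p := z) (r := r) (by rw [fn_symm, neg_ne_zero]; exact hz2))

theorem conj_family {A : Subgroup G₀} (hA : A ∈ family F m) (g : G₀) : conjBy A g ∈ family F m := by
  obtain ⟨p, hp, rfl⟩ := hA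
  set M := spToGL (m + 1) F g with hM
  refine ⟨(M : Matrix _ _ F) *ᵥ p, fun e => hp (gl_mulVec_injective M (e.trans (mulVec_zero _).symm)), ?_⟩
  rw [T, conjBy_Tsub (spToGL_injective _) (fn_self F m p) g, ← hM, T]
  congr 1
  refine dotProduct_eq _ _ fun x => ?_
  have hiso : M ∈ isoGroup (stdB (m + 1) F) := (mem_iso_stdB_iff _ _).2 g.2
  rw [← dotProduct_mulVec, fn_dot, fn_dot, ← mem_isoGroup.1 hiso, mulVec_inv_mulVec]

theorem pair (A B : Subgroup G₀) (hA : A ∈ family F m) (hB : B ∈ family F m) :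
    ⁅A, B⁆ = ⊥ ∨ (IsRankOnePair A B ∧ IsPSL2PairOver F A B ∧ ∀ S, ¬ RootCommutatorCase S A B) := by
  obtain ⟨p, hp, rfl⟩ := hA
  obtain ⟨r, hr, rfl⟩ := hB
  by_cases h : fn F m p ⬝ᵥ r = 0
  · exact Or.inl (Tsub_comm (spToGL_injective _) (fn_self F m p) (fn_self F m r) h (by rw [fn_symm, h, neg_zero]))
  · exact Or.inr (Tsub_rankOne (spToGL_injective _) (fn_self F m p) (fn_self F m r) h
      (by rw [fn_symm, neg_ne_zero]; exact h) (tv_mem F m p) (tv_mem F m r))

theorem ne_bot {A : Subgroup G₀} (hA : A ∈ family F m) : A ≠ ⊥ := by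
  obtain ⟨p, hp, rfl⟩ := hA
  exact Tsub_ne_bot (fn_self F m p) hp (fn_ne_zero F m hp) (tv_mem F m p)

theorem generates : (⨆ A ∈ family F m, A) = ⊤ := by
  rw [eq_top_iff]
  intro g _
  have h := isoGroup_le_of_sympT (stdB_isAlt (m + 1))
    ((⨆ A ∈ family F m, A).map (spToGL (m + 1) F)) (stdB_nondegenerate (m + 1)) (fun p c => ?_)
  · obtain ⟨g', hg', e⟩ := h ((mem_iso_stdB_iff (m + 1) (spToGL (m + 1) F g)).2 g.2)
    exact spToGL_injective _ e ▸ hg'
  · by_cases hp : p = 0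
    · have : sympT (stdB (m + 1) F) p c = 1 := gl_ext fun x => by
        simp [sympT_mulVec (stdB_isAlt (m + 1)), hp]
      rw [this]; exact one_mem _
    obtain ⟨t, ht⟩ := tv_mem F m p c
    refine ⟨t, (le_biSup (fun A : Subgroup G₀ => A) (show T F m p ∈ family F m from ⟨p, hp, rfl⟩))
      ((mem_Tsub (fn_self F m p)).2 ⟨c, ht⟩), ht.trans (gl_ext fun x => ?_)⟩
    rw [sympT_mulVec (stdB_isAlt _), tv_mulVec (by simp [fn_self]), smul_dotProduct, fn_dot, smul_eq_mul]

theorem main : IsRootSubgroupClass (family F m) ∧ IsDegenerateRootSet (family F m) ∧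
    IsKRootSubgroupSet F (family F m) ∧ IsConnectedFamily (FAdj (family F m)) (family F m) := by
  have hset : IsRootSubgroupSet (family F m) :=
    { commutative := by rintro A ⟨p, hp, rfl⟩; exact Tsub_commutative (spToGL_injective _) (fn_self F m p)
      ne_bot := fun A hA => ne_bot F m hA
      generates := generates F m
      conj_mem := fun A hA g => conj_family F m hA g
      pair := fun A hA B hB => (pair F m A B hA hB).imp id (fun h => Or.inl h.1) }
  refine ⟨⟨hset, ⟨T F m (Pi.single (Sum.inl 0) 1), _, by simp, rfl⟩, conj_of_connected (connected F m)⟩,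
    fun A hA B hB hc => ?_, ⟨hset, fun A hA B hB hR => ?_⟩, connected F m⟩
  · rcases pair F m A B hA hB with h | h
    · exact ne_bot F m hc.1 h
    · exact h.2.2 _ hc
  · rcases pair F m A B hA hB with h | h
    · obtain ⟨x, hx, hx1⟩ := exists_left hR
      exact absurd (eq_one_of_normalizes hR hx (conjBy_eq_self_of_comm' h hx)) hx1
    · exact h.2.1

end Cfsg.Agent.Lib.Root.Sp
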