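import Cfsg.Agent.Lib.Root.RankOne
import Cfsg.Prelude.Def_Transfer

/-! Special rank one groups with abelian unipotent subgroups. -/
set_option autoImplicit false

namespace Cfsg.Agent.Lib.Root

variable {X : Type*} [Group X] {A B : Subgroup X}

theorem unipotent_inter (h : IsRankOnePair A B) (hA : IsMulCommutative A) {D : Subgroup X}
    (hD : D ∈ unipotentSubgroups A B) {z : X} (hzA : z ∈ A) (hzD : z ∈ D) (hz : z ≠ 1) : D = A := by
  by_contra hne
  have hp := (unipotent_pair h left_mem_unipotent hD (Ne.symm hne)).1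
  exact hz (eq_one_of_normalizes hp hzA (conjBy_eq_self_of_mem hzD))

/-- `b(a⁻¹) = b(a)⁻¹`. -/
theorem special_inv (hs : IsSpecialRankOnePair A B) (hA : IsMulCommutative A) {a b : X} (ha : a ∈ A) (ha1 : a ≠ 1)
    (hb : b ∈ B) (hb1 : b ≠ 1) (e : conjBy A b⁻¹ = conjBy B a⁻¹) : conjBy A b = conjBy B a := by
  obtain ⟨h, hsp⟩ := hs
  have k := hsp a ha ha1 b hb hb1 e
  set w := b⁻¹ * a * b⁻¹ with hw
  have hwb : w * b * w⁻¹ = a⁻¹ := by
    calc w * b * w⁻¹ = b⁻¹ * (a * (b * a⁻¹ * b)) := by rw [hw]; group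
      _ = b⁻¹ * (a * ((b⁻¹ * a * b⁻¹)⁻¹)) := by group
      _ = _ := by
        have k2 : a * b⁻¹ * a = b⁻¹ * a * b⁻¹ := by
          calc a * b⁻¹ * a = a * a * (a⁻¹ * b⁻¹ * a) := by group
            _ = a * a * (b⁻¹ * a * b) := by rw [k]
            _ = _ := by
              have : b⁻¹ * a = a * b⁻¹ * a * b := by
                calc b⁻¹ * a = a * (a⁻¹ * b⁻¹ * a) := by group
                  _ = a * (b⁻¹ * a * b) := by rw [k]
                  _ = _ := by group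
              calc a * a * (b⁻¹ * a * b) = a * (a * b⁻¹ * a * b) := by group
                _ = a * (b⁻¹ * a) := by rw [← this]
                _ = (a * b⁻¹ * a * b) * b⁻¹ := by group
                _ = _ := by rw [← this]
        rw [← k2]; group
  have hD : conjBy B w = A := by
    refine unipotent_inter h hA (conjBy_mem_unipotent (right_mem_unipotent h) ?_) (inv_mem ha) ?_ (inv_ne_one.mpr ha1)
    · exact mul_mem (mul_mem (inv_mem (Subgroup.mem_sup_right hb)) (Subgroup.mem_sup_left ha))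
        (inv_mem (Subgroup.mem_sup_right hb))
    · rw [← hwb]; exact conj_mem_conjBy w hb
  rw [hw, ← conjBy_mul, ← conjBy_mul, conjBy_eq_self_of_mem (inv_mem hb), conjBy_eq_iff, inv_inv] at hD
  exact hD.symm

/-- `b(aⁿ)ⁿ = b(a)`. -/
theorem special_pow (hs : IsSpecialRankOnePair A B) (hA : IsMulCommutative A) (hB : IsMulCommutative B) (n : ℕ) :
    ∀ a ∈ A, ∀ b ∈ B, ∀ c ∈ B, a ^ n ≠ 1 → conjBy A b⁻¹ = conjBy B a⁻¹ →
      conjBy A c⁻¹ = conjBy B (a ^ n)⁻¹ → c ^ n = b := by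
  induction n with
  | zero => intro a _ b _ c _ h; simp at h
  | succ k ih =>
    intro a ha b hb c hc hpow e ec
    obtain ⟨h, hsp⟩ := hs
    have ha1 : a ≠ 1 := fun h1 => hpow (by rw [h1, one_pow])
    have hb1 : b ≠ 1 := fun h1 => conjBy_right_ne h (inv_mem ha) (by rw [← e, h1, inv_one, conjBy_one])
    have hsab := hsp a ha ha1 b hb hb1 e
    let θ : X →* X := (MulAut.conj (b * a⁻¹)).toMonoidHom
    have hθA : ∀ y ∈ B, θ y ∈ A := by
      intro y hy
      have h1 : a⁻¹ * y * a⁻¹⁻¹ ∈ conjBy A b⁻¹ := e ▸ conj_mem_conjBy a⁻¹ hy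
      rw [mem_conjBy] at h1
      simpa [θ, mul_assoc] using h1
    have hθb : θ b = a⁻¹ := by
      show (b * a⁻¹) * b * (b * a⁻¹)⁻¹ = a⁻¹
      calc (b * a⁻¹) * b * (b * a⁻¹)⁻¹ = b * (a⁻¹ * b⁻¹ * a)⁻¹ * b⁻¹ := by group
        _ = b * (b⁻¹ * a * b)⁻¹ * b⁻¹ := by rw [hsab]
        _ = _ := by group
    rcases eq_or_ne (a ^ k) 1 with hk | hk
    · have hak : a ^ (k + 1) = a := by rw [pow_succ, hk, one_mul]
      rw [hak] at ec
      have hcb : c = b := partner_unique h hc hb (ec.trans e.symm)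
      have hbk : b ^ k = 1 := (MulAut.conj (b * a⁻¹)).injective (by
        show θ (b ^ k) = θ 1
        rw [map_pow, hθb, map_one, inv_pow, hk, inv_one])
      rw [hcb, pow_succ, hbk, one_mul]
    obtain ⟨d, hd, hd1, ed⟩ := h.cond_left _ (A.pow_mem ha k) hk
    have hdk : d ^ k = b := ih a ha b hb d hd hk e ed
    set x := θ d with hx
    have hxA : x ∈ A := hθA d hd
    set y := a⁻¹ * x with hy
    have hax : Commute a x := congrArg Subtype.val (hA.is_comm.comm ⟨a, ha⟩ ⟨x, hxA⟩)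
    have hyk : y ^ k = (a ^ (k + 1))⁻¹ := by
      rw [hy, (hax.inv_left).mul_pow, hx, ← map_pow, hdk, hθb, ← pow_succ, inv_pow]
    have hcomm2 : a * a ^ k = a ^ (k + 1) := (pow_succ' a k).symm
    have ey : conjBy A (c * b⁻¹)⁻¹ = conjBy B y⁻¹ := by
      have hinv := special_inv ⟨h, hsp⟩ hA ha ha1 hb hb1 e
      have hxb : a⁻¹ * d⁻¹ = b⁻¹ * x⁻¹ * b * a⁻¹ := by
        show _ = b⁻¹ * ((b * a⁻¹) * d * (b * a⁻¹)⁻¹)⁻¹ * b * a⁻¹
        group
      have h1 : conjBy A c⁻¹ = conjBy A (b⁻¹ * x⁻¹ * b) := by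
        rw [ec, ← hcomm2, mul_inv_rev]
        have : (a ^ k)⁻¹ * a⁻¹ = a⁻¹ * (a ^ k)⁻¹ :=
          ((Commute.pow_self a k).inv_inv).eq
        rw [this, ← conjBy_mul, ← ed, conjBy_mul, hxb, ← conjBy_mul _ a⁻¹, conjBy_eq_self_of_mem (inv_mem ha)]
      have h2 : conjBy A (b * c⁻¹) = conjBy A (x⁻¹ * b) := by
        rw [← conjBy_mul, h1, conjBy_mul]; congr 1; group
      rw [mul_inv_rev, inv_inv, h2, ← conjBy_mul, hinv, conjBy_mul, hy, mul_inv_rev, inv_inv]
    have hyA : y ∈ A := mul_mem (inv_mem ha) hxA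
    have hyk1 : y ^ k ≠ 1 := by rw [hyk]; simpa using hpow
    have hc1 : c ≠ 1 := fun h1 =>
      conjBy_right_ne h (inv_mem (A.pow_mem ha (k + 1))) (by rw [← ec, h1, inv_one, conjBy_one])
    have ec' : conjBy A c⁻¹⁻¹ = conjBy B (y ^ k)⁻¹ := by
      rw [inv_inv, hyk, inv_inv]; exact special_inv ⟨h, hsp⟩ hA (A.pow_mem ha _) hpow hc hc1 ec
    have hk2 := ih y hyA (c * b⁻¹) (mul_mem hc (inv_mem hb)) c⁻¹ (inv_mem hc) hyk1 ey ec'
    rw [inv_pow] at hk2
    have hcb : Commute c b := congrArg Subtype.val (hB.is_comm.comm ⟨c, hc⟩ ⟨b, hb⟩)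
    have h3 : c ^ k * (c * b⁻¹) = 1 := by rw [← hk2, mul_inv_cancel]
    rw [pow_succ, ← mul_inv_eq_one, mul_assoc]; exact h3

theorem special_dichotomy (hs : IsSpecialRankOnePair A B) (hA : IsMulCommutative A) (hB : IsMulCommutative B) :
    (∃ p : ℕ, p.Prime ∧ IsElementaryAbelian p A) ∨
    ((∀ a ∈ A, a ≠ 1 → ¬ IsOfFinOrder a) ∧ ∀ a ∈ A, ∀ n : ℕ, 0 < n → ∃ c ∈ A, c ^ n = a) := by
  have h := hs.1
  by_cases ht : ∀ a ∈ A, a ≠ 1 → ¬ IsOfFinOrder a
  · refine Or.inr ⟨ht, fun a ha n hn => ?_⟩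
    obtain ⟨x, -, e⟩ := right_mem_unipotent (RankOnePair_symm h)
    have ha' : x⁻¹ * a * x ∈ B := by rw [← mem_conjBy, ← e]; exact ha
    rcases eq_or_ne (x⁻¹ * a * x) 1 with h1 | h1
    · have : a = 1 := by
        have := congrArg (fun t => x * t * x⁻¹) h1
        simpa [mul_assoc] using this
      exact ⟨1, one_mem _, by rw [one_pow, this]⟩
    obtain ⟨u, hu, hu1, eu⟩ := h.cond_right _ ha' h1
    have hun : u ^ n ≠ 1 := fun he => ht u hu hu1 (isOfFinOrder_iff_pow_eq_one.mpr ⟨n, hn, he⟩)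
    obtain ⟨c, hc, -, ec⟩ := h.cond_left _ (A.pow_mem hu n) hun
    have hcn := special_pow hs hA hB n u hu _ ha' c hc hun eu.symm ec
    refine ⟨x * c * x⁻¹, by rw [e]; exact conj_mem_conjBy x hc, ?_⟩
    rw [← MulAut.conj_apply, ← map_pow, hcn, MulAut.conj_apply]; group
  · push_neg at ht
    obtain ⟨a₀, ha₀, ha₀1, hfin⟩ := ht
    set p := (orderOf a₀).minFac
    have hpp : p.Prime := Nat.minFac_prime (fun e => ha₀1 (orderOf_eq_one_iff.mp e))
    obtain ⟨k, hk⟩ : p ∣ orderOf a₀ := Nat.minFac_dvd _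
    set a := a₀ ^ k with hadef
    have ha : a ∈ A := A.pow_mem ha₀ k
    have hap : a ^ p = 1 := by rw [hadef, ← pow_mul, mul_comm, ← hk]; exact pow_orderOf_eq_one _
    have ha1 : a ≠ 1 := by
      intro e
      have hk0 : 0 < k := pos_of_mul_pos_right (hk ▸ hfin.orderOf_pos) (Nat.zero_le p)
      have := orderOf_le_of_pow_eq_one hk0 e
      have h2 := hpp.two_le
      nlinarith
    refine Or.inl ⟨p, hpp, hA, fun u hu => ?_⟩
    by_contra hup
    have hua : (u * a) ^ p = u ^ p := by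
      have : Commute u a := congrArg Subtype.val (hA.is_comm.comm ⟨u, hu⟩ ⟨a, ha⟩)
      rw [this.mul_pow, hap, mul_one]
    have hu1 : u ≠ 1 := fun e => hup (by rw [e, one_pow])
    have hua1 : u * a ≠ 1 := fun e => hup (by rw [← hua, e, one_pow])
    obtain ⟨c, hc, -, ec⟩ := h.cond_left _ (A.pow_mem hu p) hup
    obtain ⟨b, hb, -, eb⟩ := h.cond_left _ hu hu1
    obtain ⟨b', hb', -, eb'⟩ := h.cond_left _ (mul_mem hu ha) hua1
    have h1 := special_pow hs hA hB p u hu b hb c hc hup eb ec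
    have h2 := special_pow hs hA hB p (u * a) (mul_mem hu ha) b' hb' c hc (hua ▸ hup) eb' (hua.symm ▸ ec)
    rw [← h1, h2] at eb
    exact ha1 (by simpa using partner_unique' h hu (mul_mem hu ha) (eb.symm.trans eb'))

end Cfsg.Agent.Lib.Root
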