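import Cfsg.Agent.Lib.Root.SLTwoImage
import Cfsg.Agent.Lib.Forms.Transvection

/-! Transvection subgroups of a linear group as candidates for root subgroups. -/

set_option autoImplicit false

namespace Cfsg.Agent.Lib.Root

open Matrix Cfsg.Agent.Lib.Forms
open Cfsg.Agent.S5016 (up low coe_up coe_low mem_up mem_low)

variable {ι : Type} [Fintype ι] [DecidableEq ι] {F : Type*} [Field F] {G : Type*} [Group G]

/-- The transvections `1 + c φ a`, `c ∈ F`. -/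
noncomputable def tvLine (a φ : ι → F) : Subgroup (GL ι F) where
  carrier := {g | φ ⬝ᵥ a = 0 ∧ ∃ c : F, g = tv a (c • φ)} ∪ {1}
  one_mem' := Or.inr rfl
  mul_mem' := by
    rintro x y (⟨h, c, rfl⟩ | rfl) hy
    · rcases hy with ⟨-, d, rfl⟩ | rfl
      · exact Or.inl ⟨h, c + d, by
          rw [tv_add (by simp [h]) (by simp [h]), add_smul]⟩
      · rw [mul_one]; exact Or.inl ⟨h, c, rfl⟩
    · rw [one_mul]; exact hy
  inv_mem' := by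
    rintro x (⟨h, c, rfl⟩ | rfl)
    · exact Or.inl ⟨h, -c, by rw [tv_inv (by simp [h]), neg_smul]⟩
    · rw [_root_.inv_one]; exact Or.inr rfl

theorem mem_tvLine {a φ : ι → F} (h : φ ⬝ᵥ a = 0) {g : GL ι F} :
    g ∈ tvLine a φ ↔ ∃ c : F, g = tv a (c • φ) := by
  refine ⟨?_, fun hc => Or.inl ⟨h, hc⟩⟩
  rintro (⟨-, hc⟩ | rfl)
  · exact hc
  · exact ⟨0, by rw [zero_smul, tv_zero_right]⟩

variable (ρ : G →* GL ι F)

/-- The transvection subgroup of `(a, φ)` in a linear group. -/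
noncomputable def Tsub (a φ : ι → F) : Subgroup G := (tvLine a φ).comap ρ

variable {ρ}

theorem mem_Tsub {a φ : ι → F} (h : φ ⬝ᵥ a = 0) {g : G} :
    g ∈ Tsub ρ a φ ↔ ∃ c : F, ρ g = tv a (c • φ) := mem_tvLine h

theorem Tsub_smul {a φ : ι → F} (h : φ ⬝ᵥ a = 0) {s : F} (hs : s ≠ 0) :
    Tsub ρ a (s • φ) = Tsub ρ a φ := by
  ext g
  rw [mem_Tsub h, mem_Tsub (by simp [h])]
  constructor
  · rintro ⟨c, hc⟩; exact ⟨c * s, by rw [hc, smul_smul]⟩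
  · rintro ⟨c, hc⟩; exact ⟨c * s⁻¹, by rw [hc, smul_smul, mul_assoc, inv_mul_cancel₀ hs, mul_one]⟩

theorem Tsub_smul_center {a φ : ι → F} (h : φ ⬝ᵥ a = 0) {s : F} (hs : s ≠ 0) :
    Tsub ρ (s • a) φ = Tsub ρ a φ := by
  refine Eq.trans ?_ (Tsub_smul h hs)
  ext g
  rw [mem_Tsub (by simp [h]), mem_Tsub (by simp [h])]
  refine exists_congr fun c => ?_
  rw [tv_smul_center s (show (c • φ) ⬝ᵥ a = 0 by simp [h]), smul_comm s c φ]

theorem tv_commute {a φ b ψ : ι → F} (hφ : φ ⬝ᵥ a = 0) (hψ : ψ ⬝ᵥ b = 0) (h1 : φ ⬝ᵥ b = 0)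
    (h2 : ψ ⬝ᵥ a = 0) : tv a φ * tv b ψ = tv b ψ * tv a φ := by
  rw [← mul_inv_eq_iff_eq_mul, tv_conj_tv hφ hψ, h1, h2]
  simp

theorem tv_ne_one {a φ : ι → F} (h : φ ⬝ᵥ a = 0) (ha : a ≠ 0) (hφ : φ ≠ 0) : tv a φ ≠ 1 := by
  obtain ⟨x, hx⟩ : ∃ x, φ ⬝ᵥ x ≠ 0 := by
    by_contra hc
    push Not at hc
    exact hφ (dotProduct_eq_zero φ hc)
  intro e
  have h1 := tv_mulVec h x
  rw [e, Units.val_one, one_mulVec, left_eq_add, smul_eq_zero] at h1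
  exact h1.elim hx ha

theorem Tsub_commutative (hρ : Function.Injective ρ) {a φ : ι → F} (h : φ ⬝ᵥ a = 0) :
    IsMulCommutative (Tsub ρ a φ) := ⟨⟨fun x y => by
  obtain ⟨c, hc⟩ := (mem_Tsub h).1 x.2
  obtain ⟨d, hd⟩ := (mem_Tsub h).1 y.2
  apply Subtype.ext
  apply hρ
  simp only [Subgroup.coe_mul, map_mul, hc, hd]
  exact tv_commute (by simp [h]) (by simp [h]) (by simp [h]) (by simp [h])⟩⟩

theorem exists_mem_Tsub {a φ : ι → F} (h : φ ⬝ᵥ a = 0) (hmem : ∀ c : F, tv a (c • φ) ∈ ρ.range) (c : F) :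
    ∃ g ∈ Tsub ρ a φ, ρ g = tv a (c • φ) := by
  obtain ⟨g, hg⟩ := hmem c
  exact ⟨g, (mem_Tsub h).2 ⟨c, hg⟩, hg⟩

theorem Tsub_ne_bot {a φ : ι → F} (h : φ ⬝ᵥ a = 0) (ha : a ≠ 0) (hφ : φ ≠ 0)
    (hmem : ∀ c : F, tv a (c • φ) ∈ ρ.range) : Tsub ρ a φ ≠ ⊥ := by
  intro e
  obtain ⟨g, hg, hge⟩ := exists_mem_Tsub h hmem 1
  rw [e, Subgroup.mem_bot] at hg
  rw [hg, map_one, one_smul] at hge
  exact tv_ne_one h ha hφ hge.symm

/-- The centre of a transvection subgroup is determined up to a scalar. -/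
theorem Tsub_center_eq {a φ b ψ : ι → F} (h : φ ⬝ᵥ a = 0) (hψ : ψ ⬝ᵥ b = 0) (ha : a ≠ 0) (hφ : φ ≠ 0)
    (hmem : ∀ c : F, tv a (c • φ) ∈ ρ.range) (e : Tsub ρ a φ = Tsub ρ b ψ) :
    ∃ s : F, s ≠ 0 ∧ a = s • b := by
  obtain ⟨g, hg, hge⟩ := exists_mem_Tsub h hmem 1
  rw [e, mem_Tsub hψ] at hg
  obtain ⟨c, hc⟩ := hg
  rw [hge, one_smul] at hc
  obtain ⟨x, hx⟩ : ∃ x, φ ⬝ᵥ x ≠ 0 := by
    by_contra hc'
    push Not at hc'
    exact hφ (dotProduct_eq_zero φ hc')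
  have h1 := congrArg (fun t : GL ι F => (t : Matrix ι ι F) *ᵥ x) hc
  simp only [tv_mulVec h, tv_mulVec (show (c • ψ) ⬝ᵥ b = 0 by simp [hψ]), add_right_inj] at h1
  have h2 : a = ((φ ⬝ᵥ x)⁻¹ * ((c • ψ) ⬝ᵥ x)) • b := by
    rw [mul_smul, ← h1, smul_smul, inv_mul_cancel₀ hx, one_smul]
  exact ⟨_, fun h0 => ha (by rw [h2, h0, zero_smul]), h2⟩

theorem conjBy_Tsub (hρ : Function.Injective ρ) {a φ : ι → F} (h : φ ⬝ᵥ a = 0) (g : G) :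
    conjBy (Tsub ρ a φ) g =
      Tsub ρ ((ρ g : Matrix ι ι F) *ᵥ a) (φ ᵥ* ((ρ g)⁻¹ : GL ι F)) := by
  have h' : (φ ᵥ* ((ρ g)⁻¹ : GL ι F)) ⬝ᵥ ((ρ g : Matrix ι ι F) *ᵥ a) = 0 := by rw [vecMul_inv_dot, h]
  ext z
  rw [mem_conjBy, mem_Tsub h, mem_Tsub h']
  refine exists_congr fun c => ?_
  rw [map_mul, map_mul, map_inv, ← smul_vecMul, ← tv_conj _ (show (c • φ) ⬝ᵥ a = 0 by simp [h])]
  constructor
  · intro e; rw [← e]; group
  · intro e; rw [e]; group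

theorem Tsub_comm (hρ : Function.Injective ρ) {a φ b ψ : ι → F} (h : φ ⬝ᵥ a = 0) (hψ : ψ ⬝ᵥ b = 0)
    (h1 : φ ⬝ᵥ b = 0) (h2 : ψ ⬝ᵥ a = 0) : ⁅Tsub ρ a φ, Tsub ρ b ψ⁆ = ⊥ := by
  rw [Subgroup.commutator_eq_bot_iff_le_centralizer]
  intro x hx
  rw [Subgroup.mem_centralizer_iff]
  intro y hy
  obtain ⟨c, hc⟩ := (mem_Tsub h).1 hx
  obtain ⟨d, hd⟩ := (mem_Tsub hψ).1 hy
  apply hρ
  rw [map_mul, map_mul, hc, hd]
  exact tv_commute (by simp [hψ]) (by simp [h]) (by simp [h2]) (by simp [h1])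

section Embedding

variable (a b φ ψ : ι → F)

/-- The matrix of `g ∈ SL₂` on `⟨a, b⟩`, the identity on `ker φ ∩ ker ψ`. -/
def embMat (M : Matrix (Fin 2) (Fin 2) F) : Matrix ι ι F :=
  1 + vecMulVec a ((M 0 0 - 1) • ψ + M 0 1 • φ) + vecMulVec b (M 1 0 • ψ + (M 1 1 - 1) • φ)

variable {a b φ ψ}

theorem embMat_mul (h1 : ψ ⬝ᵥ a = 1) (h2 : φ ⬝ᵥ b = 1) (h3 : φ ⬝ᵥ a = 0) (h4 : ψ ⬝ᵥ b = 0)
    (M N : Matrix (Fin 2) (Fin 2) F) :
    embMat a b φ ψ M * embMat a b φ ψ N = embMat a b φ ψ (M * N) := by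
  apply Matrix.ext_iff_mulVec.2
  intro x
  rw [← mulVec_mulVec]
  simp only [embMat, add_mulVec, one_mulVec, vecMulVec_mulVec, op_smul_eq_smul, mulVec_add, mulVec_smul,
    add_dotProduct, smul_dotProduct, dotProduct_add, dotProduct_smul, h1, h2, h3, h4, smul_eq_mul,
    Matrix.mul_apply, Fin.sum_univ_two]
  module

theorem embMat_one : embMat a b φ ψ 1 = 1 := by simp [embMat]

/-- The embedding of `SL₂` in `GL ι F` on the plane `⟨a, b⟩`. -/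
noncomputable def emb (h1 : ψ ⬝ᵥ a = 1) (h2 : φ ⬝ᵥ b = 1) (h3 : φ ⬝ᵥ a = 0) (h4 : ψ ⬝ᵥ b = 0) :
    Matrix.SpecialLinearGroup (Fin 2) F →* GL ι F :=
  MonoidHom.toHomUnits
    { toFun := fun g => embMat a b φ ψ (g : Matrix (Fin 2) (Fin 2) F)
      map_one' := by rw [Matrix.SpecialLinearGroup.coe_one, embMat_one]
      map_mul' := fun g g' => by rw [Matrix.SpecialLinearGroup.coe_mul, embMat_mul h1 h2 h3 h4] }

variable (h1 : ψ ⬝ᵥ a = 1) (h2 : φ ⬝ᵥ b = 1) (h3 : φ ⬝ᵥ a = 0) (h4 : ψ ⬝ᵥ b = 0)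
include h1 h2 h3 h4

theorem emb_mulVec (g : Matrix.SpecialLinearGroup (Fin 2) F) (x : ι → F) :
    (emb h1 h2 h3 h4 g : Matrix ι ι F) *ᵥ x =
      x + ((((g : Matrix (Fin 2) (Fin 2) F) 0 0 - 1) * (ψ ⬝ᵥ x) + (g : Matrix (Fin 2) (Fin 2) F) 0 1 * (φ ⬝ᵥ x))) • a +
        ((g : Matrix (Fin 2) (Fin 2) F) 1 0 * (ψ ⬝ᵥ x) + ((g : Matrix (Fin 2) (Fin 2) F) 1 1 - 1) * (φ ⬝ᵥ x)) • b := by
  show embMat a b φ ψ _ *ᵥ x = _
  simp only [embMat, add_mulVec, one_mulVec, vecMulVec_mulVec, op_smul_eq_smul, add_dotProduct, smul_dotProduct, smul_eq_mul]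

theorem emb_up (t : F) : emb h1 h2 h3 h4 (up F t) = tv a (t • φ) := by
  apply gl_ext; intro x
  rw [emb_mulVec, tv_mulVec (by simp [h3])]
  simp [coe_up]

theorem emb_low (t : F) : emb h1 h2 h3 h4 (low F t) = tv b (t • ψ) := by
  apply gl_ext; intro x
  rw [emb_mulVec, tv_mulVec (by simp [h4])]
  simp [coe_low]

theorem emb_injective : Function.Injective (emb h1 h2 h3 h4) := by
  intro g g' e
  have ha := congrArg (fun M : GL ι F => (M : Matrix ι ι F) *ᵥ a) e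
  have hb := congrArg (fun M : GL ι F => (M : Matrix ι ι F) *ᵥ b) e
  simp only [emb_mulVec, h1, h2, h3, h4, mul_one, mul_zero, add_zero, zero_add] at ha hb
  have a0 := congrArg (fun v => ψ ⬝ᵥ v) ha
  have a1 := congrArg (fun v => φ ⬝ᵥ v) ha
  have b0 := congrArg (fun v => ψ ⬝ᵥ v) hb
  have b1 := congrArg (fun v => φ ⬝ᵥ v) hb
  simp [dotProduct_add, dotProduct_smul, h1, h2, h3, h4] at a0 a1 b0 b1
  apply Subtype.ext
  ext i j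
  fin_cases i <;> fin_cases j <;> assumption

end Embedding

theorem exists_sl2_hom (hρ : Function.Injective ρ) {a φ b ψ : ι → F}
    (h1 : ψ ⬝ᵥ a = 1) (h2 : φ ⬝ᵥ b = 1) (h3 : φ ⬝ᵥ a = 0) (h4 : ψ ⬝ᵥ b = 0)
    (hA : ∀ c : F, tv a (c • φ) ∈ ρ.range) (hB : ∀ c : F, tv b (c • ψ) ∈ ρ.range) :
    ∃ Φ : Matrix.SpecialLinearGroup (Fin 2) F →* G, Φ.ker ≤ Subgroup.center _ ∧
      (∀ t, ρ (Φ (up F t)) = tv a (t • φ)) ∧ (∀ t, ρ (Φ (low F t)) = tv b (t • ψ)) ∧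
      (upperUnipotentSL2 F).map Φ = Tsub ρ a φ ∧ (lowerUnipotentSL2 F).map Φ = Tsub ρ b ψ := by
  set E := emb h1 h2 h3 h4 with hE
  have hr : ∀ g, E g ∈ ρ.range := by
    intro g
    have : upperUnipotentSL2 F ⊔ lowerUnipotentSL2 F ≤ ρ.range.comap E := by
      refine sup_le ?_ ?_ <;> intro x hx
      · obtain ⟨t, rfl⟩ := (mem_up F x).1 hx
        rw [Subgroup.mem_comap, hE, emb_up]; exact hA t
      · obtain ⟨t, rfl⟩ := (mem_low F x).1 hx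
        rw [Subgroup.mem_comap, hE, emb_low]; exact hB t
    rw [upper_sup_lower] at this
    exact this (Subgroup.mem_top g)
  let e := MonoidHom.ofInjective hρ
  let Φ : Matrix.SpecialLinearGroup (Fin 2) F →* G :=
    e.symm.toMonoidHom.comp (E.codRestrict ρ.range hr)
  have hΦ : ∀ g, ρ (Φ g) = E g := fun g => by
    have := e.apply_symm_apply ⟨E g, hr g⟩
    exact congrArg Subtype.val this
  have hu : ∀ t, ρ (Φ (up F t)) = tv a (t • φ) := fun t => (hΦ _).trans (emb_up h1 h2 h3 h4 t)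
  have hl : ∀ t, ρ (Φ (low F t)) = tv b (t • ψ) := fun t => (hΦ _).trans (emb_low h1 h2 h3 h4 t)
  refine ⟨Φ, ?_, hu, hl, ?_, ?_⟩
  · intro g hg
    have : E g = E 1 := by rw [← hΦ, hg, map_one, map_one]
    rw [emb_injective h1 h2 h3 h4 this]
    exact one_mem _
  · ext z
    rw [mem_Tsub h3]
    constructor
    · rintro ⟨x, hx, rfl⟩
      obtain ⟨t, rfl⟩ := (mem_up F x).1 hx
      exact ⟨t, hu t⟩
    · rintro ⟨c, hc⟩
      exact ⟨up F c, (mem_up F _).2 ⟨c, rfl⟩, hρ ((hu c).trans hc.symm)⟩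
  · ext z
    rw [mem_Tsub h4]
    constructor
    · rintro ⟨x, hx, rfl⟩
      obtain ⟨t, rfl⟩ := (mem_low F x).1 hx
      exact ⟨t, hl t⟩
    · rintro ⟨c, hc⟩
      exact ⟨low F c, (mem_low F _).2 ⟨c, rfl⟩, hρ ((hl c).trans hc.symm)⟩

theorem Tsub_rankOne (hρ : Function.Injective ρ) {a φ b ψ : ι → F} (h : φ ⬝ᵥ a = 0) (hψ : ψ ⬝ᵥ b = 0)
    (h1 : φ ⬝ᵥ b ≠ 0) (h2 : ψ ⬝ᵥ a ≠ 0)
    (hA : ∀ c : F, tv a (c • φ) ∈ ρ.range) (hB : ∀ c : F, tv b (c • ψ) ∈ ρ.range) :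
    IsRankOnePair (Tsub ρ a φ) (Tsub ρ b ψ) ∧ IsPSL2PairOver F (Tsub ρ a φ) (Tsub ρ b ψ) ∧
      ∀ S : Set (Subgroup G), ¬ RootCommutatorCase S (Tsub ρ a φ) (Tsub ρ b ψ) := by
  obtain ⟨Φ, hker, -, -, eA, eB⟩ := exists_sl2_hom hρ (a := a) (φ := (φ ⬝ᵥ b)⁻¹ • φ) (b := b)
    (ψ := (ψ ⬝ᵥ a)⁻¹ • ψ) (by simp [h2]) (by simp [h1]) (by simp [h]) (by simp [hψ])
    (fun c => by rw [smul_smul]; exact hA _) (fun c => by rw [smul_smul]; exact hB _)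
  rw [Tsub_smul h (inv_ne_zero h1)] at eA
  rw [Tsub_smul hψ (inv_ne_zero h2)] at eB
  rw [← eA, ← eB]
  exact ⟨isRankOnePair_map hker, isPSL2PairOver_map hker, fun S => not_rootCommutatorCase_map S hker⟩

theorem conjBy_Tsub_by {a φ b ψ : ι → F} (hρ : Function.Injective ρ) (h : φ ⬝ᵥ a = 0) (hψ : ψ ⬝ᵥ b = 0)
    {g : G} {c : F} (hg : ρ g = tv b (c • ψ)) :
    conjBy (Tsub ρ a φ) g = Tsub ρ (a + (c * (ψ ⬝ᵥ a)) • b) (φ - (c * (φ ⬝ᵥ b)) • ψ) := by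
  rw [conjBy_Tsub hρ h, hg]
  congr 1
  · rw [tv_mulVec (by simp [hψ]), smul_dotProduct, smul_eq_mul]
  · rw [tv_inv (by simp [hψ])]
    refine dotProduct_eq _ _ fun x => ?_
    rw [← dotProduct_mulVec, tv_mulVec (by simp [hψ])]
    simp [dotProduct_add, sub_dotProduct, smul_dotProduct, dotProduct_smul]
    ring

theorem not_rankOne_of_one_sided (hρ : Function.Injective ρ) {a φ b ψ : ι → F} (h : φ ⬝ᵥ a = 0)
    (hψ : ψ ⬝ᵥ b = 0) (h1 : φ ⬝ᵥ b = 0) (h2 : ψ ⬝ᵥ a ≠ 0) (ha : a ≠ 0) (hb : b ≠ 0) (hφ : φ ≠ 0)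
    (hA : ∀ c : F, tv a (c • φ) ∈ ρ.range) :
    ¬ IsRankOnePair (Tsub ρ a φ) (Tsub ρ b ψ) := by
  intro hR
  obtain ⟨x, hx, hxe⟩ := exists_mem_Tsub h hA 1
  have hx1 : x ≠ 1 := fun e => tv_ne_one h ha hφ (by rw [e, map_one, one_smul] at hxe; exact hxe.symm)
  obtain ⟨y, hy, hy1, e⟩ := hR.cond_left x hx hx1
  obtain ⟨d, hd⟩ := (mem_Tsub hψ).1 (inv_mem hy)
  obtain ⟨c, hc⟩ := (mem_Tsub h).1 (inv_mem hx)
  rw [conjBy_Tsub_by hρ h hψ hd, conjBy_Tsub_by hρ hψ h hc, h1] at e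
  simp only [mul_zero, zero_smul, sub_zero, add_zero] at e
  have hdot : φ ⬝ᵥ (a + (d * (ψ ⬝ᵥ a)) • b) = 0 := by simp [dotProduct_add, h, h1]
  have ha' : a + (d * (ψ ⬝ᵥ a)) • b ≠ 0 := by
    intro h0
    apply h2
    have := congrArg (fun v => ψ ⬝ᵥ v) h0
    simpa [dotProduct_add, hψ] using this
  have hA' : ∀ c' : F, tv (a + (d * (ψ ⬝ᵥ a)) • b) (c' • φ) ∈ ρ.range := by
    intro c'
    obtain ⟨z, hz, hze⟩ := exists_mem_Tsub h hA c'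
    refine ⟨y⁻¹ * z * y⁻¹⁻¹, ?_⟩
    rw [map_mul, map_mul, hze, map_inv ρ y⁻¹, hd, tv_conj_tv (by simp [hψ]) (by simp [h])]
    simp [smul_smul, h1]
  obtain ⟨s, hs, hse⟩ := Tsub_center_eq hdot (by simp [sub_dotProduct, hψ, h1]) ha' hφ hA' e
  have := congrArg (fun v => ψ ⬝ᵥ v) hse
  simp [dotProduct_add, hψ] at this
  exact h2 this

theorem commutatorCase_facts (hρ : Function.Injective ρ) {a φ b ψ : ι → F} (h : φ ⬝ᵥ a = 0)
    (hψ : ψ ⬝ᵥ b = 0) (h1 : φ ⬝ᵥ b = 0) (h2 : ψ ⬝ᵥ a ≠ 0)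
    (hA : ∀ c : F, tv a (c • φ) ∈ ρ.range) (hB : ∀ c : F, tv b (c • ψ) ∈ ρ.range)
    (S : Set (Subgroup G)) (hS : Tsub ρ b φ ∈ S) (ha : a ≠ 0) (hb : b ≠ 0) (hφ : φ ≠ 0) (hψ0 : ψ ≠ 0) :
    RootCommutatorCase S (Tsub ρ a φ) (Tsub ρ b ψ) := by
  have key : ∀ x y : G, ∀ c d : F, ρ x = tv a (c • φ) → ρ y = tv b (d • ψ) →
      ρ (x * y * x⁻¹ * y⁻¹) = tv b ((-(d * (ψ ⬝ᵥ a)) * c) • φ) := by
    intro x y c d hx hy
    rw [map_mul, map_mul, map_mul, map_inv, map_inv, hx, hy, tv_commutator (by simp [h]) (by simp [hψ]) (by simp [h1]),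
      smul_smul, smul_dotProduct, smul_eq_mul]
  have hle : ⁅Tsub ρ a φ, Tsub ρ b ψ⁆ ≤ Tsub ρ b φ := by
    rw [Subgroup.commutator_le]
    intro x hx y hy
    obtain ⟨c, hc⟩ := (mem_Tsub h).1 hx
    obtain ⟨d, hd⟩ := (mem_Tsub hψ).1 hy
    exact (mem_Tsub h1).2 ⟨_, by rw [commutatorElement_def]; exact key x y c d hc hd⟩
  have hfix : ∀ x ∈ Tsub ρ a φ, x ≠ 1 → Tsub ρ b φ ≤
      Subgroup.closure ((fun y : G => x * y * x⁻¹ * y⁻¹) '' (Tsub ρ b ψ : Set G)) := by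
    intro x hx hx1 z hz
    obtain ⟨c, hc⟩ := (mem_Tsub h).1 hx
    have hc0 : c ≠ 0 := fun h0 => hx1 (hρ (by rw [hc, h0, zero_smul, tv_zero_right, map_one]))
    obtain ⟨e, he⟩ := (mem_Tsub h1).1 hz
    obtain ⟨y, hy, hye⟩ := exists_mem_Tsub hψ hB (-(e * c⁻¹ * (ψ ⬝ᵥ a)⁻¹))
    refine Subgroup.subset_closure ⟨y, hy, hρ ?_⟩
    rw [key x y _ _ hc hye, he]
    congr 2; field_simp
  have hfix' : ∀ y ∈ Tsub ρ b ψ, y ≠ 1 → Tsub ρ b φ ≤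
      Subgroup.closure ((fun x : G => x * y * x⁻¹ * y⁻¹) '' (Tsub ρ a φ : Set G)) := by
    intro y hy hy1 z hz
    obtain ⟨d, hd⟩ := (mem_Tsub hψ).1 hy
    have hd0 : d ≠ 0 := fun h0 => hy1 (hρ (by rw [hd, h0, zero_smul, tv_zero_right, map_one]))
    obtain ⟨e, he⟩ := (mem_Tsub h1).1 hz
    obtain ⟨x, hx, hxe⟩ := exists_mem_Tsub h hA (-(e * d⁻¹ * (ψ ⬝ᵥ a)⁻¹))
    refine Subgroup.subset_closure ⟨x, hx, hρ ?_⟩
    rw [key x y _ _ hxe hd, he]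
    congr 2; field_simp
  have hsub1 : ∀ x ∈ Tsub ρ a φ, Subgroup.closure ((fun y : G => x * y * x⁻¹ * y⁻¹) '' (Tsub ρ b ψ : Set G)) ≤
      ⁅Tsub ρ a φ, Tsub ρ b ψ⁆ := fun x hx => (Subgroup.closure_le _).2 <| by
    rintro _ ⟨y, hy, rfl⟩; exact comm_elem_mem hx hy
  have hsub2 : ∀ y ∈ Tsub ρ b ψ, Subgroup.closure ((fun x : G => x * y * x⁻¹ * y⁻¹) '' (Tsub ρ a φ : Set G)) ≤
      ⁅Tsub ρ a φ, Tsub ρ b ψ⁆ := fun y hy => (Subgroup.closure_le _).2 <| by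
    rintro _ ⟨x, hx, rfl⟩; exact comm_elem_mem hx hy
  obtain ⟨x, hx, hx1⟩ := (Tsub ρ a φ).bot_or_exists_ne_one.resolve_left (Tsub_ne_bot h ha hφ hA)
  have heq : ⁅Tsub ρ a φ, Tsub ρ b ψ⁆ = Tsub ρ b φ := le_antisymm hle ((hfix x hx hx1).trans (hsub1 x hx))
  refine ⟨heq ▸ hS, ?_, fun x hx hx1 => le_antisymm (hsub1 x hx) (hle.trans (hfix x hx hx1)),
    fun y hy hy1 => le_antisymm (hsub2 y hy) (hle.trans (hfix' y hy hy1))⟩
  intro z hz g hg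
  have hc1 := Tsub_comm hρ h1 h h h1 (ρ := ρ)
  have hc2 := Tsub_comm hρ h1 hψ h1 hψ (ρ := ρ)
  rw [Subgroup.commutator_eq_bot_iff_le_centralizer] at hc1 hc2
  have hgz : Tsub ρ a φ ⊔ Tsub ρ b ψ ≤ Subgroup.centralizer {z} := by
    refine sup_le ?_ ?_ <;> intro w hw <;> rw [Subgroup.mem_centralizer_singleton_iff]
    · exact Subgroup.mem_centralizer_iff.1 (hc1 (heq ▸ hz)) w hw
    · exact Subgroup.mem_centralizer_iff.1 (hc2 (heq ▸ hz)) w hw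
  exact (Subgroup.mem_centralizer_singleton_iff.1 (hgz hg)).symm

theorem exists_both_ne {φ ψ : ι → F} (hφ : φ ≠ 0) (hψ : ψ ≠ 0) :
    ∃ z : ι → F, φ ⬝ᵥ z ≠ 0 ∧ ψ ⬝ᵥ z ≠ 0 := by
  obtain ⟨x, hx⟩ : ∃ x, φ ⬝ᵥ x ≠ 0 := by
    by_contra hc; push Not at hc; exact hφ (dotProduct_eq_zero φ hc)
  obtain ⟨y, hy⟩ : ∃ y, ψ ⬝ᵥ y ≠ 0 := by
    by_contra hc; push Not at hc; exact hψ (dotProduct_eq_zero ψ hc)
  by_cases e1 : ψ ⬝ᵥ x = 0
  · by_cases e2 : φ ⬝ᵥ y = 0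
    · exact ⟨x + y, by simp [dotProduct_add, e2, hx], by simp [dotProduct_add, e1, hy]⟩
    · exact ⟨y, e2, hy⟩
  · exact ⟨x, hx, e1⟩

/-- In a family connected through rank one pairs all members are conjugate. -/
theorem conj_of_connected {S : Set (Subgroup G)} (hS : IsConnectedFamily (FAdj S) S) :
    ∀ A ∈ S, ∀ B ∈ S, ∃ g : G, B = conjBy A g := by
  intro A hA B hB
  induction hS A hA B hB with
  | refl => exact ⟨1, (conjBy_one A).symm⟩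
  | @tail C D h1 h2 ih =>
    obtain ⟨g, hg⟩ := ih h2.1
    obtain ⟨x, -, hx⟩ := right_mem_unipotent h2.2.2
    exact ⟨x * g, by rw [hx, hg, conjBy_mul]⟩

theorem map_upper {L : Type*} [Field L] (i : L →+* F) (t : L) :
    Matrix.SpecialLinearGroup.map i (up L t) = up F (i t) := by
  apply Subtype.ext
  ext a b
  fin_cases a <;> fin_cases b <;> simp [coe_up, Matrix.SpecialLinearGroup.map_apply_coe]

theorem map_lower {L : Type*} [Field L] (i : L →+* F) (t : L) :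
    Matrix.SpecialLinearGroup.map i (low L t) = low F (i t) := by
  apply Subtype.ext
  ext a b
  fin_cases a <;> fin_cases b <;> simp [coe_low, Matrix.SpecialLinearGroup.map_apply_coe]

/-- The rank one group over a subfield of scalars. -/
theorem Tsub_rankOne_field (hρ : Function.Injective ρ) {L : Type*} [Field L] (i : L →+* F) {a φ b ψ : ι → F}
    (h1 : ψ ⬝ᵥ a = 1) (h2 : φ ⬝ᵥ b = 1) (h3 : φ ⬝ᵥ a = 0) (h4 : ψ ⬝ᵥ b = 0)
    (hA : ∀ c : F, tv a (c • φ) ∈ ρ.range ↔ c ∈ i.range) (hB : ∀ c : F, tv b (c • ψ) ∈ ρ.range ↔ c ∈ i.range) :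
    IsRankOnePair (Tsub ρ a φ) (Tsub ρ b ψ) ∧ IsPSL2PairOver L (Tsub ρ a φ) (Tsub ρ b ψ) ∧
      ∀ S : Set (Subgroup G), ¬ RootCommutatorCase S (Tsub ρ a φ) (Tsub ρ b ψ) := by
  set E := (emb h1 h2 h3 h4).comp (Matrix.SpecialLinearGroup.map i) with hE
  have hEu : ∀ t, E (up L t) = tv a (i t • φ) := fun t => by rw [hE, MonoidHom.comp_apply, map_upper, emb_up]
  have hEl : ∀ t, E (low L t) = tv b (i t • ψ) := fun t => by rw [hE, MonoidHom.comp_apply, map_lower, emb_low]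
  have hr : ∀ g, E g ∈ ρ.range := by
    intro g
    have : upperUnipotentSL2 L ⊔ lowerUnipotentSL2 L ≤ ρ.range.comap E := by
      refine sup_le ?_ ?_ <;> intro x hx
      · obtain ⟨t, rfl⟩ := (mem_up L x).1 hx
        rw [Subgroup.mem_comap, hEu]; exact (hA _).2 ⟨t, rfl⟩
      · obtain ⟨t, rfl⟩ := (mem_low L x).1 hx
        rw [Subgroup.mem_comap, hEl]; exact (hB _).2 ⟨t, rfl⟩
    rw [upper_sup_lower] at this
    exact this (Subgroup.mem_top g)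
  let Φ : Matrix.SpecialLinearGroup (Fin 2) L →* G :=
    (MonoidHom.ofInjective hρ).symm.toMonoidHom.comp (E.codRestrict ρ.range hr)
  have hΦ : ∀ g, ρ (Φ g) = E g := fun g =>
    congrArg Subtype.val ((MonoidHom.ofInjective hρ).apply_symm_apply ⟨E g, hr g⟩)
  have hker : Φ.ker ≤ Subgroup.center _ := by
    intro g hg
    have e : E g = 1 := by rw [← hΦ, hg, map_one]
    rw [hE, MonoidHom.comp_apply, ← map_one (emb h1 h2 h3 h4)] at e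
    have h := emb_injective h1 h2 h3 h4 e
    have : g = 1 := by
      apply Subtype.ext
      ext x y
      have h5 := congrArg (fun z : Matrix.SpecialLinearGroup (Fin 2) F => (z : Matrix (Fin 2) (Fin 2) F) x y) h
      fin_cases x <;> fin_cases y <;> simp [Matrix.SpecialLinearGroup.map_apply_coe] at h5 ⊢ <;> exact i.injective (by simpa using h5)
    rw [this]; exact one_mem _
  have eA : (upperUnipotentSL2 L).map Φ = Tsub ρ a φ := by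
    ext z
    rw [mem_Tsub h3]
    constructor
    · rintro ⟨x, hx, rfl⟩
      obtain ⟨t, rfl⟩ := (mem_up L x).1 hx
      exact ⟨i t, (hΦ _).trans (hEu t)⟩
    · rintro ⟨c, hc⟩
      obtain ⟨t, rfl⟩ := (hA c).1 ⟨z, hc⟩
      exact ⟨up L t, (mem_up L _).2 ⟨t, rfl⟩, hρ (((hΦ _).trans (hEu t)).trans hc.symm)⟩
  have eB : (lowerUnipotentSL2 L).map Φ = Tsub ρ b ψ := by
    ext z
    rw [mem_Tsub h4]
    constructor
    · rintro ⟨x, hx, rfl⟩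
      obtain ⟨t, rfl⟩ := (mem_low L x).1 hx
      exact ⟨i t, (hΦ _).trans (hEl t)⟩
    · rintro ⟨c, hc⟩
      obtain ⟨t, rfl⟩ := (hB c).1 ⟨z, hc⟩
      exact ⟨low L t, (mem_low L _).2 ⟨t, rfl⟩, hρ (((hΦ _).trans (hEl t)).trans hc.symm)⟩
  rw [← eA, ← eB]
  exact ⟨isRankOnePair_map hker, isPSL2PairOver_map hker, fun S => not_rootCommutatorCase_map S hker⟩

end Cfsg.Agent.Lib.Root
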